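import Mathlib
import Cfsg.Prelude.Def_GeometricClasses
import Cfsg.Agent.Helper94.ONd1

/-!
# Piece N2 of CALL S5874 (helper95)

* `o12_eichler`: for a non-degenerate quadratic form given as a function (all characteristics,
  dimension at least 5), the Eichler transformation `E(u, b)` (`Q u = 0`, `u ⟂ b`) lies in
  `omegaGL Q`, with its explicit action.
* `o12_notOmega_decomp`: `Ω(Q)` does not stabilise a non-degenerate decomposition into blocks of
  dimension at least 3.
-/

set_option autoImplicit false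
open Cfsg Cfsg.Geo Matrix

namespace Cfsg.Agent.Helper66

variable {ι : Type} [Fintype ι] [DecidableEq ι] {F : Type*} [Field F]

/-- The Eichler transformation `E(u, b)` as an element of `omegaGL Q`. -/
theorem o12_eichler [Fintype F] (Q : (ι → F) → F) (hQ : IsNondegenerateQuadraticForm Q)
    (hn : 5 ≤ Fintype.card ι) (u b : ι → F) (hu : Q u = 0)
    (hub : QuadraticMap.polar Q u b = 0) :
    ∃ E : GL ι F, E ∈ omegaGL Q ∧ ∀ x, (E : Matrix ι ι F) *ᵥ x =
      x + (QuadraticMap.polar Q b x - Q b * QuadraticMap.polar Q u x) • u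
        - (QuadraticMap.polar Q u x) • b := by
  refine ⟨(Helper94.oE (Helper98.op_qf Q hQ) u b : GL ι F),
    ⟨Helper94.oE (Helper98.op_qf Q hQ) u b,
      Helper94.oE_mem_omega (Helper98.op_qf Q hQ) (Helper98.op_qf_nondeg Q hQ) hn u b, rfl⟩,
    fun x => ?_⟩
  exact Helper94.mv_oE (Helper98.op_qf Q hQ) u b hu hub x

/-- **Piece N2 of CALL S5874.** -/
theorem o12_notOmega_decomp [Fintype F] (Q : (ι → F) → F) (hQ : IsNondegenerateQuadraticForm Q)
    (hn : 5 ≤ Fintype.card ι) {t k : ℕ} (hk : 3 ≤ k) (D : Fin t → Submodule F (ι → F))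
    (hD : IsNondegenerateMDecomposition (QuadraticMap.polar Q) k D) :
    ¬ omegaGL Q ≤ decompositionStabilizer D := by
  classical
  intro hle
  have h2t := hD.decomp.two_le
  obtain ⟨i0, hi0⟩ : ∃ i : Fin t, i = ⟨0, by omega⟩ := ⟨_, rfl⟩
  obtain ⟨i1, hi1⟩ : ∃ i : Fin t, i = ⟨1, by omega⟩ := ⟨_, rfl⟩
  have h01 : i0 ≠ i1 := by simp [hi0, hi1, Fin.ext_iff]
  have hdisj : Disjoint (D i0) (D i1) := hD.decomp.indep.pairwiseDisjoint h01
  -- a singular vector in `D i0`
  obtain ⟨u, huD, hu0, hQu⟩ := Helper45.exists_sing_in (Helper98.op_qf Q hQ) (D i0)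
    (by rw [hD.decomp.finrank_eq]; exact hk)
  have hQu' : Q u = 0 := hQu
  -- a non-zero vector in `D i1`
  have hD1 : D i1 ≠ ⊥ := by
    intro h
    have h1 := hD.decomp.finrank_eq i1
    rw [h, finrank_bot] at h1
    omega
  obtain ⟨v, hvD, hv0⟩ := (Submodule.ne_bot_iff _).mp hD1
  have huv : QuadraticMap.polar Q u v = 0 := hD.orthogonal i0 i1 h01 u huD v hvD
  obtain ⟨E, hEΩ, hE⟩ := o12_eichler Q hQ hn u v hQu' huv
  obtain ⟨σ, hσ⟩ := hle hEΩ
  have huu : QuadraticMap.polar Q u u = 0 := by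
    have h1 : u + u = (2 : F) • u := (two_smul F u).symm
    rw [QuadraticMap.polar, h1, hQ.smul, hQu', mul_zero, sub_zero, sub_zero]
  have hEu : (E : Matrix ι ι F) *ᵥ u = u := by
    rw [hE, QuadraticMap.polar_comm Q v u, huv, huu, mul_zero, sub_zero, zero_smul, zero_smul,
      add_zero, sub_zero]
  have hσ0 : σ i0 = i0 := by
    by_contra hne
    have h1 : u ∈ D (σ i0) := by
      rw [← hσ i0]
      exact ⟨u, huD, by rw [Matrix.toLin'_apply]; exact hEu⟩
    have hdisj' : Disjoint (D (σ i0)) (D i0) := hD.decomp.indep.pairwiseDisjoint hne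
    exact hu0 (Submodule.disjoint_def.mp hdisj' u h1 huD)
  obtain ⟨⟨x, hxD, hxu⟩, -⟩ := hD.nondegenerate i0 u huD hu0
  have hEx : (E : Matrix ι ι F) *ᵥ x ∈ D i0 := by
    have h1 : (E : Matrix ι ι F) *ᵥ x ∈ D (σ i0) := by
      rw [← hσ i0]
      exact ⟨x, hxD, by rw [Matrix.toLin'_apply]⟩
    rwa [hσ0] at h1
  rw [hE] at hEx
  have h3 : (QuadraticMap.polar Q u x) • v ∈ D i0 := by
    have h4 := (D i0).sub_mem ((D i0).add_mem hxD ((D i0).smul_mem
      (QuadraticMap.polar Q v x - Q v * QuadraticMap.polar Q u x) huD)) hEx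
    have h5 : x + (QuadraticMap.polar Q v x - Q v * QuadraticMap.polar Q u x) • u -
        (x + (QuadraticMap.polar Q v x - Q v * QuadraticMap.polar Q u x) • u -
          QuadraticMap.polar Q u x • v) = QuadraticMap.polar Q u x • v := by abel
    rwa [h5] at h4
  have hux : QuadraticMap.polar Q u x ≠ 0 := by rwa [QuadraticMap.polar_comm]
  have h5 : v ∈ D i0 := by
    have h6 := (D i0).smul_mem (QuadraticMap.polar Q u x)⁻¹ h3
    rwa [smul_smul, inv_mul_cancel₀ hux, one_smul] at h6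
  exact hv0 (Submodule.disjoint_def.mp hdisj v h5 hvD)

end Cfsg.Agent.Helper66
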