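import Mathlib
import Cfsg.Agent.Helper71.T4Defs

/-!
# CALL S5637, piece K5a (helper66): `pure_line`

If `g` maps pure tensors to pure tensors and `a < b`, then for a fixed `u ≠ 0` the images of the
pure tensors `u ⊗ w` all have the same first factor: `g (u ⊗ w) = u' ⊗ (B w)`.
-/

set_option autoImplicit false

namespace Cfsg.Agent.Helper66.T4K5a

open Matrix Cfsg.Agent.Helper71.T4
open scoped Kronecker

variable {F : Type*} [Field F] {a b : ℕ}

/-- entries of `g *ᵥ pt u w`. -/
theorem k5a_apply (g : Matrix (Fin a × Fin b) (Fin a × Fin b) F) (u : Fin a → F) (w : Fin b → F)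
    (i : Fin a) (k : Fin b) :
    (g *ᵥ pt u w) (i, k) = ∑ l, (∑ j, g (i, k) (j, l) * u j) * w l := by
  simp only [Matrix.mulVec, dotProduct, pt, Fintype.sum_prod_type, Finset.sum_mul]
  rw [Finset.sum_comm]
  refine Finset.sum_congr rfl fun l _ => Finset.sum_congr rfl fun j _ => ?_
  ring

/-- additivity of `w ↦ g *ᵥ pt u w`. -/
theorem k5a_add (g : Matrix (Fin a × Fin b) (Fin a × Fin b) F) (u : Fin a → F) (w w' : Fin b → F) :
    g *ᵥ pt u (w + w') = g *ᵥ pt u w + g *ᵥ pt u w' := by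
  rw [← Matrix.mulVec_add]
  congr 1
  funext p
  simp [pt, mul_add]

/-- piece K5a -/
theorem pure_line (hab : a < b) (g : Matrix (Fin a × Fin b) (Fin a × Fin b) F) (hg : g.det ≠ 0)
    (h : ∀ (u : Fin a → F) (w : Fin b → F), ∃ (u' : Fin a → F) (w' : Fin b → F),
      g *ᵥ pt u w = pt u' w') (u : Fin a → F) (hu : u ≠ 0) :
    ∃ (u' : Fin a → F) (B : Matrix (Fin b) (Fin b) F), ∀ w : Fin b → F,
      g *ᵥ pt u w = pt u' (B *ᵥ w) := by
  -- injectivity
  have hinj : ∀ w : Fin b → F, g *ᵥ pt u w = 0 → w = 0 := by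
    intro w hw
    have h0 : pt u w = 0 := Matrix.eq_zero_of_mulVec_eq_zero hg hw
    obtain ⟨i₁, hi₁⟩ : ∃ i, u i ≠ 0 := by
      by_contra hcon
      push Not at hcon
      exact hu (funext hcon)
    funext l
    have := congrFun h0 (i₁, l)
    simp only [pt, Pi.zero_apply, mul_eq_zero] at this
    exact this.resolve_left hi₁
  -- a base vector
  have hb : 0 < b := by omega
  obtain ⟨u₀, w₀', h0⟩ := h u (fun _ => 1)
  have hne : g *ᵥ pt u (fun _ => 1) ≠ 0 := by
    intro hz
    have := congrFun (hinj _ hz) ⟨0, hb⟩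
    simp at this
  obtain ⟨⟨i₀, k₀⟩, hik⟩ : ∃ p, (g *ᵥ pt u (fun _ => 1)) p ≠ 0 := by
    by_contra hcon
    push Not at hcon
    exact hne (funext hcon)
  rw [h0] at hik
  have hu₀ : u₀ i₀ ≠ 0 := left_ne_zero_of_mul hik
  have hw₀ : w₀' k₀ ≠ 0 := right_ne_zero_of_mul hik
  -- dichotomy for each `w`
  have hPQ : ∀ w, (∃ y, g *ᵥ pt u w = pt u₀ y) ∨ (∃ x, g *ᵥ pt u w = pt x w₀') := by
    intro w
    obtain ⟨u', w', hw⟩ := h u w
    obtain ⟨u'', w'', hs⟩ := h u (w + fun _ => 1)
    have hsum : pt u' w' + pt u₀ w₀' = pt u'' w'' := by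
      rw [← hw, ← h0, ← hs, k5a_add]
    have hminor : ∀ i j k l,
        (u' i * u₀ j - u₀ i * u' j) * (w' k * w₀' l - w' l * w₀' k) = 0 := by
      intro i j k l
      have e1 := congrFun hsum (i, k)
      have e2 := congrFun hsum (j, l)
      have e3 := congrFun hsum (i, l)
      have e4 := congrFun hsum (j, k)
      simp only [pt, Pi.add_apply] at e1 e2 e3 e4
      linear_combination (u' j * w' l + u₀ j * w₀' l) * e1 + (u'' i * w'' k) * e2
        - (u' j * w' k + u₀ j * w₀' k) * e3 - (u'' i * w'' l) * e4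
    by_cases hA : ∀ i j, u' i * u₀ j = u₀ i * u' j
    · left
      refine ⟨(u' i₀ / u₀ i₀) • w', ?_⟩
      rw [hw]
      funext p
      simp only [pt, Pi.smul_apply, smul_eq_mul]
      have := hA p.1 i₀
      field_simp
      linear_combination (w' p.2) * this
    · right
      push Not at hA
      obtain ⟨i, j, hij⟩ := hA
      have hB : ∀ k l, w' k * w₀' l = w' l * w₀' k := by
        intro k l
        rcases mul_eq_zero.mp (hminor i j k l) with h1 | h1
        · exact absurd (sub_eq_zero.mp h1) hij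
        · exact sub_eq_zero.mp h1
      refine ⟨(w' k₀ / w₀' k₀) • u', ?_⟩
      rw [hw]
      funext p
      simp only [pt, Pi.smul_apply, smul_eq_mul]
      have := hB p.2 k₀
      field_simp
      linear_combination (u' p.1) * this
  -- a vector space is not the union of two proper subspaces
  have hP_or_Q : (∀ w, ∃ y, g *ᵥ pt u w = pt u₀ y) ∨ (∀ w, ∃ x, g *ᵥ pt u w = pt x w₀') := by
    by_contra hcon
    rw [not_or] at hcon
    obtain ⟨hc1, hc2⟩ := hcon
    push Not at hc1 hc2
    obtain ⟨w₁, hw₁⟩ := hc1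
    obtain ⟨w₂, hw₂⟩ := hc2
    obtain ⟨x₁, hx₁⟩ := (hPQ w₁).resolve_left (by rintro ⟨y, hy⟩; exact hw₁ y hy)
    obtain ⟨y₂, hy₂⟩ := (hPQ w₂).resolve_right (by rintro ⟨x, hx⟩; exact hw₂ x hx)
    have hadd : g *ᵥ pt u (w₁ + w₂) = pt x₁ w₀' + pt u₀ y₂ := by
      rw [← hx₁, ← hy₂, k5a_add]
    rcases hPQ (w₁ + w₂) with ⟨y, hy⟩ | ⟨x, hx⟩
    · apply hw₁ (y - y₂)
      rw [hx₁]
      have e : pt x₁ w₀' = pt u₀ y - pt u₀ y₂ := by rw [← hy, hadd]; abel
      rw [e]
      funext p
      simp [pt, mul_sub]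
    · apply hw₂ (x - x₁)
      rw [hy₂]
      have e : pt u₀ y₂ = pt x w₀' - pt x₁ w₀' := by rw [← hx, hadd]; abel
      rw [e]
      funext p
      simp [pt, sub_mul]
  rcases hP_or_Q with hP | hQ
  · refine ⟨u₀, Matrix.of (fun k l => (∑ j, g (i₀, k) (j, l) * u j) / u₀ i₀), fun w => ?_⟩
    obtain ⟨y, hy⟩ := hP w
    have hyk : ∀ k, y k = (g *ᵥ pt u w) (i₀, k) / u₀ i₀ := by
      intro k
      rw [hy]
      simp only [pt]
      field_simp
    rw [hy]
    funext p
    simp only [pt]
    congr 1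
    rw [hyk, k5a_apply, Matrix.mulVec, dotProduct, Finset.sum_div]
    refine Finset.sum_congr rfl fun l _ => ?_
    simp only [Matrix.of_apply]
    ring
  · exfalso
    obtain ⟨w, hw0, hNw⟩ : ∃ w : Fin b → F, w ≠ 0 ∧
        ∀ i, ∑ l, (∑ j, g (i, k₀) (j, l) * u j) * w l = 0 := by
      let f : (Fin b → F) →ₗ[F] (Fin a → F) :=
        { toFun := fun w i => ∑ l, (∑ j, g (i, k₀) (j, l) * u j) * w l
          map_add' := by
            intro x y
            funext i
            simp [mul_add, Finset.sum_add_distrib]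
          map_smul' := by
            intro c x
            funext i
            simp only [Pi.smul_apply, smul_eq_mul, RingHom.id_apply, Finset.mul_sum]
            refine Finset.sum_congr rfl fun l _ => ?_
            ring }
      have hk : LinearMap.ker f ≠ ⊥ := by
        apply LinearMap.ker_ne_bot_of_finrank_lt
        simp only [Module.finrank_pi, Fintype.card_fin]
        omega
      obtain ⟨w, hw, hw0⟩ := (Submodule.ne_bot_iff _).1 hk
      exact ⟨w, hw0, fun i => congrFun (LinearMap.mem_ker.1 hw) i⟩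
    apply hw0
    apply hinj
    obtain ⟨x, hx⟩ := hQ w
    have hx0 : x = 0 := by
      funext i
      have h1 : (g *ᵥ pt u w) (i, k₀) = 0 := by
        rw [k5a_apply]
        exact hNw i
      rw [hx] at h1
      simp only [pt] at h1
      exact (mul_eq_zero.mp h1).resolve_right hw₀
    rw [hx, hx0]
    funext p
    simp [pt]

end Cfsg.Agent.Helper66.T4K5a
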