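import Mathlib
import Cfsg.Agent.Helper15.B42Defs
import Cfsg.Agent.Helper65.D1IF

/-!
# CALL S4503, piece GAL (helper66): Galois conjugates of small exceptional characters
-/

universe u
set_option autoImplicit false
open Cfsg Cfsg.Agent.Helper77 Cfsg.Agent.Helper15
open scoped ComplexConjugate

namespace Cfsg.Agent.Helper66

variable {G : Type u} [Group G] [Finite G]

/-- An automorphism fixing the `M₀`-th roots of unity fixes the values of irreducible characters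
at the elements of order dividing `M₀`. -/
theorem b42gal_fix (τ : ℂ ≃+* ℂ) (M₀ : ℕ) (hM₀ : M₀ ≠ 0) (hτ : ∀ w : ℂ, w ^ M₀ = 1 → τ w = w)
    (χ : Cfsg.IrrCharacter G) (g : G) (hg : g ^ M₀ = 1) :
    τ ((χ : G → ℂ) g) = (χ : G → ℂ) g := by
  obtain ⟨n, ρ, -, hρ⟩ := χ.2
  have hf : (ρ g) ^ M₀ = 1 := by rw [← map_pow, hg, map_one]
  obtain ⟨s, hs1, -, hs3⟩ := Cfsg.Agent.Helper75.exists_eigen_multiset (ρ g) M₀ hM₀ hf
  have h1 := hs3 1
  simp only [pow_one, Multiset.map_id'] at h1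
  have hχ : (χ : G → ℂ) g = s.sum := by rw [← hρ]; exact h1
  rw [hχ, map_multiset_sum, Multiset.map_congr rfl (fun μ hμ => hτ μ (hs1 μ hμ)),
    Multiset.map_id']

/-- `ζ ^ n` only depends on `n` modulo `p`. -/
theorem b42gal_zeta_pow (p : ℕ) [Fact p.Prime] (n : ℕ) :
    d1zeta p ^ n = d1zeta p ^ ((n : ZMod p)).val := by
  have hp : p.Prime := Fact.out
  have hζp : d1zeta p ^ p = 1 := (Complex.isPrimitiveRoot_exp p hp.ne_zero).pow_eq_one
  rw [ZMod.val_natCast]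
  exact pow_eq_pow_mod n hζp

theorem b42_gal (p : ℕ) [Fact p.Prime] (x : G) (K : Subgroup G) (h : D1Hyp p x K)
    (ψ : Cfsg.IrrCharacter G) (t : ℕ) (l₀ : ZMod p) (hsh : B42Shape p x (ψ : G → ℂ) t l₀)
    (v : (ZMod p)ˣ) :
    ∃ ψ' : Cfsg.IrrCharacter G, B42Shape p x (ψ' : G → ℂ) t ((v : ZMod p) * l₀) ∧
      ∀ g : G, ¬ p ∣ orderOf g → (ψ' : G → ℂ) g = (ψ : G → ℂ) g := by
  classical
  have hp : p.Prime := Fact.out
  have hpG : p ∣ Nat.card G := by rw [← h.hx]; exact orderOf_dvd_natCard x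
  obtain ⟨M₀, hM₀⟩ := hpG
  have hM₀p : ¬ p ∣ M₀ := by
    rintro ⟨c, hc⟩
    exact h.hsq ⟨c, by rw [hM₀, hc]; ring⟩
  have hM₀0 : M₀ ≠ 0 := by rintro rfl; exact hM₀p (dvd_zero p)
  obtain ⟨-, h2, -⟩ := Cfsg.Agent.Helper65.d1_inertial p x K h M₀ hM₀p (by rw [hM₀])
  obtain ⟨τ, hτ, hτζ, -⟩ := h2 v
  refine ⟨⟨fun g => τ ((ψ : G → ℂ) g), Cfsg.Agent.Helper75.isIrrCharacter_ringEquiv τ ψ.2⟩,
    ?_, ?_⟩
  · intro b
    show τ ((ψ : G → ℂ) (x ^ b)) = _
    rw [hsh b, map_mul, map_natCast]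
    congr 1
    have hfin : (normUnits p x).Finite := Set.toFinite _
    rw [finsum_mem_eq_finite_toFinset_sum _ hfin, finsum_mem_eq_finite_toFinset_sum _ hfin,
      map_sum]
    refine Finset.sum_congr rfl (fun s _ => ?_)
    rw [map_pow, hτζ, ← pow_mul, b42gal_zeta_pow]
    congr 2
    rw [Nat.cast_mul, ZMod.natCast_zmod_val, ZMod.natCast_zmod_val]
    ring
  · intro g hg
    show τ ((ψ : G → ℂ) g) = _
    apply b42gal_fix τ M₀ hM₀0 hτ ψ g
    have h1 : orderOf g ∣ p * M₀ := by rw [← hM₀]; exact orderOf_dvd_natCard g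
    have h2 : (orderOf g).Coprime p := ((Nat.Prime.coprime_iff_not_dvd hp).mpr hg).symm
    exact orderOf_dvd_iff_pow_eq_one.mp (h2.dvd_of_dvd_mul_left h1)

end Cfsg.Agent.Helper66
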