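import Mathlib
import Cfsg.Prelude.Def_GeometricClasses
import Cfsg.Prelude.Def_Classical
import Cfsg.Agent.Helper58.TSDefs
import Cfsg.Agent.Helper35.OTLAG
import Cfsg.Agent.Helper43.OTDefs
import Cfsg.Agent.Helper98.OPar

set_option autoImplicit false

/-!
# CALL TSR2 (helper90) piece LAGQ (helper66): bridge to OT LAG in the Prelude language.
-/

namespace Cfsg.Agent.Helper66.TSR2

open Module Cfsg Cfsg.Geo Cfsg.Agent.Helper58.TS
open scoped MatrixGroups

variable {ι : Type} [Fintype ι] [DecidableEq ι] {F : Type*} [Field F] [Fintype F]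

/-- LAGQ: totally singular subspaces of a nondegenerate subspace. -/
theorem r2_lag (Q : (ι → F) → F) (hQ : IsNondegenerateQuadraticForm Q) (h2 : (2 : F) ≠ 0)
    (D : Submodule F (ι → F)) (hD : IsNondegenerateOn (QuadraticMap.polar Q) D) (a : ℕ)
    (ha : 2 * a + 1 ≤ finrank F D) :
    ∃ A : Submodule F (ι → F), A ≤ D ∧ (∀ w ∈ A, Q w = 0) ∧ finrank F A = a := by
  have hnd : Cfsg.Agent.Helper90.HT.HNondegOn
      (Cfsg.Agent.Helper43.OT.ph (Cfsg.Agent.Helper98.op_qf Q hQ)) D := by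
    intro v hv hv0
    by_contra hne
    obtain ⟨x, hx, hxne⟩ := (hD v hv hne).2
    exact hxne (hv0 x hx)
  obtain ⟨A, hAD, hTI, hfin⟩ := Cfsg.Agent.Helper35.OT5972.ot_lag
    (Cfsg.Agent.Helper43.OT.ph (Cfsg.Agent.Helper98.op_qf Q hQ))
    (Cfsg.Agent.Helper43.OT.isHerm_ph _) D hnd a ha
  refine ⟨A, hAD, ?_, hfin⟩
  intro w hw
  exact (Cfsg.Agent.Helper43.OT.hti_ph_iff h2 (Cfsg.Agent.Helper98.op_qf Q hQ) A).mp hTI w hw
end Cfsg.Agent.Helper66.TSR2
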