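import Mathlib
import Cfsg.Prelude.Def_GeometricClasses
import Cfsg.Agent.Helper96.SpCore
import Cfsg.Agent.Helper96.SpField
import Cfsg.Agent.Helper98.FieldSub

/-!
# Piece HFO of CALL S5850 (helper66): rotations of a 2-dimensional `E`-quadratic space commute
(odd characteristic, matrix-free form).
-/

set_option autoImplicit false
open Cfsg Cfsg.Geo Matrix

namespace Cfsg.Agent.Helper66

variable {ι : Type} [Fintype ι] [DecidableEq ι] {F : Type*} [Field F]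

theorem o10_rot_comm_odd [Fintype F] (h2 : (2 : F) ≠ 0) {r : ℕ}
    (f : (ι → F) → (ι → F) → F) (hf : IsSymmetricForm f) (hn : Fintype.card ι = 2 * r)
    (E : Subalgebra F (Matrix ι ι F)) (hE : IsFieldSubalgebra r E) (hsa : IsSelfAdjointFor f E)
    (g g' : GL ι F)
    (hg : ∀ u v : ι → F, f ((g : Matrix ι ι F) *ᵥ u) ((g : Matrix ι ι F) *ᵥ v) = f u v)
    (hg' : ∀ u v : ι → F, f ((g' : Matrix ι ι F) *ᵥ u) ((g' : Matrix ι ι F) *ᵥ v) = f u v)
    (hgE : ∀ k ∈ E, (g : Matrix ι ι F) * k = k * (g : Matrix ι ι F))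
    (hg'E : ∀ k ∈ E, (g' : Matrix ι ι F) * k = k * (g' : Matrix ι ι F))
    (hg2 : g * g ≠ 1) (hg'2 : g' * g' ≠ 1) : g * g' = g' * g := by
  classical
  have B := hf.bilinear
  have hsym := hf.symm
  have fnegl : ∀ x v, f (-x) v = -f x v := by
    intro x v
    have := B.smul_left (-1) x v
    simpa using this
  have fnegr : ∀ v x, f v (-x) = -f v x := by
    intro v x
    have := B.smul_right (-1) v x
    simpa using this
  have fsubl : ∀ x y v, f (x - y) v = f x v - f y v := by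
    intro x y v
    rw [sub_eq_add_neg, B.add_left, fnegl, ← sub_eq_add_neg]
  have fsubr : ∀ v x y, f v (x - y) = f v x - f v y := by
    intro v x y
    rw [sub_eq_add_neg, B.add_right, fnegr, ← sub_eq_add_neg]
  have fzl : ∀ v, f 0 v = 0 := by
    intro v
    have := B.smul_left 0 v v
    simpa using this
  have fzr : ∀ v, f v 0 = 0 := by
    intro v
    have := B.smul_right 0 v v
    simpa using this
  have sa : ∀ k ∈ E, ∀ u v, f (k *ᵥ u) v = f u (k *ᵥ v) := hsa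
  -- skew elements commuting with `E`
  have F1 : ∀ X : Matrix ι ι F, (∀ u v, f (X *ᵥ u) v = -f u (X *ᵥ v)) →
      (∀ k ∈ E, X * k = k * X) → ∀ k ∈ E, ∀ v, f (X *ᵥ v) (k *ᵥ v) = 0 := by
    intro X hXs hXE k hk v
    have h1 : f (X *ᵥ v) (k *ᵥ v) = -f (X *ᵥ v) (k *ᵥ v) := by
      calc f (X *ᵥ v) (k *ᵥ v) = f (k *ᵥ (X *ᵥ v)) v := (sa k hk _ _).symm
        _ = f (X *ᵥ (k *ᵥ v)) v := by
            rw [Matrix.mulVec_mulVec v k X, Matrix.mulVec_mulVec v X k, hXE k hk]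
        _ = -f (k *ᵥ v) (X *ᵥ v) := hXs _ _
        _ = -f (X *ᵥ v) (k *ᵥ v) := by rw [hsym]
    have h3 : (2 : F) * f (X *ᵥ v) (k *ᵥ v) = 0 := by linear_combination h1
    rcases mul_eq_zero.mp h3 with h4 | h4
    · exact absurd h4 h2
    · exact h4
  -- data attached to an isometry commuting with `E`
  have iso_facts : ∀ h : GL ι F,
      (∀ u v : ι → F, f ((h : Matrix ι ι F) *ᵥ u) ((h : Matrix ι ι F) *ᵥ v) = f u v) →
      (∀ k ∈ E, (h : Matrix ι ι F) * k = k * (h : Matrix ι ι F)) → h * h ≠ 1 →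
      ∃ J S : Matrix ι ι F,
        (∀ u v, f (J *ᵥ u) v = -f u (J *ᵥ v)) ∧ (∀ k ∈ E, J * k = k * J) ∧ J ≠ 0 ∧
        (∀ u v, f (S *ᵥ u) v = f u (S *ᵥ v)) ∧ (∀ k ∈ E, S * k = k * S) ∧ S * J = J * S ∧
        (h : Matrix ι ι F) = (2 : F)⁻¹ • (S + J) := by
    intro h hiso hcomm hne
    obtain ⟨H, hH⟩ : ∃ H : Matrix ι ι F, H = (h : Matrix ι ι F) := ⟨_, rfl⟩
    obtain ⟨Hi, hHi⟩ : ∃ Hi : Matrix ι ι F, Hi = ((h⁻¹ : GL ι F) : Matrix ι ι F) := ⟨_, rfl⟩
    have e1 : H * Hi = 1 := by rw [hH, hHi]; exact Units.mul_inv h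
    have e2 : Hi * H = 1 := by rw [hH, hHi]; exact Units.inv_mul h
    rw [← hH] at hiso hcomm ⊢
    have a1 : ∀ u v, f (H *ᵥ u) v = f u (Hi *ᵥ v) := by
      intro u v
      have := hiso u (Hi *ᵥ v)
      rw [Matrix.mulVec_mulVec v H Hi, e1, Matrix.one_mulVec] at this
      exact this
    have a2 : ∀ u v, f (Hi *ᵥ u) v = f u (H *ᵥ v) := by
      intro u v
      have := hiso (Hi *ᵥ u) v
      rw [Matrix.mulVec_mulVec u H Hi, e1, Matrix.one_mulVec] at this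
      exact this.symm
    have c1 : ∀ k ∈ E, Hi * k = k * Hi := by
      intro k hk
      calc Hi * k = Hi * k * (H * Hi) := by rw [e1, mul_one]
        _ = Hi * (k * H) * Hi := by simp only [mul_assoc]
        _ = Hi * (H * k) * Hi := by rw [hcomm k hk]
        _ = (Hi * H) * k * Hi := by simp only [mul_assoc]
        _ = k * Hi := by rw [e2, one_mul]
    refine ⟨H - Hi, H + Hi, ?_, ?_, ?_, ?_, ?_, ?_, ?_⟩
    · intro u v
      rw [Matrix.sub_mulVec, Matrix.sub_mulVec, fsubl, fsubr, a1, a2]; ring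
    · intro k hk; rw [sub_mul, mul_sub, hcomm k hk, c1 k hk]
    · intro h0
      apply hne
      have h1 : H = Hi := sub_eq_zero.mp h0
      apply Units.ext
      rw [Units.val_mul, Units.val_one, ← hH]
      calc H * H = H * Hi := by rw [← h1]
        _ = 1 := e1
    · intro u v
      rw [Matrix.add_mulVec, Matrix.add_mulVec, B.add_left, B.add_right, a1, a2]; ring
    · intro k hk; rw [add_mul, mul_add, hcomm k hk, c1 k hk]
    · rw [add_mul, mul_sub, mul_sub, sub_mul, mul_add, mul_add, e1, e2]; abel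
    · have h1 : H + Hi + (H - Hi) = (2 : F) • H := by rw [two_smul]; abel
      rw [h1, smul_smul, inv_mul_cancel₀ h2, one_smul]
  obtain ⟨J, S, hJs, hJE, hJ0, hSs, hSE, hSJ, hgJS⟩ := iso_facts g hg hgE hg2
  obtain ⟨J', S', hJ's, hJ'E, hJ'0, hS's, hS'E, hS'J', hg'JS⟩ := iso_facts g' hg' hg'E hg'2
  -- a non-isotropic vector not killed by `J`
  obtain ⟨u0, hu0⟩ : ∃ u0, J *ᵥ u0 ≠ 0 := by
    by_contra hcon
    push Not at hcon
    apply hJ0
    apply Helper98.matrix_ext_mulVec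
    intro x; rw [hcon x, Matrix.zero_mulVec]
  have hu0ne : u0 ≠ 0 := by rintro rfl; exact hu0 (Matrix.mulVec_zero _)
  obtain ⟨v1, hv1⟩ : ∃ v1, f v1 v1 ≠ 0 := by
    by_contra hcon
    push Not at hcon
    obtain ⟨x, hx⟩ := (hf.nondegenerate u0 hu0ne).1
    apply hx
    have h1 := hcon (x + u0)
    rw [B.add_left, B.add_right, B.add_right, hcon x, hcon u0, hsym u0 x] at h1
    have h3 : (2 : F) * f x u0 = 0 := by linear_combination h1
    rcases mul_eq_zero.mp h3 with h4 | h4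
    · exact absurd h4 h2
    · exact h4
  obtain ⟨v0, hv0, hJv0⟩ : ∃ v0, f v0 v0 ≠ 0 ∧ J *ᵥ v0 ≠ 0 := by
    by_contra hcon
    push Not at hcon
    have hJv1 := hcon v1 hv1
    have hu0iso : f u0 u0 = 0 := by
      by_contra h; exact hu0 (hcon u0 h)
    by_cases hp : f (v1 + u0) (v1 + u0) = 0
    · have hm : f (v1 - u0) (v1 - u0) ≠ 0 := by
        intro hm
        rw [B.add_left, B.add_right, B.add_right, hu0iso, hsym u0 v1] at hp
        rw [fsubl, fsubr, fsubr, hu0iso, hsym u0 v1] at hm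
        apply hv1
        have h3 : (2 : F) * f v1 v1 = 0 := by linear_combination hp + hm
        rcases mul_eq_zero.mp h3 with h4 | h4
        · exact absurd h4 h2
        · exact h4
      have h5 := hcon _ hm
      rw [Matrix.mulVec_sub, hJv1, zero_sub, neg_eq_zero] at h5
      exact hu0 h5
    · have h5 := hcon _ hp
      rw [Matrix.mulVec_add, hJv1, zero_add] at h5
      exact hu0 h5
  have hv0ne : v0 ≠ 0 := by rintro rfl; exact hv0 (fzl 0)
  -- the decomposition `V = E v0 ⊕ E (J v0)`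
  have hr1 : Module.finrank F (Helper96.Sy.orb E v0) = r := by
    rw [(Helper96.Sy.orb_min E hE.inv v0 hv0ne).2, hE.finrank_eq]
  have hr2 : Module.finrank F (Helper96.Sy.orb E (J *ᵥ v0)) = r := by
    rw [(Helper96.Sy.orb_min E hE.inv _ hJv0).2, hE.finrank_eq]
  have hdisj : Helper96.Sy.orb E v0 ⊓ Helper96.Sy.orb E (J *ᵥ v0) = ⊥ := by
    rw [Submodule.eq_bot_iff]
    rintro w ⟨hw1, hw2⟩
    obtain ⟨k, hk, rfl⟩ := (Helper96.Sy.mem_orb E v0 w).mp hw1
    obtain ⟨k', hk', hkk'⟩ := (Helper96.Sy.mem_orb E (J *ᵥ v0) _).mp hw2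
    by_contra hne
    have hk0 : k ≠ 0 := by rintro rfl; exact hne (Matrix.zero_mulVec _)
    obtain ⟨y, hy, hky⟩ := hE.inv k hk hk0
    have h1 : f (k *ᵥ v0) (y *ᵥ v0) = f v0 v0 := by
      rw [sa k hk, Matrix.mulVec_mulVec v0 k y, hky, Matrix.one_mulVec]
    have h2' : f (k *ᵥ v0) (y *ᵥ v0) = 0 := by
      rw [← hkk', sa k' hk', Matrix.mulVec_mulVec v0 k' y]
      exact F1 J hJs hJE (k' * y) (E.mul_mem hk' hy) v0
    exact hv0 (h1.symm.trans h2')
  have htop : Helper96.Sy.orb E v0 ⊔ Helper96.Sy.orb E (J *ᵥ v0) = ⊤ := by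
    apply Submodule.eq_top_of_finrank_eq
    have h1 := Submodule.finrank_sup_add_finrank_inf_eq (Helper96.Sy.orb E v0)
      (Helper96.Sy.orb E (J *ᵥ v0))
    rw [hdisj, finrank_bot, add_zero, hr1, hr2] at h1
    rw [h1, Module.finrank_fintype_fun_eq_card, hn]; ring
  have F2 : ∀ u : ι → F, ∃ k ∈ E, ∃ k' ∈ E, u = k *ᵥ v0 + k' *ᵥ (J *ᵥ v0) := by
    intro u
    have hu : u ∈ Helper96.Sy.orb E v0 ⊔ Helper96.Sy.orb E (J *ᵥ v0) := by
      rw [htop]; exact Submodule.mem_top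
    obtain ⟨y, hy, z, hz, hyz⟩ := Submodule.mem_sup.mp hu
    obtain ⟨k, hk, rfl⟩ := (Helper96.Sy.mem_orb E v0 y).mp hy
    obtain ⟨k', hk', rfl⟩ := (Helper96.Sy.mem_orb E _ z).mp hz
    exact ⟨k, hk, k', hk', hyz.symm⟩
  have F3 : ∀ w : ι → F, (∀ k ∈ E, f w (k *ᵥ v0) = 0) →
      (∀ k ∈ E, f w (k *ᵥ (J *ᵥ v0)) = 0) → w = 0 := by
    intro w h1 h2'
    by_contra hw
    obtain ⟨x, hx⟩ := (hf.nondegenerate w hw).2
    obtain ⟨k, hk, k', hk', rfl⟩ := F2 x
    apply hx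
    rw [B.add_right, h1 k hk, h2' k' hk', add_zero]
  have F4 : ∀ X : Matrix ι ι F, (∀ u v, f (X *ᵥ u) v = -f u (X *ᵥ v)) →
      (∀ k ∈ E, X * k = k * X) → X *ᵥ v0 = 0 → X = 0 := by
    intro X hXs hXE hX0
    have hXJ : X *ᵥ (J *ᵥ v0) = 0 := by
      apply F3
      · intro k hk
        rw [hXs, Matrix.mulVec_mulVec v0 X k, hXE k hk, ← Matrix.mulVec_mulVec v0 k X, hX0,
          Matrix.mulVec_zero, fzr, neg_zero]
      · intro k hk
        exact F1 X hXs hXE k hk (J *ᵥ v0)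
    apply Helper98.matrix_ext_mulVec
    intro u
    obtain ⟨k, hk, k', hk', rfl⟩ := F2 u
    have e1 : X *ᵥ (k *ᵥ v0) = 0 := by
      rw [Matrix.mulVec_mulVec v0 X k, hXE k hk, ← Matrix.mulVec_mulVec v0 k X, hX0,
        Matrix.mulVec_zero]
    have e2 : X *ᵥ (k' *ᵥ (J *ᵥ v0)) = 0 := by
      rw [Matrix.mulVec_mulVec (J *ᵥ v0) X k', hXE k' hk',
        ← Matrix.mulVec_mulVec (J *ᵥ v0) k' X, hXJ, Matrix.mulVec_zero]
    rw [Matrix.mulVec_add, e1, e2, add_zero, Matrix.zero_mulVec]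
  have F5 : ∀ Y : Matrix ι ι F, (∀ u v, f (Y *ᵥ u) v = f u (Y *ᵥ v)) →
      (∀ k ∈ E, Y * k = k * Y) → Y * J = J * Y → ∃ a ∈ E, Y = a := by
    intro Y hYs hYE hYJ
    obtain ⟨a, ha, b, hb, hab⟩ := F2 (Y *ᵥ v0)
    have hbJ : b *ᵥ (J *ᵥ v0) = 0 := by
      apply F3
      · intro k hk
        rw [sa b hb, Matrix.mulVec_mulVec v0 b k]
        exact F1 J hJs hJE (b * k) (E.mul_mem hb hk) v0
      · intro k hk
        have t1 : f (Y *ᵥ v0) (k *ᵥ (J *ᵥ v0)) = f (b *ᵥ (J *ᵥ v0)) (k *ᵥ (J *ᵥ v0)) := by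
          rw [hab, B.add_left]
          have h0 : f (a *ᵥ v0) (k *ᵥ (J *ᵥ v0)) = 0 := by
            rw [sa a ha, Matrix.mulVec_mulVec (J *ᵥ v0) a k, hsym,
              sa (a * k) (E.mul_mem ha hk)]
            exact F1 J hJs hJE (a * k) (E.mul_mem ha hk) v0
          rw [h0, zero_add]
        have t2 : f (Y *ᵥ v0) (k *ᵥ (J *ᵥ v0)) = -f (b *ᵥ (J *ᵥ v0)) (k *ᵥ (J *ᵥ v0)) := by
          have e1 : Y *ᵥ (k *ᵥ (J *ᵥ v0)) = J *ᵥ (k *ᵥ (Y *ᵥ v0)) := by
            rw [Matrix.mulVec_mulVec (J *ᵥ v0) Y k, hYE k hk,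
              Matrix.mulVec_mulVec v0 (k * Y) J, mul_assoc, hYJ,
              Matrix.mulVec_mulVec (Y *ᵥ v0) J k, Matrix.mulVec_mulVec v0 (J * k) Y, hJE k hk,
              mul_assoc]
          have e2 : f v0 (J *ᵥ (k *ᵥ (Y *ᵥ v0))) = -f (J *ᵥ v0) (k *ᵥ (Y *ᵥ v0)) := by
            rw [hJs, neg_neg]
          have e3 : f (J *ᵥ v0) (k *ᵥ (a *ᵥ v0)) = 0 := by
            rw [Matrix.mulVec_mulVec v0 k a]
            exact F1 J hJs hJE (k * a) (E.mul_mem hk ha) v0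
          have e4 : f (J *ᵥ v0) (k *ᵥ (b *ᵥ (J *ᵥ v0)))
              = f (b *ᵥ (J *ᵥ v0)) (k *ᵥ (J *ᵥ v0)) := by
            rw [hsym, sa k hk]
          rw [hYs, e1, e2, hab, Matrix.mulVec_add, B.add_right, e3, e4, zero_add]
        have h3 : (2 : F) * f (b *ᵥ (J *ᵥ v0)) (k *ᵥ (J *ᵥ v0)) = 0 := by
          linear_combination t2 - t1
        rcases mul_eq_zero.mp h3 with h4 | h4
        · exact absurd h4 h2
        · exact h4
    refine ⟨a, ha, ?_⟩
    have hYv0 : Y *ᵥ v0 = a *ᵥ v0 := by rw [hab, hbJ, add_zero]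
    apply Helper98.matrix_ext_mulVec
    intro u
    obtain ⟨k, hk, k', hk', rfl⟩ := F2 u
    have e1 : Y *ᵥ (k *ᵥ v0) = a *ᵥ (k *ᵥ v0) := by
      rw [Matrix.mulVec_mulVec v0 Y k, hYE k hk, ← Matrix.mulVec_mulVec v0 k Y, hYv0,
        Matrix.mulVec_mulVec v0 k a, Matrix.mulVec_mulVec v0 a k, hE.comm k hk a ha]
    have e2 : Y *ᵥ (k' *ᵥ (J *ᵥ v0)) = a *ᵥ (k' *ᵥ (J *ᵥ v0)) := by
      have h0 : Y *ᵥ (k' *ᵥ (J *ᵥ v0)) = k' *ᵥ (J *ᵥ (Y *ᵥ v0)) := by
        rw [Matrix.mulVec_mulVec (J *ᵥ v0) Y k', hYE k' hk',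
          Matrix.mulVec_mulVec v0 (k' * Y) J, mul_assoc, hYJ, ← mul_assoc,
          ← Matrix.mulVec_mulVec v0 (k' * J) Y, ← Matrix.mulVec_mulVec (Y *ᵥ v0) k' J]
      rw [h0, hYv0, Matrix.mulVec_mulVec v0 J a, hJE a ha, ← Matrix.mulVec_mulVec v0 a J,
        Matrix.mulVec_mulVec (J *ᵥ v0) k' a, Matrix.mulVec_mulVec (J *ᵥ v0) a k',
        hE.comm k' hk' a ha]
    rw [Matrix.mulVec_add, Matrix.mulVec_add, e1, e2]
  -- `J' = c * J`
  obtain ⟨a0, ha0, c, hc, hJ'v0⟩ := F2 (J' *ᵥ v0)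
  have ha0v : a0 *ᵥ v0 = 0 := by
    by_contra hne
    have ha00 : a0 ≠ 0 := by rintro rfl; exact hne (Matrix.zero_mulVec _)
    obtain ⟨y, hy, hay⟩ := hE.inv a0 ha0 ha00
    have h1 : f (J' *ᵥ v0) (y *ᵥ v0) = 0 := F1 J' hJ's hJ'E y hy v0
    rw [hJ'v0, B.add_left, sa a0 ha0, Matrix.mulVec_mulVec v0 a0 y, hay, Matrix.one_mulVec,
      sa c hc, Matrix.mulVec_mulVec v0 c y, F1 J hJs hJE (c * y) (E.mul_mem hc hy) v0,
      add_zero] at h1
    exact hv0 h1
  have hJ'v0' : J' *ᵥ v0 = c *ᵥ (J *ᵥ v0) := by rw [hJ'v0, ha0v, zero_add]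
  have hJ'eq : J' = c * J := by
    have hX : J' - c * J = 0 := by
      apply F4
      · intro u v
        rw [Matrix.sub_mulVec, Matrix.sub_mulVec, fsubl, fsubr, hJ's,
          ← Matrix.mulVec_mulVec u c J, sa c hc, hJs, Matrix.mulVec_mulVec v J c, hJE c hc]
        ring
      · intro k hk
        calc (J' - c * J) * k = J' * k - c * (J * k) := by rw [sub_mul, mul_assoc]
          _ = k * J' - c * (k * J) := by rw [hJ'E k hk, hJE k hk]
          _ = k * J' - (c * k) * J := by rw [mul_assoc]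
          _ = k * J' - (k * c) * J := by rw [hE.comm c hc k hk]
          _ = k * (J' - c * J) := by rw [mul_sub, mul_assoc]
      · rw [Matrix.sub_mulVec, hJ'v0', ← Matrix.mulVec_mulVec v0 c J, sub_self]
    exact sub_eq_zero.mp hX
  obtain ⟨a, ha, hSa⟩ := F5 S hSs hSE hSJ
  have hc0 : c ≠ 0 := by
    rintro rfl
    apply hJ'0
    rw [hJ'eq, zero_mul]
  obtain ⟨ci, hci, hcci⟩ := hE.inv c hc hc0
  have hcic : ci * c = 1 := by rw [hE.comm ci hci c hc]; exact hcci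
  have hS'J : S' * J = J * S' := by
    have h1 : S' * (c * J) = (c * J) * S' := by rw [← hJ'eq]; exact hS'J'
    calc S' * J = S' * ((ci * c) * J) := by rw [hcic, one_mul]
      _ = ci * (S' * (c * J)) := by
          rw [mul_assoc, ← mul_assoc S', hS'E ci hci, mul_assoc]
      _ = ci * ((c * J) * S') := by rw [h1]
      _ = (ci * c) * J * S' := by simp only [mul_assoc]
      _ = J * S' := by rw [hcic, one_mul]
  obtain ⟨a', ha', hS'a⟩ := F5 S' hS's hS'E hS'J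
  apply Units.ext
  rw [Units.val_mul, Units.val_mul, hgJS, hg'JS, hSa, hS'a, hJ'eq]
  simp only [Matrix.smul_mul, Matrix.mul_smul]
  congr 2
  have e1 : a * a' = a' * a := hE.comm a ha a' ha'
  have e2 : a * (c * J) = c * J * a := by
    rw [← mul_assoc, hE.comm a ha c hc, mul_assoc, mul_assoc, hJE a ha]
  have e3 : J * a' = a' * J := hJE a' ha'
  have e4 : J * (c * J) = c * J * J := by rw [← mul_assoc, hJE c hc]
  rw [add_mul, mul_add, mul_add, add_mul, mul_add, mul_add, e1, e2, e3, e4]; abel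

end Cfsg.Agent.Helper66
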