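import Mathlib
import Cfsg.Prelude.Def_GeometricClasses

/-!
# Piece RED of CALL S5874 (helper95)

`o12_reducible`: a reducible group of isometries of a non-degenerate quadratic form stabilises a
non-zero totally singular subspace, or (in characteristic 2) a non-singular point, or a pair of
complementary orthogonal non-degenerate subspaces.
-/

set_option autoImplicit false
open Cfsg Cfsg.Geo Matrix

namespace Cfsg.Agent.Helper66

variable {ι : Type} [Fintype ι] [DecidableEq ι] {F : Type*} [Field F]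

theorem o12red_stab (H : Subgroup (GL ι F)) (W : Submodule F (ι → F))
    (hinv : ∀ h ∈ H, ∀ v ∈ W, (h : Matrix ι ι F) *ᵥ v ∈ W) : H ≤ subspaceStabilizer W := by
  intro h hh
  show ∀ v, v ∈ W ↔ (h : Matrix ι ι F) *ᵥ v ∈ W
  intro v
  constructor
  · exact hinv h hh v
  · intro hv
    have h1 := hinv h⁻¹ (H.inv_mem hh) _ hv
    rwa [Matrix.mulVec_mulVec, ← Units.val_mul, inv_mul_cancel, Units.val_one,
      Matrix.one_mulVec] at h1

/-- **Piece RED of CALL S5874.** -/
theorem o12_reducible [Fintype F] (Q : (ι → F) → F) (hQ : IsNondegenerateQuadraticForm Q)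
    (H : Subgroup (GL ι F)) (hH : ∀ h ∈ H, ∀ x, Q ((h : Matrix ι ι F) *ᵥ x) = Q x)
    (hred : ¬ ActsIrreducibly (matrixSet H)) :
    (∃ W : Submodule F (ι → F), W ≠ ⊥ ∧ IsTotallySingularQuad Q W ∧ H ≤ subspaceStabilizer W) ∨
    ((2 : F) = 0 ∧ ∃ v : ι → F, Q v ≠ 0 ∧ H ≤ subspaceStabilizer (Submodule.span F {v})) ∨
    (∃ W W' : Submodule F (ι → F), W ≠ ⊥ ∧ W' ≠ ⊥ ∧ IsNondegenerateOn (QuadraticMap.polar Q) W ∧
      IsNondegenerateOn (QuadraticMap.polar Q) W' ∧ AreOrthogonalFor (QuadraticMap.polar Q) W W' ∧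
      W ⊓ W' = ⊥ ∧ W ⊔ W' = ⊤ ∧ H ≤ subspaceStabilizer W ∧ H ≤ subspaceStabilizer W') := by
  classical
  have hf := hQ.polar_bilinear
  have hnd := hQ.nondegenerate
  obtain ⟨f, hfdef⟩ : ∃ f : (ι → F) → (ι → F) → F, f = QuadraticMap.polar Q := ⟨_, rfl⟩
  rw [← hfdef] at hf hnd ⊢
  have hsymm : ∀ x y, f x y = f y x := by
    intro x y
    rw [hfdef]
    exact QuadraticMap.polar_comm Q x y
  have hfQ : ∀ x y, Q (x + y) = Q x + Q y + f x y := by
    intro x y
    rw [hfdef, QuadraticMap.polar]
    ring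
  have hfH : ∀ h ∈ H, ∀ x y, f ((h : Matrix ι ι F) *ᵥ x) ((h : Matrix ι ι F) *ᵥ y) = f x y := by
    intro h hh x y
    rw [hfdef, QuadraticMap.polar, QuadraticMap.polar, ← Matrix.mulVec_add, hH h hh, hH h hh,
      hH h hh]
  have hf0 : ∀ w, f 0 w = 0 := by
    intro w
    have h1 := hf.smul_left 0 0 w
    rwa [zero_smul, zero_mul] at h1
  have hfsub : ∀ x y w, f (x - y) w = f x w - f y w := by
    intro x y w
    have h1 : x - y = x + (-1 : F) • y := by rw [neg_one_smul, sub_eq_add_neg]
    rw [h1, hf.add_left, hf.smul_left]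
    ring
  have hQ0 : Q 0 = 0 := by
    have h1 := hQ.smul 0 0
    rwa [zero_smul, zero_pow two_ne_zero, zero_mul] at h1
  -- the invariant subspace
  unfold ActsIrreducibly at hred
  push Not at hred
  obtain ⟨W, hWinv, hW0, hW1⟩ := hred
  have hWH : ∀ h ∈ H, ∀ v ∈ W, (h : Matrix ι ι F) *ᵥ v ∈ W := by
    intro h hh v hv
    have h1 := hWinv (h : Matrix ι ι F) ⟨h, hh, rfl⟩ (Submodule.mem_map_of_mem hv)
    rwa [Matrix.toLin'_apply] at h1
  -- the orthogonal complement
  obtain ⟨Wp, hWp⟩ : ∃ Wp : Submodule F (ι → F), ∀ x, x ∈ Wp ↔ ∀ w ∈ W, f x w = 0 :=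
    ⟨{ carrier := {x | ∀ w ∈ W, f x w = 0}
       add_mem' := by
         intro a b ha hb w hw
         rw [hf.add_left, ha w hw, hb w hw, add_zero]
       zero_mem' := fun w _ => hf0 w
       smul_mem' := by
         intro c x hx w hw
         rw [hf.smul_left, hx w hw, mul_zero] }, fun x => Iff.rfl⟩
  have hWpH : ∀ h ∈ H, ∀ v ∈ Wp, (h : Matrix ι ι F) *ᵥ v ∈ Wp := by
    intro h hh v hv
    rw [hWp] at hv ⊢
    intro w hw
    have h1 := hWH h⁻¹ (H.inv_mem hh) w hw
    have h2 := hfH h hh v (((h⁻¹ : GL ι F) : Matrix ι ι F) *ᵥ w)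
    rw [Matrix.mulVec_mulVec, ← Units.val_mul, mul_inv_cancel, Units.val_one,
      Matrix.one_mulVec] at h2
    rw [h2]
    exact hv _ h1
  by_cases hR : W ⊓ Wp = ⊥
  · -- the non-degenerate case
    right; right
    have hWnd : IsNondegenerateOn f W := by
      intro w hw hw0
      have h1 : ∃ x ∈ W, f w x ≠ 0 := by
        by_contra hcon
        push Not at hcon
        have h2 : w ∈ W ⊓ Wp := ⟨hw, (hWp w).2 hcon⟩
        rw [hR] at h2
        exact hw0 ((Submodule.mem_bot F).1 h2)
      obtain ⟨x, hx, hxw⟩ := h1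
      exact ⟨⟨x, hx, by rwa [hsymm]⟩, ⟨x, hx, hxw⟩⟩
    have hsup : W ⊔ Wp = ⊤ := by
      rw [eq_top_iff]
      intro x _
      obtain ⟨φ, hφ⟩ : ∃ φ : W →ₗ[F] Module.Dual F W, ∀ w w' : W, φ w w' = f w w' :=
        ⟨{ toFun := fun w =>
            { toFun := fun w' => f w w'
              map_add' := fun a b => hf.add_right _ _ _
              map_smul' := fun c a => hf.smul_right _ _ _ }
           map_add' := fun a b => by
            ext w'
            exact hf.add_left _ _ _
           map_smul' := fun c a => by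
            ext w'
            exact hf.smul_left _ _ _ }, fun w w' => rfl⟩
      have hφinj : Function.Injective φ := by
        rw [← LinearMap.ker_eq_bot, LinearMap.ker_eq_bot']
        intro w hw
        have h1 : (w : ι → F) ∈ W ⊓ Wp := ⟨w.2, (hWp _).2 (fun w' hw' => by
          have h2 := LinearMap.congr_fun hw ⟨w', hw'⟩
          rw [hφ] at h2
          exact h2)⟩
        rw [hR] at h1
        exact Subtype.ext ((Submodule.mem_bot F).1 h1)
      have hφsurj : Function.Surjective φ :=
        (LinearMap.injective_iff_surjective_of_finrank_eq_finrank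
          (Subspace.dual_finrank_eq).symm).1 hφinj
      obtain ⟨w, hw⟩ := hφsurj
        { toFun := fun w' => f x w'
          map_add' := fun a b => hf.add_right _ _ _
          map_smul' := fun c a => hf.smul_right _ _ _ }
      have h2 : x - w ∈ Wp := by
        rw [hWp]
        intro w' hw'
        have h3 := LinearMap.congr_fun hw ⟨w', hw'⟩
        rw [hφ] at h3
        have h4 : f (w : ι → F) w' = f x w' := h3
        rw [hfsub, h4, sub_self]
      have h5 : x = (w : ι → F) + (x - w) := by abel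
      rw [h5]
      exact Submodule.add_mem_sup w.2 h2
    have hWp0 : Wp ≠ ⊥ := by
      intro h0
      rw [h0, sup_bot_eq] at hsup
      exact hW1 hsup
    have hWpnd : IsNondegenerateOn f Wp := by
      intro w' hw' hw'0
      obtain ⟨x, hx⟩ := (hnd w' hw'0).1
      have hxmem : x ∈ W ⊔ Wp := by rw [hsup]; trivial
      obtain ⟨a, ha, b, hb, rfl⟩ := Submodule.mem_sup.1 hxmem
      rw [hf.add_left] at hx
      have h1 : f a w' = 0 := by
        rw [hsymm]
        exact (hWp w').1 hw' a ha
      rw [h1, zero_add] at hx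
      exact ⟨⟨b, hb, hx⟩, ⟨b, hb, by rwa [hsymm]⟩⟩
    refine ⟨W, Wp, hW0, hWp0, hWnd, hWpnd, ?_, hR, hsup, o12red_stab H W hWH,
      o12red_stab H Wp hWpH⟩
    intro u hu v hv
    rw [hsymm]
    exact (hWp v).1 hv u hu
  · -- the radical is non-zero
    obtain ⟨R, hRdef⟩ : ∃ R, R = W ⊓ Wp := ⟨_, rfl⟩
    rw [← hRdef] at hR
    have hRH : ∀ h ∈ H, ∀ v ∈ R, (h : Matrix ι ι F) *ᵥ v ∈ R := by
      intro h hh v hv
      rw [hRdef] at hv ⊢
      exact ⟨hWH h hh v hv.1, hWpH h hh v hv.2⟩
    have hRf : ∀ x ∈ R, ∀ y ∈ R, f x y = 0 := by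
      intro x hx y hy
      rw [hRdef] at hx hy
      exact (hWp x).1 hx.2 y hy.1
    have hRadd : ∀ x ∈ R, ∀ y ∈ R, Q (x + y) = Q x + Q y := by
      intro x hx y hy
      rw [hfQ, hRf x hx y hy, add_zero]
    obtain ⟨R0, hR0⟩ : ∃ R0 : Submodule F (ι → F), ∀ x, x ∈ R0 ↔ x ∈ R ∧ Q x = 0 :=
      ⟨{ carrier := {x | x ∈ R ∧ Q x = 0}
         add_mem' := by
           rintro a b ⟨ha, ha0⟩ ⟨hb, hb0⟩
           exact ⟨R.add_mem ha hb, by rw [hRadd a ha b hb, ha0, hb0, add_zero]⟩
         zero_mem' := ⟨R.zero_mem, hQ0⟩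
         smul_mem' := by
           rintro c x ⟨hx, hx0⟩
           exact ⟨R.smul_mem c hx, by rw [hQ.smul, hx0, mul_zero]⟩ }, fun x => Iff.rfl⟩
    have hR0H : ∀ h ∈ H, ∀ v ∈ R0, (h : Matrix ι ι F) *ᵥ v ∈ R0 := by
      intro h hh v hv
      rw [hR0] at hv ⊢
      exact ⟨hRH h hh v hv.1, by rw [hH h hh]; exact hv.2⟩
    by_cases hR00 : R0 = ⊥
    · right; left
      have h2 : (2 : F) = 0 := by
        by_contra h2
        apply hR
        rw [Submodule.eq_bot_iff]
        intro x hx
        have h3 : f x x = 2 * Q x := by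
          have h4 := hfQ x x
          have h5 : Q (x + x) = 4 * Q x := by
            have h6 : x + x = (2 : F) • x := (two_smul F x).symm
            rw [h6, hQ.smul]
            ring
          rw [h5] at h4
          linear_combination -h4
        have h6 : Q x = 0 := by
          have h7 := hRf x hx x hx
          rw [h3] at h7
          exact (mul_eq_zero.mp h7).resolve_left h2
        have h8 : x ∈ R0 := (hR0 x).2 ⟨hx, h6⟩
        rw [hR00] at h8
        exact (Submodule.mem_bot F).1 h8
      refine ⟨h2, ?_⟩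
      obtain ⟨v, hvR, hv0⟩ := (Submodule.ne_bot_iff R).mp hR
      have hQv : Q v ≠ 0 := by
        intro h0
        have h8 : v ∈ R0 := (hR0 v).2 ⟨hvR, h0⟩
        rw [hR00] at h8
        exact hv0 ((Submodule.mem_bot F).1 h8)
      refine ⟨v, hQv, ?_⟩
      have hspan : Submodule.span F {v} = R := by
        apply le_antisymm
        · rw [Submodule.span_le, Set.singleton_subset_iff]
          exact hvR
        · intro y hy
          have hsq : Function.Surjective (fun c : F => c ^ 2) := by
            apply Finite.surjective_of_injective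
            intro a b hab
            have hab' : a ^ 2 = b ^ 2 := hab
            have h3 : (a - b) ^ 2 = 0 := by
              have h4 : (a - b) ^ 2 = a ^ 2 - b ^ 2 - 2 * (b * (a - b)) := by ring
              rw [h4, h2, zero_mul, sub_zero, hab', sub_self]
            exact sub_eq_zero.mp (pow_eq_zero_iff (two_ne_zero) |>.mp h3)
          obtain ⟨c, hc⟩ := hsq (Q y / Q v)
          have hc' : c ^ 2 * Q v = Q y := by
            have h3 : c ^ 2 = Q y / Q v := hc
            rw [h3, div_mul_cancel₀ _ hQv]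
          have h4 : Q (y + c • v) = 0 := by
            rw [hRadd y hy (c • v) (R.smul_mem c hvR), hQ.smul, hc', ← two_mul, h2, zero_mul]
          have h5 : y + c • v ∈ R0 := (hR0 _).2 ⟨R.add_mem hy (R.smul_mem c hvR), h4⟩
          rw [hR00] at h5
          have h6 : y + c • v = 0 := (Submodule.mem_bot F).1 h5
          rw [Submodule.mem_span_singleton]
          exact ⟨-c, by rw [neg_smul]; exact (eq_neg_of_add_eq_zero_left h6).symm⟩
      rw [hspan]
      exact o12red_stab H R hRH
    · left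
      exact ⟨R0, hR00, fun w hw => ((hR0 w).1 hw).2, o12red_stab H R0 hR0H⟩

end Cfsg.Agent.Helper66
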