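import Mathlib
import Cfsg.Prelude.Def_Classical
import Cfsg.Agent.S0306
import Cfsg.Agent.Helper79.Basic

/-! CALL S2547, piece MIN0: `PΩ⁻₂(q)` is trivial. -/

set_option autoImplicit false

namespace Cfsg.Agent.Helper66.StMIN0

open Cfsg

/-- the sign hom of a dihedral group -/
def dsgn (n : ℕ) : DihedralGroup n →* ℤˣ where
  toFun x := match x with
    | .r _ => 1
    | .sr _ => -1
  map_one' := rfl
  map_mul' := by
    rintro (i | i) (j | j) <;> rfl

theorem dsgn_eq_one {n : ℕ} (x : DihedralGroup n) (h : dsgn n x = 1) :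
    ∃ i, x = DihedralGroup.r i := by
  rcases x with i | i
  · exact ⟨i, rfl⟩
  · exfalso
    have h' : (-1 : ℤˣ) = 1 := h
    exact absurd h' (by decide)

theorem comm_of_equiv_dihedral {O : Type*} [Group O] {n : ℕ} (e : O ≃* DihedralGroup n)
    (x y : O) (hx : x ∈ commutator O) (hy : y ∈ commutator O) : x * y = y * x := by
  have hle : commutator O ≤ ((dsgn n).comp e.toMonoidHom).ker :=
    Abelianization.commutator_subset_ker _
  obtain ⟨i, hi⟩ := dsgn_eq_one (e x) (MonoidHom.mem_ker.1 (hle hx))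
  obtain ⟨j, hj⟩ := dsgn_eq_one (e y) (MonoidHom.mem_ker.1 (hle hy))
  apply e.injective
  rw [map_mul, map_mul, hi, hj]
  simp [add_comm]

theorem subsingleton_quot {Ω : Type*} [Group Ω] (h : ∀ x y : Ω, x * y = y * x) :
    Subsingleton (Ω ⧸ Subgroup.center Ω) := by
  constructor
  intro x y
  induction x using QuotientGroup.induction_on with
  | H a =>
    induction y using QuotientGroup.induction_on with
    | H b =>
      apply QuotientGroup.eq.2
      rw [Subgroup.mem_center_iff]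
      intro g
      exact h _ _

theorem p_MIN0 {F : Type*} [Field F] [Fintype F] (p : ℕ) [Fact p.Prime] [CharP F p] (a b : F)
    (hab : ∀ z₁ z₂ : F, z₁ ^ 2 + a * z₁ * z₂ + b * z₂ ^ 2 = 0 → z₁ = 0 ∧ z₂ = 0) :
    ∃ χ : Cfsg.POmega F (Cfsg.quadFormMinus 0 F a b) → ℂ,
      Cfsg.IsIrrCharacter (Cfsg.POmega F (Cfsg.quadFormMinus 0 F a b)) χ ∧
      ∀ P : Sylow p (Cfsg.POmega F (Cfsg.quadFormMinus 0 F a b)), χ 1 = Nat.card P ∧
        ∀ x : Cfsg.POmega F (Cfsg.quadFormMinus 0 F a b), x ∈ P → x ≠ 1 → χ x = 0 := by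
  obtain ⟨e⟩ := Cfsg.Agent.S0306.result (F := F) rfl a b hab
  have hcomm : ∀ x y : ↥(Cfsg.Omega F (Cfsg.quadFormMinus 0 F a b)), x * y = y * x := by
    intro x y
    apply Subtype.ext
    exact comm_of_equiv_dihedral e x.1 y.1 x.2 y.2
  have hsub : Subsingleton (Cfsg.POmega F (Cfsg.quadFormMinus 0 F a b)) :=
    subsingleton_quot hcomm
  refine ⟨fun _ => 1, Cfsg.Agent.Helper79.isIrrCharacter_one, fun P => ⟨?_, ?_⟩⟩
  · have : Nat.card (↥(P : Subgroup (Cfsg.POmega F (Cfsg.quadFormMinus 0 F a b)))) = 1 :=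
      Nat.card_eq_one_iff_unique.2 ⟨inferInstance, ⟨1⟩⟩
    rw [this]
    simp
  · intro x _ hx
    exact absurd (Subsingleton.elim x 1) hx

end Cfsg.Agent.Helper66.StMIN0
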