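import Mathlib
import Cfsg.Agent.Helper87.SFDefs
import Cfsg.Agent.Helper53.BaerSuzuki

/-!
# CALL S2752, piece INVODD (helper66): an involution of a nonabelian finite simple group
inverts a nontrivial element of odd order (Baer–Suzuki)
-/

set_option autoImplicit false

namespace Cfsg.Agent.Helper66

open Cfsg.Agent.Helper87 Cfsg.Agent.Helper87.SF

/-- INVODD -/
theorem sf_inv_odd {K : Type*} [Group K] [Finite K] (hKs : IsSimpleGroup K)
    (hKn : ¬ ∀ x y : K, x * y = y * x) (w : K) (hw : w ≠ 1) (hww : w * w = 1) :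
    ∃ x₀ : K, x₀ ≠ 1 ∧ Odd (orderOf x₀) ∧ w * x₀ * w⁻¹ = x₀⁻¹ := by
  by_contra hcon
  have hinv : ∀ u : K, Odd (orderOf u) → w * u * w⁻¹ = u⁻¹ → u = 1 := by
    intro u hu hwu
    by_contra hne
    exact hcon ⟨u, hne, hu, hwu⟩
  obtain ⟨N, hN, hN2, hwN⟩ := Cfsg.Agent.Helper53.baer_suzuki_two_of_inverts w hww hinv
  have hNtop : N = ⊤ := by
    rcases hN.eq_bot_or_eq_top with h | h
    · exfalso
      apply hw
      rw [h] at hwN
      exact Subgroup.mem_bot.mp hwN
    · exact h
  have hK2 : IsPGroup 2 K := by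
    intro g
    obtain ⟨k, hk⟩ := hN2 ⟨g, by rw [hNtop]; trivial⟩
    refine ⟨k, ?_⟩
    have := congrArg Subtype.val hk
    simpa using this
  haveI : Fact (Nat.Prime 2) := ⟨Nat.prime_two⟩
  haveI : Nontrivial K := hKs.toNontrivial
  have hZ : Nontrivial (Subgroup.center K) := hK2.center_nontrivial
  have hZtop : Subgroup.center K = ⊤ := by
    rcases (inferInstance : (Subgroup.center K).Normal).eq_bot_or_eq_top with h | h
    · exfalso
      exact (Subgroup.nontrivial_iff_ne_bot _).mp hZ h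
    · exact h
  apply hKn
  intro x y
  have hy : y ∈ Subgroup.center K := by rw [hZtop]; trivial
  exact Subgroup.mem_center_iff.mp hy x

end Cfsg.Agent.Helper66
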