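import Mathlib
import Cfsg.Agent.Helper64.LW2Defs

/-!
# CALL S0745, piece H5a (helper66): the parity lemma

If the pointwise stabilisers of `(m+1)`-sets are trivial and those of `m`-sets have even order,
then any two points outside an `(m-1)`-set `Γ₁` are swapped by an element of `G` fixing `Γ₁`
pointwise.
-/

set_option autoImplicit false

namespace Cfsg.Agent.Helper66.LW2H5a

open Cfsg.Agent.Lead.LW Cfsg.Agent.Helper64.LW2

variable {α : Type*} [Fintype α] [DecidableEq α]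

-- PIECE H5a  (the parity lemma: every pair outside an `(m-1)`-set is swapped)
theorem swap_of_even (G : Subgroup (Equiv.Perm α)) (m : ℕ)
    (hbot : ∀ A : Finset α, A.card = m + 1 → pstab G A = ⊥)
    (heven : ∀ Γ : Finset α, Γ.card = m → Even (Nat.card (pstab G Γ)))
    (Γ₁ : Finset α) (hΓ₁ : Γ₁.card + 1 = m) (p q : α) (hp : p ∉ Γ₁) (hq : q ∉ Γ₁) (hpq : p ≠ q) :
    ∃ g ∈ G, g p = q ∧ g q = p ∧ ∀ c ∈ Γ₁, g c = c := by
  classical
  -- an involution fixing `Γ₁` and `z`, for every `z` outside `Γ₁`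
  have hinv : ∀ z : α, z ∉ Γ₁ → ∃ g : Equiv.Perm α, g ∈ G ∧ (∀ c ∈ Γ₁, g c = c) ∧ g z = z ∧
      g * g = 1 ∧ g ≠ 1 := by
    intro z hz
    have hcard : (insert z Γ₁).card = m := by rw [Finset.card_insert_of_notMem hz, hΓ₁]
    have h2 : 2 ∣ Nat.card (pstab G (insert z Γ₁)) := (heven _ hcard).two_dvd
    haveI : Fact (Nat.Prime 2) := ⟨Nat.prime_two⟩
    obtain ⟨g, hg⟩ := exists_prime_orderOf_dvd_card' (G := ↥(pstab G (insert z Γ₁))) 2 h2
    obtain ⟨hgG, hgfix⟩ := g.2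
    refine ⟨g, hgG, fun c hc => hgfix c (Finset.mem_insert_of_mem hc),
      hgfix z (Finset.mem_insert_self z Γ₁), ?_, ?_⟩
    · have h1 : g ^ 2 = 1 := by rw [← hg]; exact pow_orderOf_eq_one g
      have h3 := congrArg Subtype.val h1
      simpa [pow_two] using h3
    · intro h1
      have h3 : g = 1 := Subtype.ext h1
      rw [h3, orderOf_one] at hg
      omega
  choose! gz hgz using hinv
  -- `gz z` moves every point outside `Γ₁ ∪ {z}`
  have hA : ∀ z, z ∉ Γ₁ → ∀ w, w ∉ Γ₁ → w ≠ z → gz z w ≠ w := by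
    intro z hz w hw hwz hfix
    obtain ⟨h1, h2, h3, h4, h5⟩ := hgz z hz
    have hcard : (insert w (insert z Γ₁)).card = m + 1 := by
      rw [Finset.card_insert_of_notMem (by simp [hwz, hw]), Finset.card_insert_of_notMem hz, hΓ₁]
    have hmem : gz z ∈ pstab G (insert w (insert z Γ₁)) := by
      refine ⟨h1, fun a ha => ?_⟩
      rw [Finset.mem_insert, Finset.mem_insert] at ha
      rcases ha with rfl | rfl | ha
      · exact hfix
      · exact h3
      · exact h2 a ha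
    rw [hbot _ hcard, Subgroup.mem_bot] at hmem
    exact h5 hmem
  have hsq : ∀ z, z ∉ Γ₁ → ∀ a, gz z (gz z a) = a := by
    intro z hz a
    obtain ⟨h1, h2, h3, h4, h5⟩ := hgz z hz
    have := congrArg (fun σ : Equiv.Perm α => σ a) h4
    simpa [Equiv.Perm.mul_apply] using this
  have hout : ∀ z, z ∉ Γ₁ → gz z p ∉ Γ₁ := by
    intro z hz hc
    obtain ⟨h1, h2, h3, h4, h5⟩ := hgz z hz
    apply hp
    have e : gz z (gz z p) = gz z p := h2 _ hc
    rw [hsq z hz] at e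
    rw [e]
    exact hc
  -- the map `z ↦ gz z p`
  let φ : {z : α // z ∉ Γ₁ ∧ z ≠ p} → {z : α // z ∉ Γ₁ ∧ z ≠ p} := fun z =>
    ⟨gz z.1 p, hout z.1 z.2.1, hA z.1 z.2.1 p hp (Ne.symm z.2.2)⟩
  have hφ : Function.Injective φ := by
    intro z z' hzz
    have hw : gz z.1 p = gz z'.1 p := congrArg Subtype.val hzz
    obtain ⟨h1, h2, h3, h4, h5⟩ := hgz z.1 z.2.1
    obtain ⟨h1', h2', h3', h4', h5'⟩ := hgz z'.1 z'.2.1
    have hwΓ : gz z.1 p ∉ Γ₁ := hout z.1 z.2.1
    have hwp : gz z.1 p ≠ p := hA z.1 z.2.1 p hp (Ne.symm z.2.2)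
    have e1 : gz z.1 (gz z.1 p) = p := hsq z.1 z.2.1 p
    have e2 : gz z'.1 (gz z.1 p) = p := by rw [hw]; exact hsq z'.1 z'.2.1 p
    have hcard : (insert (gz z.1 p) (insert p Γ₁)).card = m + 1 := by
      rw [Finset.card_insert_of_notMem (by simp [hwp, hwΓ]), Finset.card_insert_of_notMem hp, hΓ₁]
    have hmem : (gz z'.1)⁻¹ * gz z.1 ∈ pstab G (insert (gz z.1 p) (insert p Γ₁)) := by
      refine ⟨G.mul_mem (G.inv_mem h1') h1, fun a ha => ?_⟩
      rw [Finset.mem_insert, Finset.mem_insert] at ha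
      rw [Equiv.Perm.mul_apply, Equiv.Perm.inv_eq_iff_eq]
      rcases ha with ha | ha | ha
      · rw [ha, e1, e2]
      · rw [ha, hw]
      · rw [h2 a ha, h2' a ha]
    rw [hbot _ hcard, Subgroup.mem_bot, inv_mul_eq_one] at hmem
    by_contra hne
    have hne' : z'.1 ≠ z.1 := fun h => hne (Subtype.ext h.symm)
    exact hA z.1 z.2.1 z'.1 z'.2.1 hne' (by rw [← hmem]; exact h3')
  have hsurj : Function.Surjective φ := Finite.injective_iff_surjective.mp hφ
  obtain ⟨z, hz⟩ := hsurj ⟨q, hq, Ne.symm hpq⟩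
  have hzq : gz z.1 p = q := congrArg Subtype.val hz
  obtain ⟨h1, h2, h3, h4, h5⟩ := hgz z.1 z.2.1
  refine ⟨gz z.1, h1, hzq, ?_, h2⟩
  rw [← hzq]
  exact hsq z.1 z.2.1 p

end Cfsg.Agent.Helper66.LW2H5a
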