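import Mathlib
import Cfsg.Agent.Helper64.LW2Defs
import Cfsg.Agent.Helper9.OrdTools

/-!
# CALL S0745, piece X3 (helper66): no `3`-transitive group of degree `24` whose three-point
stabilisers have order `7` and whose four-point stabilisers are trivial

The two-point stabiliser `M` has order `22 · 7 = 154`, so it has a normal Sylow `11`-subgroup `P`;
a three-point stabiliser `K ≤ M` (of order `7`) centralises `P` and then fixes a fourth point.
-/

set_option autoImplicit false
set_option linter.style.haveILetI false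

namespace Cfsg.Agent.Helper66.LW2X3

open Cfsg.Agent.Lead.LW Cfsg.Agent.Helper64.LW2

variable {α : Type*} [Fintype α] [DecidableEq α]

-- PIECE X3  (Sylow 11 in a two-point stabiliser of order 154)
theorem no_seven_twentyfour (G : Subgroup (Equiv.Perm α)) (hn : Fintype.card α = 24)
    (hT : KTrans G 3) (hs : ∀ Γ : Finset α, Γ.card = 3 → Nat.card (pstab G Γ) = 7)
    (hbot : ∀ A : Finset α, A.card = 4 → pstab G A = ⊥) : False := by
  classical
  -- three distinct points
  obtain ⟨Γ₀, -, hΓ₀⟩ := Finset.exists_subset_card_eq (s := (Finset.univ : Finset α)) (n := 3)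
    (by rw [Finset.card_univ, hn]; norm_num)
  obtain ⟨a, b, z, hab, haz, hbz, -⟩ := Finset.card_eq_three.mp hΓ₀
  obtain ⟨Γ₁, hΓ₁def⟩ : ∃ Γ₁ : Finset α, Γ₁ = {a, b} := ⟨_, rfl⟩
  have hmemΓ : ∀ c, c ∈ Γ₁ ↔ c = a ∨ c = b := by
    intro c
    rw [hΓ₁def]
    simp
  have hzΓ : z ∉ Γ₁ := by
    rw [hmemΓ]
    rintro (h | h)
    · exact haz h.symm
    · exact hbz h.symm
  have hΓ₁ : Γ₁.card = 2 := by rw [hΓ₁def]; exact Finset.card_pair hab
  obtain ⟨M, hM⟩ : ∃ M, M = pstab G Γ₁ := ⟨_, rfl⟩
  obtain ⟨K, hK⟩ : ∃ K, K = pstab G (insert z Γ₁) := ⟨_, rfl⟩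
  have hKcard : Nat.card K = 7 := by
    rw [hK]
    exact hs _ (by rw [Finset.card_insert_of_notMem hzΓ, hΓ₁])
  have hKM : K ≤ M := by
    rw [hK, hM]
    exact fun g hg => ⟨hg.1, fun c hc => hg.2 c (Finset.mem_insert_of_mem hc)⟩
  have hMG : ∀ g ∈ M, g ∈ G ∧ ∀ c ∈ Γ₁, g c = c := by
    intro g hg
    rw [hM] at hg
    exact hg
  have hout : ∀ g ∈ M, ∀ w, w ∉ Γ₁ → g w ∉ Γ₁ := by
    intro g hg w hw hc
    have h1 : g w = g (g w) := ((hMG g hg).2 _ hc).symm
    have h2 := g.injective h1
    exact hw (h2 ▸ hc)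
  -- `|M| = 154`
  have hMcard : Nat.card M = 154 := by
    have horb : MulAction.orbit ↥M z = {w : α | w ∉ Γ₁} := by
      ext w
      constructor
      · rintro ⟨g, rfl⟩
        exact hout g.1 g.2 z hzΓ
      · intro hw
        have hw' : w ∉ Γ₁ := hw
        have hwa : w ≠ a := fun h => hw' ((hmemΓ w).mpr (Or.inl h))
        have hwb : w ≠ b := fun h => hw' ((hmemΓ w).mpr (Or.inr h))
        have hxi : Function.Injective ![a, b, z] := by
          intro i j h
          fin_cases i <;> fin_cases j <;> simp_all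
        have hyi : Function.Injective ![a, b, w] := by
          intro i j h
          fin_cases i <;> fin_cases j <;> simp_all
        obtain ⟨g, hg, hgxy⟩ := hT ⟨![a, b, z], hxi⟩ ⟨![a, b, w], hyi⟩
        have h0 : g a = a := hgxy 0
        have h1 : g b = b := hgxy 1
        have h2 : g z = w := hgxy 2
        have hgM : g ∈ M := by
          rw [hM]
          refine ⟨hg, fun c hc => ?_⟩
          rcases (hmemΓ c).mp hc with rfl | rfl
          · exact h0
          · exact h1
        exact ⟨⟨g, hgM⟩, h2⟩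
    have hst : Nat.card (MulAction.stabilizer ↥M z) = 7 := by
      have e : MulAction.stabilizer ↥M z = K.subgroupOf M := by
        ext g
        rw [MulAction.mem_stabilizer_iff, Subgroup.mem_subgroupOf, hK]
        constructor
        · intro h
          refine ⟨(hMG g.1 g.2).1, fun c hc => ?_⟩
          rcases Finset.mem_insert.mp hc with rfl | hc
          · exact h
          · exact (hMG g.1 g.2).2 c hc
        · intro h
          exact h.2 z (Finset.mem_insert_self z Γ₁)
      rw [e, Nat.card_congr (Subgroup.subgroupOfEquivOfLe hKM).toEquiv, hKcard]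
    have hidx : (MulAction.stabilizer ↥M z).index = 22 := by
      rw [MulAction.index_stabilizer, horb]
      have e : {w : α | w ∉ Γ₁} = ↑(Γ₁ᶜ : Finset α) := by
        ext w
        simp
      rw [e, Set.ncard_coe_finset, Finset.card_compl, hn, hΓ₁]
    have h := (MulAction.stabilizer ↥M z).card_mul_index
    rw [hst, hidx] at h
    omega
  -- the Sylow `11`-subgroup of `M` is normal
  haveI : Fact (Nat.Prime 11) := ⟨by norm_num⟩
  obtain ⟨P⟩ : Nonempty (Sylow 11 ↥M) := inferInstance
  have hP : Nat.card (P : Subgroup ↥M) = 11 := by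
    have := Cfsg.Agent.Helper9.OrdTools.sylow_card 1 14 (hMcard.trans (by norm_num))
      (by norm_num) P
    simpa using this
  have hn11 : Nat.card (Sylow 11 ↥M) = 1 := by
    have h1 : Nat.card (Sylow 11 ↥M) ∣ (P : Subgroup ↥M).index := Sylow.card_dvd_index P
    have hidx : (P : Subgroup ↥M).index = 14 := by
      have := (P : Subgroup ↥M).card_mul_index
      rw [hP, hMcard] at this
      omega
    rw [hidx] at h1
    have h2 : Nat.card (Sylow 11 ↥M) ≡ 1 [MOD 11] := card_sylow_modEq_one 11 ↥M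
    have hle : Nat.card (Sylow 11 ↥M) ≤ 14 := Nat.le_of_dvd (by norm_num) h1
    unfold Nat.ModEq at h2
    generalize Nat.card (Sylow 11 ↥M) = n at h1 h2 hle
    interval_cases n <;> omega
  haveI : Subsingleton (Sylow 11 ↥M) := (Nat.card_eq_one_iff_unique.mp hn11).1
  haveI hPn : (P : Subgroup ↥M).Normal := Sylow.normal_of_subsingleton P
  have hAut : Nat.card (MulAut ↥(P : Subgroup ↥M)) = 10 := by
    haveI : IsCyclic ↥(P : Subgroup ↥M) := isCyclic_of_prime_card hP
    rw [IsCyclic.card_mulAut, hP]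
    decide
  -- `K` centralises `P`
  have hcomm : ∀ k ∈ K, ∀ x : ↥(P : Subgroup ↥M),
      k * ((x : ↥M) : Equiv.Perm α) = ((x : ↥M) : Equiv.Perm α) * k := by
    intro k hk x
    have hfk : (MulAut.conjNormal (⟨k, hKM hk⟩ : ↥M) : MulAut ↥(P : Subgroup ↥M)) = 1 := by
      have h1 : orderOf (MulAut.conjNormal (⟨k, hKM hk⟩ : ↥M) : MulAut ↥(P : Subgroup ↥M)) ∣ 7 := by
        have h2 := orderOf_map_dvd (MulAut.conjNormal (H := (P : Subgroup ↥M)))
          (⟨k, hKM hk⟩ : ↥M)
        have h3 : orderOf (⟨k, hKM hk⟩ : ↥M) ∣ 7 := by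
          have h4 := orderOf_dvd_natCard (⟨k, hk⟩ : ↥K)
          rw [hKcard, Subgroup.orderOf_mk] at h4
          rwa [Subgroup.orderOf_mk]
        exact h2.trans h3
      have h5 : orderOf (MulAut.conjNormal (⟨k, hKM hk⟩ : ↥M) : MulAut ↥(P : Subgroup ↥M)) ∣ 10 := by
        have := orderOf_dvd_natCard
          (MulAut.conjNormal (⟨k, hKM hk⟩ : ↥M) : MulAut ↥(P : Subgroup ↥M))
        rwa [hAut] at this
      have h6 := Nat.dvd_gcd h1 h5
      have h7 : Nat.gcd 7 10 = 1 := by norm_num
      rw [h7] at h6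
      exact orderOf_eq_one_iff.mp (Nat.dvd_one.mp h6)
    have h8 : ((MulAut.conjNormal (⟨k, hKM hk⟩ : ↥M) x : ↥(P : Subgroup ↥M)) : ↥M) = (x : ↥M) := by
      rw [hfk]
      rfl
    rw [MulAut.conjNormal_apply] at h8
    have h9 := congrArg Subtype.val h8
    have h10 : k * ((x : ↥M) : Equiv.Perm α) * k⁻¹ = ((x : ↥M) : Equiv.Perm α) := h9
    rw [mul_inv_eq_iff_eq_mul] at h10
    exact h10
  -- a nontrivial element of `P`
  haveI : Nontrivial ↥(P : Subgroup ↥M) := by
    rw [← Finite.one_lt_card_iff_nontrivial, hP]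
    norm_num
  obtain ⟨x, hx1⟩ := exists_ne (1 : ↥(P : Subgroup ↥M))
  obtain ⟨xx, hxx⟩ : ∃ xx : Equiv.Perm α, xx = ((x : ↥M) : Equiv.Perm α) := ⟨_, rfl⟩
  have hxxM : xx ∈ M := by rw [hxx]; exact (x : ↥M).2
  have hxx1 : xx ≠ 1 := by
    intro h
    apply hx1
    apply Subtype.ext
    apply Subtype.ext
    rw [← hxx, h]
    rfl
  have hxo : orderOf xx ∣ 11 := by
    have h1 := orderOf_dvd_natCard x
    rw [hP] at h1
    have h2 : orderOf xx = orderOf x := by
      rw [hxx, Subgroup.orderOf_coe, Subgroup.orderOf_coe]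
    rwa [h2]
  have hxz : xx z ≠ z := by
    intro hfix
    have hxK : xx ∈ K := by
      rw [hK]
      refine ⟨(hMG xx hxxM).1, fun c hc => ?_⟩
      rcases Finset.mem_insert.mp hc with rfl | hc
      · exact hfix
      · exact (hMG xx hxxM).2 c hc
    have h1 := orderOf_dvd_natCard (⟨xx, hxK⟩ : ↥K)
    rw [hKcard, Subgroup.orderOf_mk] at h1
    have h2 := Nat.dvd_gcd h1 hxo
    have h3 : Nat.gcd 7 11 = 1 := by norm_num
    rw [h3] at h2
    exact hxx1 (orderOf_eq_one_iff.mp (Nat.dvd_one.mp h2))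
  have hxzΓ : xx z ∉ Γ₁ := hout xx hxxM z hzΓ
  have hcard4 : (insert (xx z) (insert z Γ₁)).card = 4 := by
    rw [Finset.card_insert_of_notMem (by simp [hxz, hxzΓ]), Finset.card_insert_of_notMem hzΓ, hΓ₁]
  have hKbot : K = ⊥ := by
    rw [eq_bot_iff]
    intro k hk
    have hk' : k ∈ pstab G (insert z Γ₁) := by rw [← hK]; exact hk
    have hmem : k ∈ pstab G (insert (xx z) (insert z Γ₁)) := by
      refine ⟨hk'.1, fun c hc => ?_⟩
      rcases Finset.mem_insert.mp hc with rfl | hc
      · have h1 := hcomm k hk x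
        rw [← hxx] at h1
        have h2 := congrArg (fun σ : Equiv.Perm α => σ z) h1
        simp only [Equiv.Perm.mul_apply] at h2
        rw [h2, hk'.2 z (Finset.mem_insert_self z Γ₁)]
      · exact hk'.2 c hc
    rwa [hbot _ hcard4] at hmem
  rw [hKbot, Subgroup.card_bot] at hKcard
  omega

end Cfsg.Agent.Helper66.LW2X3
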