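import Mathlib
import Cfsg.Agent.Helper96.C3SDefs

/-!
# CALL S5664, piece BSP2 (pure algebra): the shape of the map `B`
-/

set_option autoImplicit false

namespace Cfsg.Agent.Helper66.C3S

open Module Cfsg.Agent.Helper96.C3S

variable {F K V : Type*} [Field F] [Field K] [Algebra F K] [AddCommGroup V] [Module F V]
  [Module K V] [IsScalarTower F K V]

theorem bsp2_fT_right (φ : LinearMap.BilinForm K V) (v a b : V) (z : K) (t : F) :
    fT (F := F) φ v (z • a + t • b) =
      Algebra.trace F K (z * φ v a) + t * Algebra.trace F K (φ v b) := by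
  have h1 : fT (F := F) φ v (z • a) = Algebra.trace F K (z * φ v a) := by
    rw [fT_apply, map_smul, smul_eq_mul]
  have h2 : fT (F := F) φ v (t • b) = t * Algebra.trace F K (φ v b) := by
    rw [map_smul, smul_eq_mul, fT_apply]
  rw [map_add, h1, h2]

theorem bsp2_fT_left (φ : LinearMap.BilinForm K V) (v a b : V) (z : K) (t : F) :
    fT (F := F) φ (z • a + t • b) v =
      Algebra.trace F K (z * φ a v) + t * Algebra.trace F K (φ b v) := by
  have h1 : fT (F := F) φ (z • a) v = Algebra.trace F K (z * φ a v) := by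
    rw [fT_apply, map_smul, LinearMap.smul_apply, smul_eq_mul]
  have h2 : fT (F := F) φ (t • b) v = t * Algebra.trace F K (φ b v) := by
    rw [map_smul, LinearMap.smul_apply, smul_eq_mul, fT_apply]
  rw [map_add, LinearMap.add_apply, h1, h2]

/-- PIECE BSP2 (pure algebra) -/
theorem bsp2 (φ : LinearMap.BilinForm K V) (alt : ∀ v, φ v v = 0) (a b : V) (hab : φ a b = 1)
    (e ζ : K) (he : Algebra.trace F K e = 1) (hζ : Algebra.trace F K ζ = 0) (B : Module.End F V)
    (hB1 : ∀ v, B v ∈ Wstar F K a b)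
    (hB2 : ∀ v, (∀ x ∈ Wstar F K a b, fT (F := F) φ v x = 0) → B v = 0)
    (hB3 : ∀ u v, fT (F := F) φ (B v) u = fT (F := F) φ (B u) v) (hB4 : B (e • a) = ζ • a) :
    (∀ k : K, B (k • a) = (Algebra.trace F K k) • (ζ • a)) ∧
      (∀ v, ∃ z : K, Algebra.trace F K z = 0 ∧ B v = z • a + (fT (F := F) φ v (ζ • a)) • b) ∧
      (∀ v, φ v a = 0 → φ v b = 0 → B v = 0) ∧ B b = 0 := by
  have hba : φ b a = -1 := by rw [skew alt b a, hab]
  refine ⟨?_, ?_, ?_, ?_⟩
  · intro k
    have hz : B ((k - algebraMap F K (Algebra.trace F K k) * e) • a) = 0 := by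
      apply hB2
      rintro x ⟨z, t, hz, rfl⟩
      rw [bsp2_fT_right, map_smul, LinearMap.smul_apply, LinearMap.smul_apply, alt, hab]
      simp only [smul_eq_mul, mul_zero, mul_one, map_sub, map_zero, zero_add]
      rw [← Algebra.smul_def, map_smul, he]
      simp
    rw [sub_smul, map_sub, sub_eq_zero] at hz
    rw [hz, mul_smul, algebraMap_smul, map_smul, hB4]
  · intro v
    obtain ⟨z, t, hz, hzt⟩ := hB1 v
    refine ⟨z, hz, ?_⟩
    have h3 := hB3 (e • a) v
    rw [hB4, hzt, bsp2_fT_left] at h3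
    rw [map_smul, map_smul, smul_eq_mul, smul_eq_mul, alt, hba] at h3
    have h4 : fT (F := F) φ (ζ • a) v = - fT (F := F) φ v (ζ • a) := by
      rw [fT_apply, fT_apply, skew alt (ζ • a) v, map_neg]
    rw [h4] at h3
    simp only [mul_zero, map_zero, zero_add, mul_neg, mul_one, map_neg, he] at h3
    rw [hzt, ← neg_inj.mp h3]
  · intro v hva hvb
    apply hB2
    rintro x ⟨z, t, hz, rfl⟩
    rw [bsp2_fT_right, hva, hvb]
    simp
  · apply hB2
    rintro x ⟨z, t, hz, rfl⟩
    rw [bsp2_fT_right, hba, alt]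
    simp [hz]

end Cfsg.Agent.Helper66.C3S
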