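import Mathlib
import Cfsg.Agent.Helper96.C3SDefs

/-!
# CALL S5664, piece CONJA (pure algebra)
-/

set_option autoImplicit false

namespace Cfsg.Agent.Helper66.C3S

open Module Cfsg.Agent.Helper96.C3S

variable {F K V : Type*} [Field F] [Field K] [Algebra F K] [AddCommGroup V] [Module F V]
  [Module K V] [IsScalarTower F K V]

/-- PIECE CONJA (pure algebra) -/
theorem conj_A (φ : LinearMap.BilinForm K V) (alt : ∀ v, φ v v = 0) (a b a' : V) (hab : φ a b = 1)
    (ha'a : φ a' a = 0) (ha'b : φ a' b = 0) (ζ : K) (hζ : Algebra.trace F K ζ = 0)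
    (B : Module.End F V)
    (hBa : ∀ k : K, B (k • a) = (Algebra.trace F K k) • (ζ • a))
    (hBv : ∀ v, ∃ z : K, Algebra.trace F K z = 0 ∧ B v = z • a + (fT (F := F) φ v (ζ • a)) • b)
    (hB0 : ∀ v, φ v a = 0 → φ v b = 0 → B v = 0) (hBb : B b = 0) :
    (1 + B) * ((kS φ a a').restrictScalars F * (1 - B) * (kS φ a (-a')).restrictScalars F) =
      eF φ (ζ • a) a' := by
  have haa' : φ a a' = 0 := by rw [skew alt a a', ha'a, neg_zero]
  have hba : φ b a = -1 := by rw [skew alt b a, hab]
  have hba' : φ b a' = 0 := by rw [skew alt b a', ha'b, neg_zero]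
  have hBka' : ∀ k : K, B (k • a') = 0 := fun k =>
    hB0 _ (by rw [map_smul, LinearMap.smul_apply, ha'a, smul_zero])
      (by rw [map_smul, LinearMap.smul_apply, ha'b, smul_zero])
  have hBa' : B a' = 0 := by simpa using hBka' 1
  have hBζ : B (ζ • a) = 0 := by rw [hBa, hζ, zero_smul]
  have hBB : ∀ v, B (B v) = 0 := by
    intro v
    obtain ⟨z, hz, hv⟩ := hBv v
    rw [hv, map_add, hBa, hz, zero_smul, map_smul, hBb, smul_zero, add_zero]
  apply LinearMap.ext
  intro v
  obtain ⟨z, hz, hv⟩ := hBv v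
  obtain ⟨t, ht⟩ : ∃ t, t = fT (F := F) φ v (ζ • a) := ⟨_, rfl⟩
  obtain ⟨s, hs⟩ : ∃ s, s = fT (F := F) φ v a' := ⟨_, rfl⟩
  rw [← ht] at hv
  have hx : kS φ a (-a') v = v - φ v a • a' - φ v a' • a := by
    rw [kS_apply, smul_neg, map_neg, neg_smul]; abel
  have hBx : B (kS φ a (-a') v) = B v - s • (ζ • a) := by
    rw [hx, map_sub, map_sub, hBka', sub_zero, hBa, hs, fT_apply]
  have hn1 : kS φ a a' (kS φ a (-a') v) = v := by
    rw [hx, kS_apply]
    simp only [map_sub, map_smul, LinearMap.sub_apply, LinearMap.smul_apply, smul_eq_mul, alt,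
      ha'a, haa', mul_zero, sub_zero]
    abel
  have hn2 : kS φ a a' (B v - s • (ζ • a)) = B v - s • (ζ • a) - t • a' := by
    rw [kS_apply]
    have e1 : φ (B v - s • (ζ • a)) a = - algebraMap F K t := by
      rw [hv, ← algebraMap_smul K s (ζ • a), ← algebraMap_smul K t b]
      simp only [map_sub, map_add, map_smul, LinearMap.sub_apply, LinearMap.add_apply,
        LinearMap.smul_apply, smul_eq_mul, alt, hba, mul_zero, zero_add, sub_zero, mul_neg,
        mul_one]
    have e2 : φ (B v - s • (ζ • a)) a' = 0 := by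
      rw [hv, ← algebraMap_smul K s (ζ • a), ← algebraMap_smul K t b]
      simp only [map_sub, map_add, map_smul, LinearMap.sub_apply, LinearMap.add_apply,
        LinearMap.smul_apply, smul_eq_mul, haa', hba', mul_zero, zero_add, sub_zero]
    rw [e1, e2, zero_smul, add_zero, neg_smul, algebraMap_smul, ← sub_eq_add_neg]
  rw [eF_apply, ← ht, ← hs]
  simp only [Module.End.mul_apply, LinearMap.add_apply, LinearMap.sub_apply, Module.End.one_apply,
    LinearMap.coe_restrictScalars]
  rw [hBx, map_sub, hn1, hn2]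
  simp only [map_sub, map_add, map_smul, hBB, hBζ, hBa', smul_zero, sub_zero]
  abel

end Cfsg.Agent.Helper66.C3S
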