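import Mathlib
import Cfsg.Agent.Helper96.C3SDefs

/-!
# CALL S5664, piece CONJB (pure algebra)
-/

set_option autoImplicit false

namespace Cfsg.Agent.Helper66.C3S

open Module Cfsg.Agent.Helper96.C3S

variable {F K V : Type*} [Field F] [Field K] [Algebra F K] [AddCommGroup V] [Module F V]
  [Module K V] [IsScalarTower F K V]

/-- PIECE CONJB (pure algebra) -/
theorem conj_B (φ : LinearMap.BilinForm K V) (alt : ∀ v, φ v v = 0) (a b : V) (hab : φ a b = 1)
    (ζ c : K) (hζ : Algebra.trace F K ζ = 0) (hc : Algebra.trace F K c = 0) (B : Module.End F V)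
    (hBa : ∀ k : K, B (k • a) = (Algebra.trace F K k) • (ζ • a))
    (hBv : ∀ v, ∃ z : K, Algebra.trace F K z = 0 ∧ B v = z • a + (fT (F := F) φ v (ζ • a)) • b)
    (hBb : B b = 0) :
    (1 + B) * ((kT φ a c).restrictScalars F * (1 - B) * (kT φ a (-c)).restrictScalars F) =
      eF φ (ζ • a) (c • a) := by
  have hba : φ b a = -1 := by rw [skew alt b a, hab]
  have hBζ : B (ζ • a) = 0 := by rw [hBa, hζ, zero_smul]
  have hBc : B (c • a) = 0 := by rw [hBa, hc, zero_smul]
  have hBB : ∀ v, B (B v) = 0 := by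
    intro v
    obtain ⟨z, hz, hv⟩ := hBv v
    rw [hv, map_add, hBa, hz, zero_smul, map_smul, hBb, smul_zero, add_zero]
  apply LinearMap.ext
  intro v
  obtain ⟨z, hz, hv⟩ := hBv v
  obtain ⟨t, ht⟩ : ∃ t, t = fT (F := F) φ v (ζ • a) := ⟨_, rfl⟩
  obtain ⟨s, hs⟩ : ∃ s, s = fT (F := F) φ v (c • a) := ⟨_, rfl⟩
  rw [← ht] at hv
  have hx : kT φ a (-c) v = v - (c * φ v a) • a := by
    rw [kT_apply, neg_mul, neg_smul, sub_eq_add_neg]
  have hBx : B (kT φ a (-c) v) = B v - s • (ζ • a) := by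
    rw [hx, map_sub, hBa, hs, fT_apply, map_smul, smul_eq_mul]
  have hn1 : kT φ a c (kT φ a (-c) v) = v := by
    rw [hx, kT_apply]
    simp only [map_sub, map_smul, LinearMap.sub_apply, LinearMap.smul_apply, smul_eq_mul, alt,
      mul_zero, sub_zero]
    abel
  have hn2 : kT φ a c (B v - s • (ζ • a)) = B v - s • (ζ • a) - t • (c • a) := by
    rw [kT_apply]
    have e1 : φ (B v - s • (ζ • a)) a = - algebraMap F K t := by
      rw [hv, ← algebraMap_smul K s (ζ • a), ← algebraMap_smul K t b]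
      simp only [map_sub, map_add, map_smul, LinearMap.sub_apply, LinearMap.add_apply,
        LinearMap.smul_apply, smul_eq_mul, alt, hba, mul_zero, zero_add, sub_zero, mul_neg,
        mul_one]
    rw [e1, mul_neg, neg_smul, mul_comm, mul_smul, algebraMap_smul, ← sub_eq_add_neg]
  rw [eF_apply, ← ht, ← hs]
  simp only [Module.End.mul_apply, LinearMap.add_apply, LinearMap.sub_apply, Module.End.one_apply,
    LinearMap.coe_restrictScalars]
  rw [hBx, map_sub, hn1, hn2]
  simp only [map_sub, map_smul, hBB, hBζ, hBc, smul_zero, sub_zero]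
  abel

end Cfsg.Agent.Helper66.C3S
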