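import Mathlib
import Cfsg.Agent.Helper96.C3SDefs
import Cfsg.Agent.Helper3.C3SBSP1
import Cfsg.Agent.Helper83.C3SHEIS
import Cfsg.Agent.Helper83.C3SFND
import Cfsg.Agent.Helper83.C3SEXU
import Cfsg.Agent.Helper28.C3SELT
import Cfsg.Agent.Helper66.C3SBSP2
import Cfsg.Agent.Helper66.C3SCONJA

/-!
# CALL S5664, piece FINA: an `F`-transvection in `P` when `dim_K V ≥ 4`
-/

set_option autoImplicit false

namespace Cfsg.Agent.Helper66.C3S

open Module Cfsg.Agent.Helper96.C3S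

variable {F K V : Type*} [Field F] [Field K] [Algebra F K] [AddCommGroup V] [Module F V]
  [Module K V] [IsScalarTower F K V]

/-- FINA with the perpendicular pair (piece PERP2) as a hypothesis. -/
theorem fin_A_core [Fintype F] [Finite K] [Module.Finite K V] (hr : (finrank F K).Prime)
    {φ : LinearMap.BilinForm K V} {P : Module.End F V → Prop} (h : Hyp φ P)
    (a b : V) (hab : φ a b = 1) (hW : InW K P (Wstar F K a b))
    (hperp : ∃ w w' : V, φ w a = 0 ∧ φ w b = 0 ∧ φ w' a = 0 ∧ φ w' b = 0 ∧ φ w' w = 1) :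
    ∃ u₀ : V, u₀ ≠ 0 ∧ ∀ s : F, P (tF φ u₀ s) := by
  obtain ⟨ζ, hζ0, hζ⟩ := Cfsg.Agent.Helper83.C3S.exists_trace_zero (F := F) (K := K) hr.two_le
  obtain ⟨e, he⟩ := trace_surj (F := F) (K := K) 1
  obtain ⟨B, hP1, hP2, hB1, hB2, hB3, hB4⟩ :=
    Cfsg.Agent.Helper3.C3S.bsp1 h a b hab hW e ζ he hζ
  obtain ⟨hBa, hBv, hB0, hBb⟩ := bsp2 φ h.alt a b hab e ζ he hζ B hB1 hB2 hB3 hB4
  have ha0 : a ≠ 0 := by
    rintro rfl
    rw [map_zero, LinearMap.zero_apply] at hab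
    exact zero_ne_one hab
  -- the Siegel elements with centre `ζ • a`
  have hE : ∀ a' : V, φ a' a = 0 → φ a' b = 0 → P (eF φ (ζ • a) a') := by
    intro a' h1 h2
    have haa' : φ a a' = 0 := by rw [skew h.alt a a', h1, neg_zero]
    rw [← conj_A φ h.alt a b a' hab h1 h2 ζ hζ B hBa hBv hB0 hBb]
    refine h.grp.mul _ _ hP1 (h.grp.mul _ _ (h.grp.mul _ _ ?_ hP2) ?_)
    · exact h.lin _ (Cfsg.Agent.Helper28.C3S.kS_iso φ h.alt a a' haa')
    · exact h.lin _ (Cfsg.Agent.Helper28.C3S.kS_iso φ h.alt a (-a')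
        (by rw [map_neg, haa', neg_zero]))
  obtain ⟨w, w', hwa, hwb, hw'a, hw'b, hw'w⟩ := hperp
  refine ⟨ζ • a, smul_ne_zero hζ0 ha0, ?_⟩
  intro s
  obtain ⟨k, hk⟩ := trace_surj (F := F) (K := K) s
  have hfu : ∀ x : V, φ x a = 0 → fT (F := F) φ (ζ • a) x = 0 := by
    intro x hx
    rw [fT_apply, map_smul, LinearMap.smul_apply, skew h.alt a x, hx, neg_zero, smul_zero,
      map_zero]
  have hkwa : φ (k • w') a = 0 := by rw [map_smul, LinearMap.smul_apply, hw'a, smul_zero]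
  have hkwb : φ (k • w') b = 0 := by rw [map_smul, LinearMap.smul_apply, hw'b, smul_zero]
  have hs : fT (F := F) φ (k • w') w = s := by
    rw [fT_apply, map_smul, LinearMap.smul_apply, hw'w, smul_eq_mul, mul_one, hk]
  have key := Cfsg.Agent.Helper83.C3S.eF_heis (F := F) φ h.alt (ζ • a) w (k • w')
    (hfu w hwa) (hfu _ hkwa)
  rw [hs] at key
  rw [← key]
  refine h.grp.mul _ _ (h.grp.mul _ _ (hE w hwa hwb) (hE _ hkwa hkwb)) (hE _ ?_ ?_)
  · rw [map_neg, LinearMap.neg_apply, map_add, LinearMap.add_apply, hwa, hkwa, add_zero, neg_zero]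
  · rw [map_neg, LinearMap.neg_apply, map_add, LinearMap.add_apply, hwb, hkwb, add_zero, neg_zero]

/-- PIECE FINA: `dim_K V ≥ 4` -/
theorem fin_A [Fintype F] [Finite K] [Module.Finite K V] (hr : (finrank F K).Prime)
    {φ : LinearMap.BilinForm K V} {P : Module.End F V → Prop} (h : Hyp φ P)
    (hd : 4 ≤ finrank K V) (a b : V) (hab : φ a b = 1) (hW : InW K P (Wstar F K a b)) :
    ∃ u₀ : V, u₀ ≠ 0 ∧ ∀ s : F, P (tF φ u₀ s) :=
  fin_A_core hr h a b hab hW
    (Cfsg.Agent.Helper83.C3S.exists_perp_pair φ h.alt h.nd a b hab hd)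

end Cfsg.Agent.Helper66.C3S
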