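import Cfsg.Agent.Helper9.BRDefs
import Cfsg.Agent.Helper9.BrauerP
import Cfsg.Agent.Helper9.OrdTools2
import Cfsg.Agent.Helper8.SylFix
import Cfsg.Agent.Helper8.SylSub
import Cfsg.Agent.Helper8.Ord459B
import Cfsg.Agent.Helper75.BRNF
import Cfsg.Agent.Helper75.BRT1
import Cfsg.Agent.Helper75.BRT3
import Cfsg.Agent.Helper78.Counting
import Cfsg.Agent.Helper81.SectionChar
import Cfsg.Agent.Helper80.CharOrtho
import Cfsg.Agent.Helper8.O5040Tools
import Cfsg.Agent.Helper8.O5040INT2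
import Cfsg.Agent.Helper19.O5040INV


/-!
# CALL S4429, piece E2B1 (helper66): a character of `X2` of degree 4 or 9 is impossible

Also the common core `o7920_five_two_core` used by piece E2B2.
-/

set_option autoImplicit false
set_option linter.style.haveILetI false
set_option maxHeartbeats 1000000
open Cfsg
open scoped ComplexConjugate

universe u

namespace Cfsg.Agent.Helper66

/-- the multiplicity of the trivial character of `Q × ⟨c⟩` in a character which is constant
`= s` on the `5`-singular elements of `Q × ⟨c⟩`. -/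
theorem o7920_five_two_core {G : Type u} [Group G] [Fintype G]
    (Q : Sylow 5 G) (hQ : Nat.card (Q : Subgroup G) = 5) (c : G) (hc : orderOf c = 2)
    (hcQ : c ∈ Subgroup.centralizer ((Q : Subgroup G) : Set G))
    (χ : Cfsg.IrrCharacter G) (s : ℂ)
    (hs : ∀ x : G, x ∈ (Q : Subgroup G) → x ≠ 1 → ∀ y : G,
      y ∈ Subgroup.centralizer ((Q : Subgroup G) : Set G) → ¬ 5 ∣ orderOf y →
      (χ : G → ℂ) (x * y) = s) :
    ∃ n : ℕ, (χ : G → ℂ) 1 + (χ : G → ℂ) c + 8 * s = 10 * (n : ℂ) := by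
  obtain ⟨y, hyQ, hy1⟩ : ∃ y : G, y ∈ (Q : Subgroup G) ∧ y ≠ 1 := by
    by_contra hcon
    push Not at hcon
    have hbot : (Q : Subgroup G) = ⊥ := (Subgroup.eq_bot_iff_forall _).mpr hcon
    rw [hbot, Subgroup.card_bot] at hQ
    omega
  have hyo : orderOf y = 5 := by
    have h1 : orderOf y ∣ 5 := by
      have h2 := orderOf_dvd_natCard (⟨y, hyQ⟩ : (Q : Subgroup G))
      rwa [Subgroup.orderOf_mk, hQ] at h2
    rcases (Nat.dvd_prime (by norm_num : Nat.Prime 5)).mp h1 with h | h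
    · exact absurd (orderOf_eq_one_iff.mp h) hy1
    · exact h
  have hyc : y * c = c * y := (Subgroup.mem_centralizer_iff.mp hcQ) y hyQ
  have hc5 : ∀ b : ℕ, ¬ 5 ∣ orderOf (c ^ b) := by
    intro b h5
    have h1 : orderOf (c ^ b) ∣ orderOf c := orderOf_pow_dvd b
    have h2 := h5.trans h1
    rw [hc] at h2
    omega
  have hval : ∀ a b : ℕ, ¬ 5 ∣ a → (χ : G → ℂ) (y ^ a * c ^ b) = s := by
    intro a b ha
    refine hs (y ^ a) (Subgroup.pow_mem _ hyQ a) ?_ (c ^ b) (Subgroup.pow_mem _ hcQ b) (hc5 b)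
    intro h
    apply ha
    rw [← hyo]
    exact orderOf_dvd_of_pow_eq_one h
  obtain ⟨n, hn⟩ := Cfsg.Agent.Helper8.o5040_int2 χ 5 (by norm_num) (by norm_num) y c hyc hyo hc
    s hval
  refine ⟨n, ?_⟩
  push_cast at hn
  linear_combination hn

-- PIECE E2B1: a character of `X2` of degree 4 or 9 is impossible
theorem o7920_five_two_neg {G : Type u} [Group G] [Fintype G] [IsSimpleGroup G]
    (hna : ∃ a b : G, a * b ≠ b * a)
    {M : Ideal Cfsg.AlgInt} (Q : Sylow 5 G) (hQ : Nat.card (Q : Subgroup G) = 5)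
    (T : Cfsg.Agent.Helper9.BRTab 5 M Q 2) (c : G) (hc : orderOf c = 2)
    (hcQ : c ∈ Subgroup.centralizer ((Q : Subgroup G) : Set G))
    (χ : Cfsg.IrrCharacter G) (hχ : χ ∈ T.X2)
    (hdeg : Cfsg.charDegree (χ : G → ℂ) = 4 ∨ Cfsg.charDegree (χ : G → ℂ) = 9) : False := by
  obtain ⟨n, hn⟩ := o7920_five_two_core Q hQ c hc hcQ χ (-1) (T.hX2 χ hχ).2
  have hχne : χ ≠ Helper81.trivIrr G := fun h => T.h1X2 (h ▸ hχ)
  have hχ1 := Helper81.irr_one_eq_charDegree χ
  have hnorm := Helper80.isCharacter_norm_le (Helper79.irr_isCharacter χ) c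
  have hcc : c * c = 1 := by rw [← pow_two, ← hc]; exact pow_orderOf_eq_one c
  have hc1 : c ≠ 1 := by
    intro h
    rw [h, orderOf_one] at hc
    omega
  rcases hdeg with hd | hd
  · rw [hd] at hχ1 hnorm
    have hχc : (χ : G → ℂ) c = ((10 * (n : ℤ) + 4 : ℤ) : ℂ) := by
      push_cast
      push_cast at hχ1
      linear_combination hn - hχ1
    rw [hχc, Complex.norm_intCast] at hnorm
    have hn' : |(10 * (n : ℤ) + 4 : ℤ)| ≤ 4 := by exact_mod_cast hnorm
    rw [abs_le] at hn'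
    have hn0 : n = 0 := by omega
    subst hn0
    exact hc1 (Cfsg.Agent.Helper8.o5040_ker χ hχne c (by rw [hχc, hχ1]; push_cast; ring))
  · rw [hd] at hχ1 hnorm
    have hχc : (χ : G → ℂ) c = ((10 * (n : ℤ) - 1 : ℤ) : ℂ) := by
      push_cast
      push_cast at hχ1
      linear_combination hn - hχ1
    rw [hχc, Complex.norm_intCast] at hnorm
    have hn' : |(10 * (n : ℤ) - 1 : ℤ)| ≤ 9 := by exact_mod_cast hnorm
    rw [abs_le] at hn'
    have hn01 : n = 0 ∨ n = 1 := by omega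
    rcases hn01 with rfl | rfl
    · have h5 : Even 5 := Cfsg.Agent.Helper19.o5040_invol_mod4 hna χ c hcc 5 (by
        rw [hχc, hχ1]; push_cast; ring)
      exact absurd h5 (by decide)
    · exact hc1 (Cfsg.Agent.Helper8.o5040_ker χ hχne c (by rw [hχc, hχ1]; push_cast; ring))

end Cfsg.Agent.Helper66
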