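import Cfsg.Agent.Helper66.D7920E2B1

/-!
# CALL S4429, piece E2B2 (helper66): the value `-9` of the character of degree 11 of `X1` at the
involution of `C(Q)`
-/

set_option autoImplicit false
set_option linter.style.haveILetI false
set_option maxHeartbeats 1000000
open Cfsg
open scoped ComplexConjugate

universe u

namespace Cfsg.Agent.Helper66

-- PIECE E2B2: the value `-9` of the character of degree 11 of `X1` at the involution
theorem o7920_five_two_val {G : Type u} [Group G] [Fintype G] [IsSimpleGroup G]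
    (hna : ∃ a b : G, a * b ≠ b * a)
    {M : Ideal Cfsg.AlgInt} (Q : Sylow 5 G) (hQ : Nat.card (Q : Subgroup G) = 5)
    (T : Cfsg.Agent.Helper9.BRTab 5 M Q 2) (c : G) (hc : orderOf c = 2)
    (hcQ : c ∈ Subgroup.centralizer ((Q : Subgroup G) : Set G))
    (χ : Cfsg.IrrCharacter G) (hχ : χ ∈ T.X1)
    (hdeg : Cfsg.charDegree (χ : G → ℂ) = 11) : (χ : G → ℂ) c = -9 := by
  obtain ⟨n, hn⟩ := o7920_five_two_core Q hQ c hc hcQ χ 1 (T.hX1 χ hχ).2
  have hχne : χ ≠ Helper81.trivIrr G := fun h => T.h1X1 (h ▸ hχ)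
  have hχ1 := Helper81.irr_one_eq_charDegree χ
  have hnorm := Helper80.isCharacter_norm_le (Helper79.irr_isCharacter χ) c
  have hcc : c * c = 1 := by rw [← pow_two, ← hc]; exact pow_orderOf_eq_one c
  have hc1 : c ≠ 1 := by
    intro h
    rw [h, orderOf_one] at hc
    omega
  rw [hdeg] at hχ1 hnorm
  have hχc : (χ : G → ℂ) c = ((10 * (n : ℤ) - 19 : ℤ) : ℂ) := by
    push_cast
    push_cast at hχ1
    linear_combination hn - hχ1
  rw [hχc, Complex.norm_intCast] at hnorm
  have hn' : |(10 * (n : ℤ) - 19 : ℤ)| ≤ 11 := by exact_mod_cast hnorm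
  rw [abs_le] at hn'
  have hn123 : n = 1 ∨ n = 2 ∨ n = 3 := by omega
  rcases hn123 with rfl | rfl | rfl
  · rw [hχc]
    push_cast
    norm_num
  · exfalso
    have h5 : Even 5 := Cfsg.Agent.Helper19.o5040_invol_mod4 hna χ c hcc 5 (by
      rw [hχc, hχ1]; push_cast; ring)
    exact absurd h5 (by decide)
  · exfalso
    exact hc1 (Cfsg.Agent.Helper8.o5040_ker χ hχne c (by rw [hχc, hχ1]; push_cast; ring))

end Cfsg.Agent.Helper66
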