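import Mathlib
import Cfsg.Agent.Helper9.OrdTools

/-!
# CALL S4429, piece E2D1 (helper66): `Q` fixes only the trivial coset of a subgroup containing
its normalizer
-/

set_option autoImplicit false
set_option linter.style.haveILetI false

universe u

namespace Cfsg.Agent.Helper66

-- PIECE E2D1: `Q` fixes only the trivial coset of `C(c)`
theorem o7920_fix_coset {G : Type u} [Group G] [Finite G] (hG : Nat.card G = 7920)
    (Q : Sylow 5 G) (H : Subgroup G)
    (hle : Subgroup.normalizer ((Q : Subgroup G) : Set G) ≤ H)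
    (y : G) (hy : y ∈ (Q : Subgroup G)) (hy1 : y ≠ 1) (g : G)
    (hg : g⁻¹ * y * g ∈ H) : g ∈ H := by
  haveI : Fact (Nat.Prime 5) := ⟨by norm_num⟩
  have hQ : Nat.card (Q : Subgroup G) = 5 := by
    have := Cfsg.Agent.Helper9.OrdTools.sylow_card 1 1584 (hG.trans (by norm_num))
      (by norm_num) Q
    simpa using this
  have hz : Subgroup.zpowers y = (Q : Subgroup G) :=
    Cfsg.Agent.Helper9.OrdTools.zpowers_eq_sylow Q hQ hy hy1
  have hQH : (Q : Subgroup G) ≤ H := Subgroup.le_normalizer.trans hle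
  have hQ'H : ((g⁻¹ • Q : Sylow 5 G) : Subgroup G) ≤ H := by
    intro q hq
    rw [Sylow.coe_subgroup_smul, Subgroup.mem_pointwise_smul_iff_inv_smul_mem] at hq
    have hq' : g * q * g⁻¹ ∈ (Q : Subgroup G) := by
      simpa [MulAut.smul_def] using hq
    rw [← hz] at hq'
    obtain ⟨k, hk⟩ := Subgroup.mem_zpowers_iff.mp hq'
    have e : (g⁻¹ * y * g) ^ k = g⁻¹ * y ^ k * g := by
      have := conj_zpow (a := g⁻¹) (b := y) (i := k)
      simpa using this
    have hqe : q = (g⁻¹ * y * g) ^ k := by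
      rw [e, hk]
      group
    rw [hqe]
    exact H.zpow_mem hg k
  obtain ⟨n, hn⟩ := MulAction.exists_smul_eq ↥H ((g⁻¹ • Q : Sylow 5 G).subtype hQ'H)
    (Q.subtype hQH)
  rw [Sylow.smul_subtype] at hn
  have hn' : (n : G) • (g⁻¹ • Q : Sylow 5 G) = Q := Sylow.subtype_injective hn
  rw [smul_smul] at hn'
  have hmem : (n : G) * g⁻¹ ∈ Subgroup.normalizer ((Q : Subgroup G) : Set G) :=
    Sylow.smul_eq_iff_mem_normalizer.mp hn'
  have h1 : (n : G) * g⁻¹ ∈ H := hle hmem
  have h2 : g⁻¹ ∈ H := by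
    have := H.mul_mem (H.inv_mem n.2) h1
    simpa using this
  simpa using H.inv_mem h2

end Cfsg.Agent.Helper66
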