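import Mathlib

set_option autoImplicit false

namespace Cfsg.Agent.Helper66

open Module
open scoped IsMulCommutative

/-- A linear map from `ℤ^r` to a free abelian group `L` of finite rank whose image has finite index
has a kernel generated by `r - rank L` elements. -/
theorem exists_finset_span_ker {ι L : Type*} [Fintype ι] [AddCommGroup L] [Module.Free ℤ L]
    [Module.Finite ℤ L] (g : (ι →₀ ℤ) →ₗ[ℤ] L) (d : ℕ) (hd : d ≠ 0)
    (hg : ∀ l : L, (d : ℤ) • l ∈ LinearMap.range g) :
    ∃ S : Finset (ι →₀ ℤ), S.card ≤ Fintype.card ι - Module.finrank ℤ L ∧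
      Submodule.span ℤ (S : Set (ι →₀ ℤ)) = LinearMap.ker g := by
  classical
  have h1 : finrank ℤ L ≤ finrank ℤ (LinearMap.range g) := by
    let m : L →ₗ[ℤ] LinearMap.range g :=
      { toFun := fun l => ⟨(d : ℤ) • l, hg l⟩
        map_add' := fun a b => Subtype.ext (smul_add _ _ _)
        map_smul' := fun c a => Subtype.ext (smul_comm _ _ _) }
    have hm : Function.Injective m := by
      intro a b hab
      have := congrArg Subtype.val hab
      exact smul_right_injective L (Int.natCast_ne_zero.mpr hd) this
    exact LinearMap.finrank_le_finrank_of_injective hm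
  have h2 : finrank ℤ (LinearMap.range g) + finrank ℤ (LinearMap.ker g) = Fintype.card ι := by
    rw [← (LinearMap.quotKerEquivRange g).finrank_eq, Submodule.finrank_quotient_add_finrank,
      Module.finrank_finsupp_self]
  let b := Module.finBasis ℤ (LinearMap.ker g)
  refine ⟨Finset.univ.image (fun i => ((b i : LinearMap.ker g) : ι →₀ ℤ)), ?_, ?_⟩
  · refine Finset.card_image_le.trans ?_
    rw [Finset.card_univ, Fintype.card_fin]
    omega
  · rw [Finset.coe_image, Finset.coe_univ, Set.image_univ]
    have h3 : Set.range (fun i => ((b i : LinearMap.ker g) : ι →₀ ℤ))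
        = (LinearMap.ker g).subtype '' Set.range b := by
      rw [← Set.range_comp]; rfl
    rw [h3, ← Submodule.map_span, b.span_eq, Submodule.map_subtype_top]

/-- Additive version: in an abelian group `C`, the part of the subgroup generated by `r` elements
which lies in the kernel of a map to a free abelian group `L`, onto a finite-index subgroup, is
generated by `r - rank L` elements. -/
theorem exists_finset_span_inf_ker {ι C L : Type*} [Fintype ι] [AddCommGroup C] [AddCommGroup L]
    [Module.Free ℤ L] [Module.Finite ℤ L] (v : ι → C) (f : C →+ L) (d : ℕ) (hd : d ≠ 0)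
    (hf : ∀ l : L, ∃ c ∈ Submodule.span ℤ (Set.range v), f c = (d : ℤ) • l) :
    ∃ S : Finset C, S.card ≤ Fintype.card ι - Module.finrank ℤ L ∧
      Submodule.span ℤ (S : Set C)
        = Submodule.span ℤ (Set.range v) ⊓ LinearMap.ker f.toIntLinearMap := by
  classical
  have hlc : LinearMap.range (Finsupp.linearCombination ℤ v) = Submodule.span ℤ (Set.range v) :=
    Finsupp.range_linearCombination ℤ
  obtain ⟨S₀, hS₀, hspan⟩ := exists_finset_span_ker
    (f.toIntLinearMap ∘ₗ Finsupp.linearCombination ℤ v) d hd (by
      intro l
      obtain ⟨c, hc, hfc⟩ := hf l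
      rw [← hlc] at hc
      obtain ⟨w, rfl⟩ := hc
      exact ⟨w, hfc⟩)
  refine ⟨S₀.image (Finsupp.linearCombination ℤ v), Finset.card_image_le.trans hS₀, ?_⟩
  rw [Finset.coe_image, ← Submodule.map_span, hspan, ← hlc, LinearMap.ker_comp,
    Submodule.map_comap_eq]

/-- Spans in `Additive (center E)` correspond to closures in `E`. -/
theorem mem_span_iff_mem_closure_center {E : Type*} [Group E]
    (X : Set (Additive (Subgroup.center E))) (c : Additive (Subgroup.center E)) :
    c ∈ Submodule.span ℤ X ↔ ((Additive.toMul c : Subgroup.center E) : E) ∈ Subgroup.closure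
      ((fun c : Additive (Subgroup.center E) => ((Additive.toMul c : Subgroup.center E) : E)) '' X)
    := by
  constructor
  · intro hc
    induction hc using Submodule.span_induction with
    | mem x hx => exact Subgroup.subset_closure ⟨x, hx, rfl⟩
    | zero => exact Subgroup.one_mem _
    | add x y _ _ hx hy => exact Subgroup.mul_mem _ hx hy
    | smul a x _ hx => exact Subgroup.zpow_mem _ hx a
  · intro hc
    have h : ∀ y ∈ Subgroup.closure ((fun c : Additive (Subgroup.center E) =>
        ((Additive.toMul c : Subgroup.center E) : E)) '' X),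
        ∃ c' ∈ Submodule.span ℤ X, ((Additive.toMul c' : Subgroup.center E) : E) = y := by
      intro y hy
      induction hy using Subgroup.closure_induction with
      | mem y hy =>
        obtain ⟨x, hx, rfl⟩ := hy
        exact ⟨x, Submodule.subset_span hx, rfl⟩
      | one => exact ⟨0, Submodule.zero_mem _, rfl⟩
      | mul a b _ _ ha hb =>
        obtain ⟨a', ha', rfl⟩ := ha
        obtain ⟨b', hb', rfl⟩ := hb
        exact ⟨a' + b', Submodule.add_mem _ ha' hb', rfl⟩
      | inv a _ ha =>
        obtain ⟨a', ha', rfl⟩ := ha
        exact ⟨-a', Submodule.neg_mem _ ha', rfl⟩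
    obtain ⟨c', hc', hj⟩ := h _ hc
    have h2 : c' = c := by
      have h3 : (Additive.toMul c' : Subgroup.center E) = Additive.toMul c := Subtype.ext hj
      exact h3
    rwa [← h2]

/-- Multiplicative version: for central elements `T i` of a group `E` (`r` of them) and a
surjection `h` from `E` to a free abelian group of rank `n` such that a fixed power of every
element lies in `⟨T⟩`, the subgroup `⟨T⟩ ⊓ ker h` is generated by `r - n` elements. -/
theorem exists_finset_closure_inf_ker {ι E A L : Type*} [Fintype ι] [Group E] [CommGroup A]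
    [AddCommGroup L] [Module.Free ℤ L] [Module.Finite ℤ L]
    (T : ι → E) (hT : ∀ i, T i ∈ Subgroup.center E) (h : E →* A) (e : Additive A ≃+ L)
    (hsurj : Function.Surjective h) (d : ℕ) (hd : d ≠ 0)
    (hpow : ∀ x : E, x ^ d ∈ Subgroup.closure (Set.range T)) :
    ∃ S : Finset E, S.card ≤ Fintype.card ι - Module.finrank ℤ L ∧
      Subgroup.closure (S : Set E) = Subgroup.closure (Set.range T) ⊓ h.ker := by
  classical
  have hTc : Subgroup.closure (Set.range T) ≤ Subgroup.center E := by
    rw [Subgroup.closure_le]; rintro _ ⟨i, rfl⟩; exact hT i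
  have hjv : (fun c : Additive (Subgroup.center E) => ((Additive.toMul c : Subgroup.center E) : E))
      '' Set.range (fun i => (Additive.ofMul (⟨T i, hT i⟩ : Subgroup.center E))) = Set.range T := by
    rw [← Set.range_comp]; rfl
  let f : Additive (Subgroup.center E) →+ L :=
    e.toAddMonoidHom.comp (MonoidHom.toAdditive (h.comp (Subgroup.center E).subtype))
  have hf : ∀ c : Additive (Subgroup.center E),
      f c = e (Additive.ofMul (h ((Additive.toMul c : Subgroup.center E) : E))) := fun c => rfl
  obtain ⟨S, hS, hspan⟩ := exists_finset_span_inf_ker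
    (fun i => (Additive.ofMul (⟨T i, hT i⟩ : Subgroup.center E))) f d hd (by
    intro l
    obtain ⟨x, hx⟩ := hsurj (Additive.toMul (e.symm l))
    have hxd := hpow x
    refine ⟨Additive.ofMul ⟨x ^ d, hTc hxd⟩, ?_, ?_⟩
    · rw [mem_span_iff_mem_closure_center, hjv]; exact hxd
    · rw [hf]
      show e (Additive.ofMul (h (x ^ d))) = _
      rw [map_pow, hx]
      have h5 : Additive.ofMul ((Additive.toMul (e.symm l)) ^ d) = (d : ℤ) • (e.symm l) := by
        rw [natCast_zsmul]; rfl
      rw [h5, map_zsmul, AddEquiv.apply_symm_apply])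
  refine ⟨S.image (fun c : Additive (Subgroup.center E) =>
    ((Additive.toMul c : Subgroup.center E) : E)), Finset.card_image_le.trans hS, ?_⟩
  ext y
  rw [Finset.coe_image, Subgroup.mem_inf]
  constructor
  · intro hy
    have hyc : y ∈ Subgroup.center E := by
      refine (Subgroup.closure_le _).mpr ?_ hy
      rintro _ ⟨c, _, rfl⟩
      exact (Additive.toMul c).2
    have hc : (Additive.ofMul (⟨y, hyc⟩ : Subgroup.center E)) ∈ Submodule.span ℤ (S : Set _) :=
      (mem_span_iff_mem_closure_center _ _).mpr hy
    rw [hspan] at hc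
    obtain ⟨hc1, hc2⟩ := hc
    refine ⟨?_, ?_⟩
    · have h6 := (mem_span_iff_mem_closure_center _ _).mp hc1
      rw [hjv] at h6
      exact h6
    · have h0 : f (Additive.ofMul ⟨y, hyc⟩) = 0 := hc2
      rw [hf] at h0
      have h7 := e.injective (h0.trans (map_zero e).symm)
      exact h7
  · rintro ⟨hy1, hy2⟩
    have hc : (Additive.ofMul (⟨y, hTc hy1⟩ : Subgroup.center E)) ∈
        Submodule.span ℤ (Set.range (fun i => (Additive.ofMul (⟨T i, hT i⟩ : Subgroup.center E))))
          ⊓ LinearMap.ker f.toIntLinearMap := by
      refine ⟨?_, ?_⟩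
      · rw [SetLike.mem_coe, mem_span_iff_mem_closure_center, hjv]; exact hy1
      · show f _ = 0
        rw [hf]
        show e (Additive.ofMul (h y)) = 0
        rw [show h y = 1 from hy2]; exact map_zero e
    rw [← hspan] at hc
    exact (mem_span_iff_mem_closure_center _ _).mp hc

/-- The rank of a subgroup generated by a finite set is at most its number of elements. -/
theorem rank_le_of_closure_eq {G : Type*} [Group G] (H : Subgroup G) [Group.FG H] (S : Finset G)
    (h : Subgroup.closure (S : Set G) = H) : Group.rank H ≤ S.card := by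
  subst h; exact Subgroup.rank_closure_finset_le_card S

end Cfsg.Agent.Helper66
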