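import Mathlib
import Cfsg.Prelude.Def_GeometricClasses
import Cfsg.Agent.Helper69.E3Def
import Cfsg.Agent.Helper40.SemisimpleMat
import Cfsg.Agent.Helper84.E3BASE

/-!
# Piece INV of CALL S5998 (helper66): elements of `SL₃` with scalar square are conjugate into the
normalizer of the standard `3^{1+2}`
-/

set_option autoImplicit false

namespace Cfsg.Agent.Helper66

open Cfsg.Agent.Helper69

/-- The characteristic polynomial of a `3 × 3` matrix. -/
theorem e3inv_charpoly {F : Type*} [Field F] (M : Matrix (Fin 3) (Fin 3) F) :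
    M.charpoly = Polynomial.X ^ 3 - Polynomial.C (M 0 0 + M 1 1 + M 2 2) * Polynomial.X ^ 2
      + Polynomial.C (M 0 0 * M 1 1 - M 0 1 * M 1 0 + M 0 0 * M 2 2 - M 0 2 * M 2 0
          + M 1 1 * M 2 2 - M 1 2 * M 2 1) * Polynomial.X
      - Polynomial.C (M.det) := by
  rw [Matrix.charpoly, Matrix.det_fin_three, Matrix.det_fin_three]
  simp only [Matrix.charmatrix_apply, Matrix.diagonal_apply, map_add, map_sub, map_mul]
  simp
  ring

/-- A non-scalar involution of determinant one has trace `-1` and second coefficient `-1`. -/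
theorem e3inv_coeffs {F : Type*} [Field F] (y : Matrix (Fin 3) (Fin 3) F) (hy : y ^ 2 = 1)
    (hdet : y.det = 1) (hns : ∀ c : F, y ≠ c • (1 : Matrix (Fin 3) (Fin 3) F)) :
    y 0 0 + y 1 1 + y 2 2 = -1 ∧ (y 0 0 * y 1 1 - y 0 1 * y 1 0 + y 0 0 * y 2 2 - y 0 2 * y 2 0
          + y 1 1 * y 2 2 - y 1 2 * y 2 1) = -1 := by
  have hCH := Matrix.aeval_self_charpoly y
  rw [e3inv_charpoly, hdet] at hCH
  obtain ⟨T, hT⟩ : ∃ T, T = y 0 0 + y 1 1 + y 2 2 := ⟨_, rfl⟩
  obtain ⟨c, hc⟩ : ∃ c, c = y 0 0 * y 1 1 - y 0 1 * y 1 0 + y 0 0 * y 2 2 - y 0 2 * y 2 0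
          + y 1 1 * y 2 2 - y 1 2 * y 2 1 := ⟨_, rfl⟩
  rw [← hT, ← hc] at hCH ⊢
  have hy3 : y ^ 3 = y := by rw [pow_succ, hy, one_mul]
  simp only [map_sub, map_add, map_mul, map_pow, Polynomial.aeval_X, Polynomial.aeval_C, hy3, hy,
    Algebra.algebraMap_eq_smul_one, mul_one, smul_mul_assoc, one_mul, map_one] at hCH
  have key : (1 + c) • y = (T + 1) • (1 : Matrix (Fin 3) (Fin 3) F) := by
    rw [add_smul, add_smul, one_smul, one_smul]
    have h2 : y + c • y - (T • (1 : Matrix (Fin 3) (Fin 3) F) + 1) = 0 := by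
      rw [← hCH]; abel
    exact sub_eq_zero.mp h2
  have hc1 : 1 + c = 0 := by
    by_contra hne
    apply hns ((1 + c)⁻¹ * (T + 1))
    rw [mul_smul, ← key, smul_smul, inv_mul_cancel₀ hne, one_smul]
  rw [hc1, zero_smul] at key
  have h00 := congrFun (congrFun key 0) 0
  simp at h00
  constructor
  · linear_combination -h00
  · linear_combination hc1

/-- The standard involution `-swap`. -/
def e3S (F : Type*) [Field F] : Matrix (Fin 3) (Fin 3) F := !![0, -1, 0; -1, 0, 0; 0, 0, -1]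

theorem e3S_mul_self (F : Type*) [Field F] : e3S F * e3S F = 1 := by
  ext i j
  fin_cases i <;> fin_cases j <;> simp [e3S, Matrix.mul_apply, Fin.sum_univ_three]

theorem e3S_det (F : Type*) [Field F] : (e3S F).det = 1 := by
  rw [Matrix.det_fin_three]
  simp [e3S]

theorem e3S_conj_X (F : Type*) [Field F] : e3S F * e3X F * e3S F = e3X F ^ 2 := by
  rw [pow_two]
  ext i j
  fin_cases i <;> fin_cases j <;> simp [e3S, e3X, Matrix.mul_apply, Fin.sum_univ_three]

theorem e3S_conj_Z {F : Type*} [Field F] (ω : F) (hω3 : ω ^ 3 = 1) :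
    e3S F * e3Z ω * e3S F = ω • (e3Z ω ^ 2) := by
  rw [pow_two]
  ext i j
  fin_cases i <;> fin_cases j <;>
    simp [e3S, e3Z, Matrix.mul_apply, Fin.sum_univ_three]
  · linear_combination (-1 : F) * hω3
  · linear_combination (-ω ^ 2) * hω3

theorem e3_involution {F : Type*} [Field F] [Fintype F] (p : ℕ) [Fact p.Prime] [CharP F p]
    (hp2 : p ≠ 2) (ω : F) (hω1 : ω ≠ 1) (hω3 : ω ^ 3 = 1)
    (x : Matrix (Fin 3) (Fin 3) F) (hdet : x.det = 1) (z : F)
    (hx : x ^ 2 = z • (1 : Matrix (Fin 3) (Fin 3) F))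
    (hns : ∀ c : F, x ≠ c • (1 : Matrix (Fin 3) (Fin 3) F)) :
    ∃ (Q : Matrix (Fin 3) (Fin 3) F) (t : GL (Fin 3) F), Q.det = 1 ∧
      t ∈ Cfsg.Geo.subgroupNormalizer (E3 ω) ∧ Q * x = (t : Matrix (Fin 3) (Fin 3) F) * Q := by
  have hp : p.Prime := Fact.out
  have hz3 : z ^ 3 = 1 := by
    have h1 := congrArg Matrix.det hx
    rw [Matrix.det_pow, hdet, one_pow, Matrix.det_smul, Matrix.det_one, mul_one] at h1
    simpa using h1.symm
  have hz21 : z ^ 2 * z = 1 := by rw [← hz3]; ring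
  have hz12 : z * z ^ 2 = 1 := by rw [← hz3]; ring
  have hy2 : (z • x) ^ 2 = 1 := by
    rw [smul_pow, hx, smul_smul, hz21, one_smul]
  have hydet : (z • x).det = 1 := by
    rw [Matrix.det_smul, hdet, mul_one]
    simpa using hz3
  have hyns : ∀ c : F, z • x ≠ c • (1 : Matrix (Fin 3) (Fin 3) F) := by
    intro c h
    apply hns (z ^ 2 * c)
    rw [mul_smul, ← h, smul_smul, hz21, one_smul]
  obtain ⟨hT, hc⟩ := e3inv_coeffs (z • x) hy2 hydet hyns
  have hchar : (z • x).charpoly = (e3S F).charpoly := by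
    rw [e3inv_charpoly, e3inv_charpoly (e3S F), hT, hc, hydet, e3S_det]
    simp [e3S]
  have hcop : Nat.Coprime 2 p := by
    rw [Nat.coprime_comm]
    exact (Nat.Prime.coprime_iff_not_dvd hp).mpr
      (fun h => hp2 ((Nat.prime_dvd_prime_iff_eq hp Nat.prime_two).mp h))
  obtain ⟨Q, hQdet, hQ⟩ := Cfsg.Agent.Helper40.exists_conj_matrix p hcop hcop (z • x) (e3S F) hy2
    (by rw [pow_two]; exact e3S_mul_self F) hchar
  have ht1 : (z ^ 2 • e3S F) * (z • e3S F) = 1 := by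
    rw [Matrix.smul_mul, Matrix.mul_smul, smul_smul, e3S_mul_self, hz21, one_smul]
  have ht2 : (z • e3S F) * (z ^ 2 • e3S F) = 1 := by
    rw [Matrix.smul_mul, Matrix.mul_smul, smul_smul, e3S_mul_self, hz12, one_smul]
  obtain ⟨t, ht, hti⟩ : ∃ t : GL (Fin 3) F, (t : Matrix (Fin 3) (Fin 3) F) = z ^ 2 • e3S F ∧
      ((t⁻¹ : GL (Fin 3) F) : Matrix (Fin 3) (Fin 3) F) = z • e3S F :=
    ⟨⟨z ^ 2 • e3S F, z • e3S F, ht1, ht2⟩, rfl, rfl⟩
  refine ⟨Q, t, hQdet, ?_, ?_⟩
  · apply Cfsg.Agent.Helper84.e3_mem_normalizer ω hω1 hω3 t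
    · intro g hg
      rw [Cfsg.Agent.Helper84.e3_mem_iff ω hω3]
      refine ⟨0, 2, 0, ?_⟩
      rw [Units.val_mul, Units.val_mul, ht, hti, hg, pow_zero, pow_zero, one_smul, mul_one,
        Matrix.smul_mul, Matrix.smul_mul, Matrix.mul_smul, smul_smul, hz21, one_smul, e3S_conj_X]
    · intro g hg
      rw [Cfsg.Agent.Helper84.e3_mem_iff ω hω3]
      refine ⟨1, 0, 2, ?_⟩
      rw [Units.val_mul, Units.val_mul, ht, hti, hg, pow_one, pow_zero, one_mul,
        Matrix.smul_mul, Matrix.smul_mul, Matrix.mul_smul, smul_smul, hz21, one_smul,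
        e3S_conj_Z ω hω3]
  · rw [ht]
    have h1 : x = z ^ 2 • (z • x) := by rw [smul_smul, hz21, one_smul]
    calc Q * x = Q * (z ^ 2 • (z • x)) := by rw [← h1]
      _ = z ^ 2 • (Q * (z • x)) := by rw [Matrix.mul_smul]
      _ = z ^ 2 • (e3S F * Q) := by rw [hQ]
      _ = z ^ 2 • e3S F * Q := by rw [Matrix.smul_mul]

end Cfsg.Agent.Helper66
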