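import Mathlib
import Cfsg.Prelude.Def_GeometricClasses
import Cfsg.Prelude.Def_LieClassical
import Cfsg.Agent.Helper69.E3Def
import Cfsg.Agent.Helper84.E3BASE
import Cfsg.Agent.Helper66.E3INV

/-!
# Piece TINV of CALL S5999 (helper66): the involution `-swap` is a unitary element of determinant one
in the normalizer of the standard `3^{1+2}`
-/

set_option autoImplicit false

namespace Cfsg.Agent.Helper66

open Cfsg.Agent.Helper69

theorem e3u_swap {F : Type*} [Field F] [Fintype F] {p : ℕ} (hF : Fintype.card F = p ^ 2)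
    (h2 : (2 : F) ≠ 0) (ω : F) (hω1 : ω ≠ 1) (hω3 : ω ^ 3 = 1) :
    ∃ t : GL (Fin 3) F, t ∈ Cfsg.Geo.subgroupNormalizer (E3 ω) ∧ t ∈ Cfsg.GU 3 F p ∧
      (t : Matrix (Fin 3) (Fin 3) F).det = 1 ∧ (t : Matrix (Fin 3) (Fin 3) F) ^ 2 = 1 ∧
      ∀ c : F, (t : Matrix (Fin 3) (Fin 3) F) ≠ c • (1 : Matrix (Fin 3) (Fin 3) F) := by
  -- `p` is odd
  have hodd : Odd p := by
    rcases Nat.even_or_odd p with he | ho
    · exfalso
      apply h2
      have h1 : Fintype.card F % 2 = 0 := by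
        rw [hF]
        obtain ⟨k, hk⟩ := he
        rw [hk]
        have : (k + k) ^ 2 = 2 * (2 * k * k) := by ring
        rw [this]
        exact Nat.mul_mod_right 2 _
      have h3 : ringChar F = 2 := FiniteField.even_card_iff_char_two.mpr h1
      have h4 : ((2 : ℕ) : F) = 0 := (ringChar.spec F 2).mpr (by rw [h3])
      exact_mod_cast h4
    · exact ho
  obtain ⟨t, ht, hti⟩ : ∃ t : GL (Fin 3) F, (t : Matrix (Fin 3) (Fin 3) F) = e3S F ∧
      ((t⁻¹ : GL (Fin 3) F) : Matrix (Fin 3) (Fin 3) F) = e3S F :=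
    ⟨⟨e3S F, e3S F, e3S_mul_self F, e3S_mul_self F⟩, rfl, rfl⟩
  refine ⟨t, ?_, ?_, ?_, ?_, ?_⟩
  · apply Cfsg.Agent.Helper84.e3_mem_normalizer ω hω1 hω3 t
    · intro g hg
      rw [Cfsg.Agent.Helper84.e3_mem_iff ω hω3]
      refine ⟨0, 2, 0, ?_⟩
      rw [Units.val_mul, Units.val_mul, ht, hti, hg, pow_zero, pow_zero, one_smul, mul_one,
        e3S_conj_X]
    · intro g hg
      rw [Cfsg.Agent.Helper84.e3_mem_iff ω hω3]
      refine ⟨1, 0, 2, ?_⟩
      rw [Units.val_mul, Units.val_mul, ht, hti, hg, pow_one, pow_zero, one_mul,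
        e3S_conj_Z ω hω3]
  · show ∀ u v, Cfsg.hermForm 3 F p ((t : Matrix (Fin 3) (Fin 3) F).mulVec u)
      ((t : Matrix (Fin 3) (Fin 3) F).mulVec v) = Cfsg.hermForm 3 F p u v
    intro u v
    rw [ht]
    have hneg : ∀ x : F, (-x) ^ p = -(x ^ p) := fun x => hodd.neg_pow x
    simp only [Cfsg.hermForm, Fin.sum_univ_three]
    have e0 : ∀ w : Fin 3 → F, (e3S F).mulVec w 0 = -(w 1) := by
      intro w
      simp [e3S, Matrix.mulVec, dotProduct, Fin.sum_univ_three]
    have e1 : ∀ w : Fin 3 → F, (e3S F).mulVec w 1 = -(w 0) := by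
      intro w
      simp [e3S, Matrix.mulVec, dotProduct, Fin.sum_univ_three]
    have e2 : ∀ w : Fin 3 → F, (e3S F).mulVec w 2 = -(w 2) := by
      intro w
      simp [e3S, Matrix.mulVec, dotProduct, Fin.sum_univ_three]
    rw [e0, e0, e1, e1, e2, e2, hneg, hneg, hneg]
    ring
  · rw [ht]; exact e3S_det F
  · rw [ht, pow_two]; exact e3S_mul_self F
  · intro c hc
    rw [ht] at hc
    have h01 := congrFun (congrFun hc 0) 1
    simp [e3S] at h01

end Cfsg.Agent.Helper66
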