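import Mathlib
import Cfsg.Prelude.Def_GeometricClasses
import Cfsg.Agent.Helper69.E4Def

/-!
# CALL S6000, piece BASE1: normal form, order, determinant and normaliser criterion for `E4 ι`
-/

set_option autoImplicit false

namespace Cfsg.Agent.Helper66

open Cfsg.Agent.Helper69
open scoped Matrix

section

variable {F : Type*} [Field F]

theorem e4X1_mul_self : e4X1 F * e4X1 F = 1 := by
  ext i j
  fin_cases i <;> fin_cases j <;> simp [e4X1, Matrix.mul_apply, Fin.sum_univ_four]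

theorem e4Z1_mul_self : e4Z1 F * e4Z1 F = 1 := by
  ext i j
  fin_cases i <;> fin_cases j <;> simp [e4Z1, Matrix.mul_apply, Fin.sum_univ_four]

theorem e4X2_mul_self : e4X2 F * e4X2 F = 1 := by
  ext i j
  fin_cases i <;> fin_cases j <;> simp [e4X2, Matrix.mul_apply, Fin.sum_univ_four]

theorem e4Z2_mul_self : e4Z2 F * e4Z2 F = 1 := by
  ext i j
  fin_cases i <;> fin_cases j <;> simp [e4Z2, Matrix.mul_apply, Fin.sum_univ_four]

theorem e4X1_sq : e4X1 F ^ 2 = 1 := by rw [pow_two, e4X1_mul_self]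
theorem e4Z1_sq : e4Z1 F ^ 2 = 1 := by rw [pow_two, e4Z1_mul_self]
theorem e4X2_sq : e4X2 F ^ 2 = 1 := by rw [pow_two, e4X2_mul_self]
theorem e4Z2_sq : e4Z2 F ^ 2 = 1 := by rw [pow_two, e4Z2_mul_self]

theorem e4_Z1X1 (ι : F) (hι : ι ^ 2 = -1) : e4Z1 F * e4X1 F = ι ^ 2 • (e4X1 F * e4Z1 F) := by
  rw [hι]
  ext i j
  fin_cases i <;> fin_cases j <;> simp [e4X1, e4Z1, Matrix.mul_apply, Fin.sum_univ_four]

theorem e4_Z2X2 (ι : F) (hι : ι ^ 2 = -1) : e4Z2 F * e4X2 F = ι ^ 2 • (e4X2 F * e4Z2 F) := by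
  rw [hι]
  ext i j
  fin_cases i <;> fin_cases j <;> simp [e4X2, e4Z2, Matrix.mul_apply, Fin.sum_univ_four]

theorem e4_comm_X1X2 : Commute (e4X1 F) (e4X2 F) := by
  unfold Commute SemiconjBy
  ext i j
  fin_cases i <;> fin_cases j <;> simp [e4X1, e4X2, Matrix.mul_apply, Fin.sum_univ_four]

theorem e4_comm_X1Z2 : Commute (e4X1 F) (e4Z2 F) := by
  unfold Commute SemiconjBy
  ext i j
  fin_cases i <;> fin_cases j <;> simp [e4X1, e4Z2, Matrix.mul_apply, Fin.sum_univ_four]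

theorem e4_comm_Z1X2 : Commute (e4Z1 F) (e4X2 F) := by
  unfold Commute SemiconjBy
  ext i j
  fin_cases i <;> fin_cases j <;> simp [e4Z1, e4X2, Matrix.mul_apply, Fin.sum_univ_four]

theorem e4_comm_Z1Z2 : Commute (e4Z1 F) (e4Z2 F) := by
  unfold Commute SemiconjBy
  ext i j
  fin_cases i <;> fin_cases j <;> simp [e4Z1, e4Z2, Matrix.mul_apply, Fin.sum_univ_four]

/-- generic power commutation -/
theorem e4_pow_comm_one {n : Type*} [Fintype n] [DecidableEq n] (A B : Matrix n n F) (s : F)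
    (h : B * A = s • (A * B)) (j : ℕ) : B * A ^ j = s ^ j • (A ^ j * B) := by
  induction j with
  | zero => simp
  | succ j ih =>
    rw [pow_succ, ← mul_assoc, ih, Matrix.smul_mul, mul_assoc, h, Matrix.mul_smul,
      smul_smul, ← mul_assoc, pow_succ]

theorem e4_pow_comm {n : Type*} [Fintype n] [DecidableEq n] (A B : Matrix n n F) (s : F)
    (h : B * A = s • (A * B)) (k j : ℕ) : B ^ k * A ^ j = s ^ (k * j) • (A ^ j * B ^ k) := by
  induction k with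
  | zero => simp
  | succ k ih =>
    rw [pow_succ, mul_assoc, e4_pow_comm_one A B s h, Matrix.mul_smul, ← mul_assoc, ih,
      Matrix.smul_mul, smul_smul, mul_assoc, ← pow_succ, ← pow_add]
    congr 2
    ring

/-- the first tensor factor part -/
theorem e4_P1_mul (ι : F) (hι : ι ^ 2 = -1) (b c b' c' : ℕ) :
    (e4X1 F ^ b * e4Z1 F ^ c) * (e4X1 F ^ b' * e4Z1 F ^ c') =
      ι ^ (2 * (c * b')) • (e4X1 F ^ (b + b') * e4Z1 F ^ (c + c')) := by
  rw [mul_assoc, ← mul_assoc (e4Z1 F ^ c), e4_pow_comm _ _ _ (e4_Z1X1 ι hι), Matrix.smul_mul,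
    Matrix.mul_smul, mul_assoc (e4X1 F ^ b'), ← mul_assoc, ← pow_add, ← pow_add, ← pow_mul]

theorem e4_P2_mul (ι : F) (hι : ι ^ 2 = -1) (d e d' e' : ℕ) :
    (e4X2 F ^ d * e4Z2 F ^ e) * (e4X2 F ^ d' * e4Z2 F ^ e') =
      ι ^ (2 * (e * d')) • (e4X2 F ^ (d + d') * e4Z2 F ^ (e + e')) := by
  rw [mul_assoc, ← mul_assoc (e4Z2 F ^ e), e4_pow_comm _ _ _ (e4_Z2X2 ι hι), Matrix.smul_mul,
    Matrix.mul_smul, mul_assoc (e4X2 F ^ d'), ← mul_assoc, ← pow_add, ← pow_add, ← pow_mul]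

theorem e4_P1P2_comm (b c d e : ℕ) :
    Commute (e4X1 F ^ b * e4Z1 F ^ c) (e4X2 F ^ d * e4Z2 F ^ e) :=
  Commute.mul_left
    (Commute.mul_right (e4_comm_X1X2.pow_pow b d) (e4_comm_X1Z2.pow_pow b e))
    (Commute.mul_right (e4_comm_Z1X2.pow_pow c d) (e4_comm_Z1Z2.pow_pow c e))

theorem e4Pauli_eq (b c d e : ℕ) :
    e4Pauli F b c d e = (e4X1 F ^ b * e4Z1 F ^ c) * (e4X2 F ^ d * e4Z2 F ^ e) := by
  unfold e4Pauli
  rw [mul_assoc (e4X1 F ^ b * e4Z1 F ^ c)]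

theorem e4Pauli_mul (ι : F) (hι : ι ^ 2 = -1) (b c d e b' c' d' e' : ℕ) :
    e4Pauli F b c d e * e4Pauli F b' c' d' e' =
      ι ^ (2 * (c * b') + 2 * (e * d')) • e4Pauli F (b + b') (c + c') (d + d') (e + e') := by
  rw [e4Pauli_eq, e4Pauli_eq, e4Pauli_eq]
  have h1 : (e4X1 F ^ b * e4Z1 F ^ c) * (e4X2 F ^ d * e4Z2 F ^ e) *
      ((e4X1 F ^ b' * e4Z1 F ^ c') * (e4X2 F ^ d' * e4Z2 F ^ e')) =
      ((e4X1 F ^ b * e4Z1 F ^ c) * (e4X1 F ^ b' * e4Z1 F ^ c')) *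
        ((e4X2 F ^ d * e4Z2 F ^ e) * (e4X2 F ^ d' * e4Z2 F ^ e')) := by
    rw [mul_assoc, ← mul_assoc (e4X2 F ^ d * e4Z2 F ^ e), ← (e4_P1P2_comm b' c' d e).eq,
      mul_assoc (e4X1 F ^ b' * e4Z1 F ^ c'), ← mul_assoc]
  rw [h1, e4_P1_mul ι hι, e4_P2_mul ι hι, Matrix.smul_mul, Matrix.mul_smul, smul_smul, ← pow_add]

theorem e4_normal_mul (ι : F) (hι : ι ^ 2 = -1) (a b c d e a' b' c' d' e' : ℕ) :
    (ι ^ a • e4Pauli F b c d e) * (ι ^ a' • e4Pauli F b' c' d' e') =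
      ι ^ (a + a' + (2 * (c * b') + 2 * (e * d'))) •
        e4Pauli F (b + b') (c + c') (d + d') (e + e') := by
  rw [Matrix.smul_mul, Matrix.mul_smul, smul_smul, e4Pauli_mul ι hι, smul_smul, ← pow_add,
    ← pow_add]

theorem e4_iota_pow_four (ι : F) (hι : ι ^ 2 = -1) : ι ^ 4 = 1 := by
  have : ι ^ 4 = (ι ^ 2) ^ 2 := by ring
  rw [this, hι]; ring

theorem e4Pauli_even (b c d e : ℕ) : e4Pauli F (2 * b) (2 * c) (2 * d) (2 * e) = 1 := by
  unfold e4Pauli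
  rw [pow_mul, pow_mul, pow_mul, pow_mul, e4X1_sq, e4Z1_sq, e4X2_sq, e4Z2_sq]
  simp

theorem e4Pauli_mod (b c d e : ℕ) :
    e4Pauli F b c d e = e4Pauli F (b % 2) (c % 2) (d % 2) (e % 2) := by
  unfold e4Pauli
  rw [← pow_eq_pow_mod b e4X1_sq, ← pow_eq_pow_mod c e4Z1_sq, ← pow_eq_pow_mod d e4X2_sq,
    ← pow_eq_pow_mod e e4Z2_sq]

/-- the inverse in normal form -/
theorem e4_normal_inv (ι : F) (hι : ι ^ 2 = -1) (a b c d e : ℕ) :
    (ι ^ a • e4Pauli F b c d e) *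
      (ι ^ (3 * a + 2 * (c * b) + 2 * (e * d)) • e4Pauli F b c d e) = 1 := by
  rw [e4_normal_mul ι hι]
  have e1 : a + (3 * a + 2 * (c * b) + 2 * (e * d)) + (2 * (c * b) + 2 * (e * d)) =
      4 * (a + c * b + e * d) := by ring
  have e2 : b + b = 2 * b := by ring
  have e3 : c + c = 2 * c := by ring
  have e4 : d + d = 2 * d := by ring
  have e5 : e + e = 2 * e := by ring
  rw [e1, e2, e3, e4, e5, pow_mul, e4_iota_pow_four ι hι, e4Pauli_even]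
  simp

/-! ### the generators as units -/

/-- the scalar `ι` as a unit -/
def e4gI (ι : F) (hι : ι ^ 2 = -1) : GL (Fin 4) F :=
  ⟨ι • (1 : Matrix (Fin 4) (Fin 4) F), ι ^ 3 • (1 : Matrix (Fin 4) (Fin 4) F),
    by rw [Matrix.smul_mul, Matrix.mul_smul, smul_smul, one_mul, show ι * ι ^ 3 = ι ^ 4 by ring,
      e4_iota_pow_four ι hι, one_smul],
    by rw [Matrix.smul_mul, Matrix.mul_smul, smul_smul, one_mul, show ι ^ 3 * ι = ι ^ 4 by ring,
      e4_iota_pow_four ι hι, one_smul]⟩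

/-- `X ⊗ 1` as a unit -/
def e4gX1 (F : Type*) [Field F] : GL (Fin 4) F :=
  ⟨e4X1 F, e4X1 F, e4X1_mul_self, e4X1_mul_self⟩

/-- `Z ⊗ 1` as a unit -/
def e4gZ1 (F : Type*) [Field F] : GL (Fin 4) F :=
  ⟨e4Z1 F, e4Z1 F, e4Z1_mul_self, e4Z1_mul_self⟩

/-- `1 ⊗ X` as a unit -/
def e4gX2 (F : Type*) [Field F] : GL (Fin 4) F :=
  ⟨e4X2 F, e4X2 F, e4X2_mul_self, e4X2_mul_self⟩

/-- `1 ⊗ Z` as a unit -/
def e4gZ2 (F : Type*) [Field F] : GL (Fin 4) F :=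
  ⟨e4Z2 F, e4Z2 F, e4Z2_mul_self, e4Z2_mul_self⟩

theorem e4gI_mem (ι : F) (hι : ι ^ 2 = -1) : e4gI ι hι ∈ E4 ι :=
  Subgroup.subset_closure (Or.inl rfl)

theorem e4gX1_mem (ι : F) : e4gX1 F ∈ E4 ι :=
  Subgroup.subset_closure (Or.inr (Or.inl rfl))

theorem e4gZ1_mem (ι : F) : e4gZ1 F ∈ E4 ι :=
  Subgroup.subset_closure (Or.inr (Or.inr (Or.inl rfl)))

theorem e4gX2_mem (ι : F) : e4gX2 F ∈ E4 ι :=
  Subgroup.subset_closure (Or.inr (Or.inr (Or.inr (Or.inl rfl))))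

theorem e4gZ2_mem (ι : F) : e4gZ2 F ∈ E4 ι :=
  Subgroup.subset_closure (Or.inr (Or.inr (Or.inr (Or.inr rfl))))

theorem e4g_val (ι : F) (hι : ι ^ 2 = -1) (a b c d e : ℕ) :
    ((e4gI ι hι ^ a * e4gX1 F ^ b * e4gZ1 F ^ c * e4gX2 F ^ d * e4gZ2 F ^ e : GL (Fin 4) F) :
      Matrix (Fin 4) (Fin 4) F) = ι ^ a • e4Pauli F b c d e := by
  rw [Units.val_mul, Units.val_mul, Units.val_mul, Units.val_mul, Units.val_pow_eq_pow_val,
    Units.val_pow_eq_pow_val, Units.val_pow_eq_pow_val, Units.val_pow_eq_pow_val,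
    Units.val_pow_eq_pow_val]
  have h1 : ((e4gI ι hι : GL (Fin 4) F) : Matrix (Fin 4) (Fin 4) F) = ι • 1 := rfl
  have h2 : ((e4gX1 F : GL (Fin 4) F) : Matrix (Fin 4) (Fin 4) F) = e4X1 F := rfl
  have h3 : ((e4gZ1 F : GL (Fin 4) F) : Matrix (Fin 4) (Fin 4) F) = e4Z1 F := rfl
  have h4 : ((e4gX2 F : GL (Fin 4) F) : Matrix (Fin 4) (Fin 4) F) = e4X2 F := rfl
  have h5 : ((e4gZ2 F : GL (Fin 4) F) : Matrix (Fin 4) (Fin 4) F) = e4Z2 F := rfl
  rw [h1, h2, h3, h4, h5, smul_pow, one_pow, Matrix.smul_mul, Matrix.smul_mul, Matrix.smul_mul,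
    Matrix.smul_mul, one_mul]
  rfl

theorem e4g_mem (ι : F) (hι : ι ^ 2 = -1) (a b c d e : ℕ) :
    e4gI ι hι ^ a * e4gX1 F ^ b * e4gZ1 F ^ c * e4gX2 F ^ d * e4gZ2 F ^ e ∈ E4 ι :=
  (E4 ι).mul_mem ((E4 ι).mul_mem ((E4 ι).mul_mem ((E4 ι).mul_mem
    ((E4 ι).pow_mem (e4gI_mem ι hι) a) ((E4 ι).pow_mem (e4gX1_mem ι) b))
    ((E4 ι).pow_mem (e4gZ1_mem ι) c)) ((E4 ι).pow_mem (e4gX2_mem ι) d))
    ((E4 ι).pow_mem (e4gZ2_mem ι) e)

end

theorem e4_mem_iff {F : Type*} [Field F] (ι : F) (hι : ι ^ 2 = -1) (g : GL (Fin 4) F) :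
    g ∈ E4 ι ↔ ∃ a b c d e : ℕ,
      (g : Matrix (Fin 4) (Fin 4) F) = ι ^ a • e4Pauli F b c d e := by
  constructor
  · intro hg
    unfold E4 at hg
    induction hg using Subgroup.closure_induction with
    | mem x hx =>
      rcases hx with hx | hx | hx | hx | hx
      · exact ⟨1, 0, 0, 0, 0, by rw [hx]; simp [e4Pauli]⟩
      · exact ⟨0, 1, 0, 0, 0, by rw [hx]; simp [e4Pauli]⟩
      · exact ⟨0, 0, 1, 0, 0, by rw [hx]; simp [e4Pauli]⟩
      · exact ⟨0, 0, 0, 1, 0, by rw [hx]; simp [e4Pauli]⟩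
      · exact ⟨0, 0, 0, 0, 1, by rw [hx]; simp [e4Pauli]⟩
    | one => exact ⟨0, 0, 0, 0, 0, by simp [e4Pauli]⟩
    | mul x y _ _ ihx ihy =>
      obtain ⟨a, b, c, d, e, hx⟩ := ihx
      obtain ⟨a', b', c', d', e', hy⟩ := ihy
      exact ⟨_, _, _, _, _, by rw [Units.val_mul, hx, hy, e4_normal_mul ι hι]⟩
    | inv x _ ihx =>
      obtain ⟨a, b, c, d, e, hx⟩ := ihx
      refine ⟨3 * a + 2 * (c * b) + 2 * (e * d), b, c, d, e, ?_⟩
      apply Units.inv_eq_of_mul_eq_one_right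
      rw [hx, e4_normal_inv ι hι]
  · rintro ⟨a, b, c, d, e, hg⟩
    have : g = e4gI ι hι ^ a * e4gX1 F ^ b * e4gZ1 F ^ c * e4gX2 F ^ d * e4gZ2 F ^ e := by
      apply Units.ext
      rw [hg, e4g_val]
    rw [this]
    exact e4g_mem ι hι a b c d e

section

variable {F : Type*} [Field F]

/-- a normal form equal to `1` is trivial -/
theorem e4_normal_eq_one (h2 : (2 : F) ≠ 0) (s : F) (b c d e : ℕ) (hb : b < 2) (hc : c < 2)
    (hd : d < 2) (he : e < 2) (h : s • e4Pauli F b c d e = 1) :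
    b = 0 ∧ c = 0 ∧ d = 0 ∧ e = 0 ∧ s = 1 := by
  have h11 : (1 : F) + 1 ≠ 0 := by rwa [one_add_one_eq_two]
  have hE := fun i j => congr_fun (congr_fun h i) j
  have h00 := hE 0 0
  have h11' := hE 1 1
  have h22 := hE 2 2
  have h33 := hE 3 3
  clear hE h
  interval_cases b <;> interval_cases c <;> interval_cases d <;> interval_cases e <;>
    simp [e4Pauli, e4X1, e4Z1, e4X2, e4Z2, Matrix.mul_apply, Fin.sum_univ_four] at h00 h11' h22 h33
  all_goals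
    first
      | exact ⟨rfl, rfl, rfl, rfl, h00⟩
      | (exfalso
         subst h00
         exact h11 (by
          first
            | linear_combination h11'
            | linear_combination -h11'
            | linear_combination h22
            | linear_combination -h22
            | linear_combination h33
            | linear_combination -h33))

theorem e4_normal_inj (h2 : (2 : F) ≠ 0) (ι : F) (hι : ι ^ 2 = -1) {a b c d e a' b' c' d' e' : ℕ}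
    (ha : a < 4) (hb : b < 2) (hc : c < 2) (hd : d < 2) (he : e < 2)
    (ha' : a' < 4) (hb' : b' < 2) (hc' : c' < 2) (hd' : d' < 2) (he' : e' < 2)
    (h : ι ^ a • e4Pauli F b c d e = ι ^ a' • e4Pauli F b' c' d' e') :
    a = a' ∧ b = b' ∧ c = c' ∧ d = d' ∧ e = e' := by
  have h11 : (1 : F) + 1 ≠ 0 := by rwa [one_add_one_eq_two]
  have hι4 := e4_iota_pow_four ι hι
  have key := e4_normal_inv ι hι a' b' c' d' e'
  rw [← h, e4_normal_mul ι hι, e4Pauli_mod] at key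
  obtain ⟨k1, k2, k3, k4, k5⟩ := e4_normal_eq_one h2 _ _ _ _ _ (Nat.mod_lt _ (by norm_num))
    (Nat.mod_lt _ (by norm_num)) (Nat.mod_lt _ (by norm_num)) (Nat.mod_lt _ (by norm_num)) key
  have eb : b = b' := by omega
  have ec : c = c' := by omega
  have ed : d = d' := by omega
  have ee : e = e' := by omega
  subst eb ec ed ee
  refine ⟨?_, rfl, rfl, rfl, rfl⟩
  have e1 : a + (3 * a' + 2 * (c * b) + 2 * (e * d)) + (2 * (c * b) + 2 * (e * d)) =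
      (a + 3 * a') + 4 * (c * b + e * d) := by ring
  rw [e1, pow_add, pow_mul, hι4, one_pow, mul_one] at k5
  have hι1 : ι ≠ 1 := by
    rintro rfl
    rw [one_pow] at hι
    exact h11 (by linear_combination hι)
  have hι2 : ι ^ 2 ≠ 1 := by
    rw [hι]
    intro h
    exact h11 (by linear_combination -h)
  have hι3 : ι ^ 3 ≠ 1 := by
    intro h
    have : ι ^ 3 = -ι := by
      have : ι ^ 3 = ι ^ 2 * ι := by ring
      rw [this, hι]; ring
    rw [this] at h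
    have h' : ι = -1 := by linear_combination -h
    rw [h'] at hι
    exact h11 (by linear_combination hι)
  have hred : ∀ m : ℕ, ι ^ m = ι ^ (m % 4) := fun m => pow_eq_pow_mod m hι4
  rw [hred] at k5
  by_contra hne
  have hm : (a + 3 * a') % 4 = 1 ∨ (a + 3 * a') % 4 = 2 ∨ (a + 3 * a') % 4 = 3 := by omega
  rcases hm with hm | hm | hm <;> rw [hm] at k5
  · exact hι1 (by simpa using k5)
  · exact hι2 k5
  · exact hι3 k5

end

theorem e4_card {F : Type*} [Field F] (h2 : (2 : F) ≠ 0) (ι : F) (hι : ι ^ 2 = -1) :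
    Nat.card (E4 ι) = 64 := by
  let f : Fin 4 × Fin 2 × Fin 2 × Fin 2 × Fin 2 → E4 ι := fun t =>
    ⟨e4gI ι hι ^ (t.1 : ℕ) * e4gX1 F ^ (t.2.1 : ℕ) * e4gZ1 F ^ (t.2.2.1 : ℕ) *
      e4gX2 F ^ (t.2.2.2.1 : ℕ) * e4gZ2 F ^ (t.2.2.2.2 : ℕ), e4g_mem ι hι _ _ _ _ _⟩
  have hval : ∀ t, ((f t : GL (Fin 4) F) : Matrix (Fin 4) (Fin 4) F)
      = ι ^ (t.1 : ℕ) • e4Pauli F (t.2.1 : ℕ) (t.2.2.1 : ℕ) (t.2.2.2.1 : ℕ) (t.2.2.2.2 : ℕ) :=
    fun t => e4g_val ι hι _ _ _ _ _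
  have hinj : Function.Injective f := by
    intro t t' h
    have h' : ((f t : GL (Fin 4) F) : Matrix (Fin 4) (Fin 4) F)
        = ((f t' : GL (Fin 4) F) : Matrix (Fin 4) (Fin 4) F) := by rw [h]
    rw [hval, hval] at h'
    obtain ⟨h1, h2', h3, h4, h5⟩ :=
      e4_normal_inj h2 ι hι t.1.2 t.2.1.2 t.2.2.1.2 t.2.2.2.1.2 t.2.2.2.2.2
        t'.1.2 t'.2.1.2 t'.2.2.1.2 t'.2.2.2.1.2 t'.2.2.2.2.2 h'
    exact Prod.ext (Fin.ext h1) (Prod.ext (Fin.ext h2') (Prod.ext (Fin.ext h3)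
      (Prod.ext (Fin.ext h4) (Fin.ext h5))))
  have hsurj : Function.Surjective f := by
    rintro ⟨g, hg⟩
    obtain ⟨a, b, c, d, e, hgm⟩ := (e4_mem_iff ι hι g).mp hg
    refine ⟨(⟨a % 4, Nat.mod_lt _ (by norm_num)⟩, ⟨b % 2, Nat.mod_lt _ (by norm_num)⟩,
      ⟨c % 2, Nat.mod_lt _ (by norm_num)⟩, ⟨d % 2, Nat.mod_lt _ (by norm_num)⟩,
      ⟨e % 2, Nat.mod_lt _ (by norm_num)⟩), ?_⟩
    apply Subtype.ext
    apply Units.ext
    rw [hval, hgm]
    show ι ^ (a % 4) • e4Pauli F (b % 2) (c % 2) (d % 2) (e % 2) = _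
    rw [← pow_eq_pow_mod a (e4_iota_pow_four ι hι), ← e4Pauli_mod]
  rw [← Nat.card_congr (Equiv.ofBijective f ⟨hinj, hsurj⟩)]
  simp [Nat.card_eq_fintype_card]

theorem e4_le_specialLinear {F : Type*} [Field F] (ι : F) (hι : ι ^ 2 = -1) :
    E4 ι ≤ Cfsg.Geo.specialLinear (Fin 4) F := by
  unfold E4
  rw [Subgroup.closure_le]
  intro g hg
  have hmem : ∀ g : GL (Fin 4) F, g ∈ Cfsg.Geo.specialLinear (Fin 4) F ↔
      (g : Matrix (Fin 4) (Fin 4) F).det = 1 := by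
    intro g
    rw [Cfsg.Geo.specialLinear, MonoidHom.mem_ker, Units.ext_iff]
    rfl
  rw [SetLike.mem_coe, hmem]
  rcases hg with hg | hg | hg | hg | hg
  · rw [hg, Matrix.det_smul, Matrix.det_one, mul_one, Fintype.card_fin]
    exact e4_iota_pow_four ι hι
  · rw [hg]
    simp [e4X1, Matrix.det_succ_row_zero, Fin.sum_univ_succ, Fin.succAbove]
  · rw [hg]
    simp [e4Z1, Matrix.det_succ_row_zero, Fin.sum_univ_succ, Fin.succAbove]
  · rw [hg]
    simp [e4X2, Matrix.det_succ_row_zero, Fin.sum_univ_succ, Fin.succAbove]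
  · rw [hg]
    simp [e4Z2, Matrix.det_succ_row_zero, Fin.sum_univ_succ, Fin.succAbove]

theorem e4_mem_normalizer {F : Type*} [Field F] (h2 : (2 : F) ≠ 0) (ι : F) (hι : ι ^ 2 = -1)
    (h : GL (Fin 4) F)
    (hX1 : ∃ e ∈ E4 ι, (h : Matrix (Fin 4) (Fin 4) F) * e4X1 F =
      (e : Matrix (Fin 4) (Fin 4) F) * (h : Matrix (Fin 4) (Fin 4) F))
    (hZ1 : ∃ e ∈ E4 ι, (h : Matrix (Fin 4) (Fin 4) F) * e4Z1 F =
      (e : Matrix (Fin 4) (Fin 4) F) * (h : Matrix (Fin 4) (Fin 4) F))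
    (hX2 : ∃ e ∈ E4 ι, (h : Matrix (Fin 4) (Fin 4) F) * e4X2 F =
      (e : Matrix (Fin 4) (Fin 4) F) * (h : Matrix (Fin 4) (Fin 4) F))
    (hZ2 : ∃ e ∈ E4 ι, (h : Matrix (Fin 4) (Fin 4) F) * e4Z2 F =
      (e : Matrix (Fin 4) (Fin 4) F) * (h : Matrix (Fin 4) (Fin 4) F)) :
    h ∈ Cfsg.Geo.subgroupNormalizer (E4 ι) := by
  have hconj : ∀ (g : GL (Fin 4) F) (M : Matrix (Fin 4) (Fin 4) F),
      (g : Matrix (Fin 4) (Fin 4) F) = M →
      (∃ e ∈ E4 ι, (h : Matrix (Fin 4) (Fin 4) F) * M =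
        (e : Matrix (Fin 4) (Fin 4) F) * (h : Matrix (Fin 4) (Fin 4) F)) →
      h * g * h⁻¹ ∈ E4 ι := by
    rintro g M hg ⟨e, he, hM⟩
    have : h * g * h⁻¹ = e := by
      apply Units.ext
      rw [Units.val_mul, Units.val_mul, hg, hM, mul_assoc, ← Units.val_mul, mul_inv_cancel,
        Units.val_one, mul_one]
    rw [this]; exact he
  have hle : (E4 ι).map (MulAut.conj h).toMonoidHom ≤ E4 ι := by
    have hE : E4 ι = Subgroup.closure {g : GL (Fin 4) F |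
        (g : Matrix (Fin 4) (Fin 4) F) = ι • (1 : Matrix (Fin 4) (Fin 4) F) ∨
        (g : Matrix (Fin 4) (Fin 4) F) = e4X1 F ∨ (g : Matrix (Fin 4) (Fin 4) F) = e4Z1 F ∨
        (g : Matrix (Fin 4) (Fin 4) F) = e4X2 F ∨ (g : Matrix (Fin 4) (Fin 4) F) = e4Z2 F} := rfl
    rw [hE, MonoidHom.map_closure, Subgroup.closure_le, ← hE]
    rintro _ ⟨g, hg, rfl⟩
    rcases hg with hg | hg | hg | hg | hg
    · have : (MulAut.conj h).toMonoidHom g = g := by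
        show h * g * h⁻¹ = g
        apply Units.ext
        rw [Units.val_mul, Units.val_mul, hg, Matrix.mul_smul, Matrix.smul_mul, mul_one,
          ← Units.val_mul, mul_inv_cancel, Units.val_one]
      rw [this]
      exact Subgroup.subset_closure (Or.inl hg)
    · exact hconj g _ hg hX1
    · exact hconj g _ hg hZ1
    · exact hconj g _ hg hX2
    · exact hconj g _ hg hZ2
  have hfin : Finite (E4 ι) :=
    Nat.finite_of_card_ne_zero (by rw [e4_card h2 ι hι]; norm_num)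
  have heq : (E4 ι).map (MulAut.conj h).toMonoidHom = E4 ι := by
    apply Subgroup.eq_of_le_of_card_ge hle
    rw [Subgroup.card_map_of_injective (MulAut.conj h).injective]
  unfold Cfsg.Geo.subgroupNormalizer
  exact Subgroup.mem_normalizer_iff_map_conj_eq.mpr heq

end Cfsg.Agent.Helper66
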