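import Mathlib
import Cfsg.Prelude.Def_GeometricClasses
import Cfsg.Agent.Helper69.E4Def
import Cfsg.Agent.Helper66.E4BASE1

/-!
# CALL S6000, piece BASE2: squares, traces and the commutant of `E4 ι`
-/

set_option autoImplicit false

namespace Cfsg.Agent.Helper66

open Cfsg.Agent.Helper69
open scoped Matrix

theorem e4_sq {F : Type*} [Field F] (ι : F) (hι : ι ^ 2 = -1) (g : GL (Fin 4) F)
    (hg : g ∈ E4 ι) :
    (g : Matrix (Fin 4) (Fin 4) F) ^ 2 = 1 ∨ (g : Matrix (Fin 4) (Fin 4) F) ^ 2 = -1 := by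
  obtain ⟨a, b, c, d, e, hg'⟩ := (e4_mem_iff ι hι g).mp hg
  have e1 : a + a + (2 * (c * b) + 2 * (e * d)) = 2 * (a + c * b + e * d) := by ring
  have e2 : b + b = 2 * b := by ring
  have e3 : c + c = 2 * c := by ring
  have e4 : d + d = 2 * d := by ring
  have e5 : e + e = 2 * e := by ring
  rw [hg', pow_two, e4_normal_mul ι hι, e1, e2, e3, e4, e5, e4Pauli_even, pow_mul, hι]
  rcases neg_one_pow_eq_or F (a + c * b + e * d) with h | h
  · left; rw [h, one_smul]
  · right; rw [h]; simp

theorem e4_trace {F : Type*} [Field F] (ι : F) (hι : ι ^ 2 = -1) (g : GL (Fin 4) F)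
    (hg : g ∈ E4 ι) :
    (∃ c : F, (g : Matrix (Fin 4) (Fin 4) F) = c • (1 : Matrix (Fin 4) (Fin 4) F)) ∨
      (g : Matrix (Fin 4) (Fin 4) F).trace = 0 := by
  obtain ⟨a, b, c, d, e, hg'⟩ := (e4_mem_iff ι hι g).mp hg
  rw [hg', e4Pauli_mod]
  have hb : b % 2 < 2 := Nat.mod_lt _ (by norm_num)
  have hc : c % 2 < 2 := Nat.mod_lt _ (by norm_num)
  have hd : d % 2 < 2 := Nat.mod_lt _ (by norm_num)
  have he : e % 2 < 2 := Nat.mod_lt _ (by norm_num)
  generalize b % 2 = b' at hb
  generalize c % 2 = c' at hc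
  generalize d % 2 = d' at hd
  generalize e % 2 = e' at he
  interval_cases b' <;> interval_cases c' <;> interval_cases d' <;> interval_cases e' <;>
    first
      | (left; refine ⟨ι ^ a, ?_⟩; simp [e4Pauli]; done)
      | (right
         simp [e4Pauli, e4X1, e4Z1, e4X2, e4Z2, Matrix.trace, Fin.sum_univ_four,
           Matrix.mul_apply])

theorem e4_scalar_of_commute {F : Type*} [Field F] (h2 : (2 : F) ≠ 0)
    (M : Matrix (Fin 4) (Fin 4) F)
    (hX1 : M * e4X1 F = e4X1 F * M) (hZ1 : M * e4Z1 F = e4Z1 F * M)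
    (hX2 : M * e4X2 F = e4X2 F * M) (hZ2 : M * e4Z2 F = e4Z2 F * M) :
    ∃ c : F, M = c • (1 : Matrix (Fin 4) (Fin 4) F) := by
  have b1 : M 1 1 = M 0 0 := by
    have := congr_fun (congr_fun hX2 0) 1
    simp [e4X2, Matrix.mul_apply, Fin.sum_univ_four] at this
    first | exact this | exact this.symm
  have b2 : M 2 2 = M 0 0 := by
    have := congr_fun (congr_fun hX1 0) 2
    simp [e4X1, Matrix.mul_apply, Fin.sum_univ_four] at this
    first | exact this | exact this.symm
  have b3 : M 3 3 = M 2 2 := by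
    have := congr_fun (congr_fun hX2 2) 3
    simp [e4X2, Matrix.mul_apply, Fin.sum_univ_four] at this
    first | exact this | exact this.symm
  have hz : ∀ x : F, (x = -x ∨ -x = x) → x = 0 := by
    rintro x (h | h)
    · have : (2 : F) * x = 0 := by linear_combination h
      exact (mul_eq_zero.mp this).resolve_left h2
    · have : (2 : F) * x = 0 := by linear_combination -h
      exact (mul_eq_zero.mp this).resolve_left h2
  refine ⟨M 0 0, ?_⟩
  ext i j
  have a2 := congr_fun (congr_fun hZ1 i) j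
  have a4 := congr_fun (congr_fun hZ2 i) j
  fin_cases i <;> fin_cases j <;>
    simp [e4Z1, e4Z2, Matrix.mul_apply, Fin.sum_univ_four] at a2 a4 ⊢
  all_goals
    first
      | exact b1
      | exact b2
      | exact b3.trans b2
      | exact hz _ (Or.inl a2)
      | exact hz _ (Or.inr a2)
      | exact hz _ (Or.inl a4)
      | exact hz _ (Or.inr a4)

end Cfsg.Agent.Helper66
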