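import Mathlib
import Cfsg.Prelude.Def_GeometricClasses
import Cfsg.Agent.Helper69.E4Def
import Cfsg.Agent.Helper66.E4BASE1

/-!
# CALL S6000, piece DIAGN: sign-diagonal matrices normalise `E4 ι`
-/

set_option autoImplicit false

namespace Cfsg.Agent.Helper66

open Cfsg.Agent.Helper69
open scoped Matrix

section

variable {F : Type*} [Field F]

theorem e4diag_pm_mul {x y : F} (hx : x = 1 ∨ x = -1) (hy : y = 1 ∨ y = -1) :
    x * y = 1 ∨ x * y = -1 := by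
  rcases hx with rfl | rfl <;> rcases hy with rfl | rfl <;> simp

theorem e4diag_Z2 (ι : F) (hι : ι ^ 2 = -1) (s t : F) (hs : s = 1 ∨ s = -1)
    (ht : t = 1 ∨ t = -1) :
    ∃ a e : ℕ, Matrix.diagonal ![s, t, s, t] = ι ^ a • e4Z2 F ^ e := by
  rcases hs with rfl | rfl <;> rcases ht with rfl | rfl
  · refine ⟨0, 0, ?_⟩
    ext i j
    fin_cases i <;> fin_cases j <;> simp [Matrix.diagonal_apply, Matrix.one_apply]
  · refine ⟨0, 1, ?_⟩
    ext i j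
    fin_cases i <;> fin_cases j <;> simp [e4Z2, Matrix.diagonal_apply]
  · refine ⟨2, 1, ?_⟩
    rw [hι]
    ext i j
    fin_cases i <;> fin_cases j <;> simp [e4Z2, Matrix.diagonal_apply]
  · refine ⟨2, 0, ?_⟩
    rw [hι]
    ext i j
    fin_cases i <;> fin_cases j <;> simp [Matrix.diagonal_apply, Matrix.one_apply]

theorem e4diag_Z1 (ι : F) (hι : ι ^ 2 = -1) (s t : F) (hs : s = 1 ∨ s = -1)
    (ht : t = 1 ∨ t = -1) :
    ∃ a c : ℕ, Matrix.diagonal ![s, s, t, t] = ι ^ a • e4Z1 F ^ c := by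
  rcases hs with rfl | rfl <;> rcases ht with rfl | rfl
  · refine ⟨0, 0, ?_⟩
    ext i j
    fin_cases i <;> fin_cases j <;> simp [Matrix.diagonal_apply, Matrix.one_apply]
  · refine ⟨0, 1, ?_⟩
    ext i j
    fin_cases i <;> fin_cases j <;> simp [e4Z1, Matrix.diagonal_apply]
  · refine ⟨2, 1, ?_⟩
    rw [hι]
    ext i j
    fin_cases i <;> fin_cases j <;> simp [e4Z1, Matrix.diagonal_apply]
  · refine ⟨2, 0, ?_⟩
    rw [hι]
    ext i j
    fin_cases i <;> fin_cases j <;> simp [Matrix.diagonal_apply, Matrix.one_apply]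

theorem e4diag_X1 (d : Fin 4 → F) (hs : ∀ i, d i = 1 ∨ d i = -1) :
    Matrix.diagonal d * e4X1 F =
      e4X1 F * Matrix.diagonal ![d 0 * d 2, d 1 * d 3, d 0 * d 2, d 1 * d 3] *
        Matrix.diagonal d := by
  ext i j
  rw [Matrix.diagonal_mul, Matrix.mul_diagonal, Matrix.mul_diagonal]
  fin_cases i <;> fin_cases j <;> simp [e4X1]
  all_goals
    rcases hs 0 with e0 | e0 <;> rcases hs 1 with e1 | e1 <;> rcases hs 2 with e2 | e2 <;>
      rcases hs 3 with e3 | e3 <;> simp [e0, e1, e2, e3]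

theorem e4diag_X2 (d : Fin 4 → F) (hs : ∀ i, d i = 1 ∨ d i = -1) :
    Matrix.diagonal d * e4X2 F =
      e4X2 F * Matrix.diagonal ![d 0 * d 1, d 0 * d 1, d 2 * d 3, d 2 * d 3] *
        Matrix.diagonal d := by
  ext i j
  rw [Matrix.diagonal_mul, Matrix.mul_diagonal, Matrix.mul_diagonal]
  fin_cases i <;> fin_cases j <;> simp [e4X2]
  all_goals
    rcases hs 0 with e0 | e0 <;> rcases hs 1 with e1 | e1 <;> rcases hs 2 with e2 | e2 <;>
      rcases hs 3 with e3 | e3 <;> simp [e0, e1, e2, e3]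

theorem e4diag_Z1_comm (d : Fin 4 → F) :
    Matrix.diagonal d * e4Z1 F = e4Z1 F * Matrix.diagonal d := by
  ext i j
  fin_cases i <;> fin_cases j <;>
    simp [e4Z1, Matrix.mul_apply, Fin.sum_univ_four, Matrix.diagonal_apply]

theorem e4diag_Z2_comm (d : Fin 4 → F) :
    Matrix.diagonal d * e4Z2 F = e4Z2 F * Matrix.diagonal d := by
  ext i j
  fin_cases i <;> fin_cases j <;>
    simp [e4Z2, Matrix.mul_apply, Fin.sum_univ_four, Matrix.diagonal_apply]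

end

theorem e4_diag_mem_normalizer {F : Type*} [Field F] (h2 : (2 : F) ≠ 0) (ι : F) (hι : ι ^ 2 = -1)
    (d : Fin 4 → F) (hd : ∀ i, d i ^ 2 = 1) (c : F) (g : GL (Fin 4) F)
    (hg : (g : Matrix (Fin 4) (Fin 4) F) = c • Matrix.diagonal d) :
    g ∈ Cfsg.Geo.subgroupNormalizer (E4 ι) := by
  have hs : ∀ i, d i = 1 ∨ d i = -1 := fun i => sq_eq_one_iff.mp (hd i)
  have hc : ∀ M E : Matrix (Fin 4) (Fin 4) F,
      Matrix.diagonal d * M = E * Matrix.diagonal d →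
      (g : Matrix (Fin 4) (Fin 4) F) * M = E * (g : Matrix (Fin 4) (Fin 4) F) := by
    intro M E h
    rw [hg, Matrix.smul_mul, h, Matrix.mul_smul]
  apply e4_mem_normalizer h2 ι hι g
  · obtain ⟨a, e, hae⟩ := e4diag_Z2 ι hι (d 0 * d 2) (d 1 * d 3)
      (e4diag_pm_mul (hs 0) (hs 2)) (e4diag_pm_mul (hs 1) (hs 3))
    refine ⟨e4gI ι hι ^ a * e4gX1 F ^ 1 * e4gZ1 F ^ 0 * e4gX2 F ^ 0 * e4gZ2 F ^ e,
      e4g_mem ι hι _ _ _ _ _, ?_⟩
    rw [e4g_val]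
    apply hc
    rw [e4diag_X1 d hs, hae]
    simp [e4Pauli]
  · exact ⟨e4gZ1 F, e4gZ1_mem ι, hc _ _ (e4diag_Z1_comm d)⟩
  · obtain ⟨a, c', hac⟩ := e4diag_Z1 ι hι (d 0 * d 1) (d 2 * d 3)
      (e4diag_pm_mul (hs 0) (hs 1)) (e4diag_pm_mul (hs 2) (hs 3))
    refine ⟨e4gI ι hι ^ a * e4gX1 F ^ 0 * e4gZ1 F ^ c' * e4gX2 F ^ 1 * e4gZ2 F ^ 0,
      e4g_mem ι hι _ _ _ _ _, ?_⟩
    rw [e4g_val]
    apply hc
    rw [e4diag_X2 d hs, hac]
    have hcomm : e4Z1 F ^ c' * e4X2 F = e4X2 F * e4Z1 F ^ c' :=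
      ((e4_comm_Z1X2 (F := F)).pow_left c').eq
    simp [e4Pauli, hcomm]
  · exact ⟨e4gZ2 F, e4gZ2_mem ι, hc _ _ (e4diag_Z2_comm d)⟩

end Cfsg.Agent.Helper66
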