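import Mathlib
import Cfsg.Prelude.Def_GeometricClasses
import Cfsg.Agent.Helper69.E4Def
import Cfsg.Agent.Helper66.E4BASE1
import Cfsg.Agent.Helper66.E4BASE2

/-!
# CALL S6000, piece MULT3: an element of the normaliser of `E4 ι` of odd order modulo scalars
that is scalar on a hyperplane is scalar
-/

set_option autoImplicit false

namespace Cfsg.Agent.Helper66

open Cfsg.Agent.Helper69
open scoped Matrix

section

variable {F : Type*} [Field F]

/-- an idempotent matrix fixing `W` pointwise has trace `n` with `finrank W ≤ n ≤ 4` -/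
theorem e4m_idem_trace (π : Matrix (Fin 4) (Fin 4) F) (hπ : π * π = π)
    (W : Submodule F (Fin 4 → F)) (hW : ∀ w ∈ W, π *ᵥ w = w) :
    ∃ n : ℕ, Module.finrank F W ≤ n ∧ n ≤ 4 ∧ π.trace = (n : F) := by
  have hproj : LinearMap.IsProj (LinearMap.range (Matrix.toLin' π)) (Matrix.toLin' π) := by
    refine ⟨fun x => LinearMap.mem_range_self _ x, ?_⟩
    rintro x ⟨y, rfl⟩
    rw [Matrix.toLin'_apply, Matrix.toLin'_apply, Matrix.mulVec_mulVec, hπ]
  refine ⟨Module.finrank F (LinearMap.range (Matrix.toLin' π)), ?_, ?_, ?_⟩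
  · apply Submodule.finrank_mono
    intro w hw
    exact ⟨w, by rw [Matrix.toLin'_apply]; exact hW w hw⟩
  · have := Submodule.finrank_le (LinearMap.range (Matrix.toLin' π))
    simpa using this
  · rw [← hproj.trace, Matrix.trace_toLin'_eq]

theorem e4m_sq_one (h2 : (2 : F) ≠ 0) (ι : F) (hι : ι ^ 2 = -1) (e : GL (Fin 4) F)
    (he : e ∈ E4 ι) (w : Fin 4 → F) (hw : w ≠ 0)
    (hew : (e : Matrix (Fin 4) (Fin 4) F) *ᵥ w = w) :
    (e : Matrix (Fin 4) (Fin 4) F) * (e : Matrix (Fin 4) (Fin 4) F) = 1 := by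
  rcases e4_sq ι hι e he with h | h
  · rw [← pow_two]; exact h
  · exfalso
    have h1 : ((e : Matrix (Fin 4) (Fin 4) F) ^ 2) *ᵥ w = w := by
      rw [pow_two, ← Matrix.mulVec_mulVec, hew, hew]
    rw [h, Matrix.neg_mulVec, Matrix.one_mulVec] at h1
    apply hw
    have h3 : (2 : F) • w = 0 := by
      rw [two_smul]
      nth_rewrite 1 [← h1]
      simp
    exact (smul_eq_zero.mp h3).resolve_left h2

theorem e4m_trace_zero (ι : F) (hι : ι ^ 2 = -1) (e : GL (Fin 4) F) (he : e ∈ E4 ι)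
    (hne : (e : Matrix (Fin 4) (Fin 4) F) ≠ 1) (w : Fin 4 → F) (hw : w ≠ 0)
    (hew : (e : Matrix (Fin 4) (Fin 4) F) *ᵥ w = w) :
    (e : Matrix (Fin 4) (Fin 4) F).trace = 0 := by
  rcases e4_trace ι hι e he with ⟨c, hc⟩ | h
  · exfalso
    apply hne
    rw [hc] at hew ⊢
    rw [Matrix.smul_mulVec, Matrix.one_mulVec] at hew
    have h1 : (c - 1) • w = 0 := by rw [sub_smul, hew, one_smul, sub_self]
    rcases smul_eq_zero.mp h1 with h | h
    · rw [sub_eq_zero.mp h, one_smul]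
    · exact absurd h hw
  · exact h

/-- two non-trivial elements of `E4 ι` fixing a plane pointwise are equal -/
theorem e4m_unique (h2 : (2 : F) ≠ 0) (h3 : (3 : F) ≠ 0) (ι : F) (hι : ι ^ 2 = -1)
    (W : Submodule F (Fin 4 → F)) (hW : 2 ≤ Module.finrank F W)
    (e e' : GL (Fin 4) F) (he : e ∈ E4 ι) (he' : e' ∈ E4 ι)
    (hfix : ∀ w ∈ W, (e : Matrix (Fin 4) (Fin 4) F) *ᵥ w = w)
    (hfix' : ∀ w ∈ W, (e' : Matrix (Fin 4) (Fin 4) F) *ᵥ w = w)
    (hne : e ≠ 1) (hne' : e' ≠ 1) : e = e' := by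
  obtain ⟨w, hwW, hw0⟩ : ∃ w ∈ W, w ≠ 0 := by
    have hpos : 0 < Module.finrank F W := by omega
    obtain ⟨⟨w, hw⟩, hne⟩ := Module.finrank_pos_iff_exists_ne_zero.mp hpos
    exact ⟨w, hw, fun h => hne (Subtype.ext h)⟩
  obtain ⟨E, hE⟩ : ∃ E : Matrix (Fin 4) (Fin 4) F, E = (e : Matrix (Fin 4) (Fin 4) F) :=
    ⟨_, rfl⟩
  obtain ⟨E', hE'⟩ : ∃ E' : Matrix (Fin 4) (Fin 4) F, E' = (e' : Matrix (Fin 4) (Fin 4) F) :=
    ⟨_, rfl⟩
  rw [← hE] at hfix
  rw [← hE'] at hfix'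
  have hEE : E * E = 1 := by
    rw [hE]; exact e4m_sq_one h2 ι hι e he w hw0 (by rw [← hE]; exact hfix w hwW)
  have hE'E' : E' * E' = 1 := by
    rw [hE']; exact e4m_sq_one h2 ι hι e' he' w hw0 (by rw [← hE']; exact hfix' w hwW)
  have hEne : E ≠ 1 := fun h => hne (Units.ext (by rw [← hE, h]; rfl))
  have hE'ne : E' ≠ 1 := fun h => hne' (Units.ext (by rw [← hE', h]; rfl))
  by_contra hcon
  have hf : e * e' ∈ E4 ι := (E4 ι).mul_mem he he'
  have hval : ((e * e' : GL (Fin 4) F) : Matrix (Fin 4) (Fin 4) F) = E * E' := by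
    rw [Units.val_mul, hE, hE']
  have hfne : E * E' ≠ 1 := by
    intro h
    apply hcon
    apply Units.ext
    rw [← hE, ← hE']
    have h' : E' = E := by
      calc E' = (E * E) * E' := by rw [hEE, one_mul]
        _ = E * (E * E') := by rw [mul_assoc]
        _ = E := by rw [h, mul_one]
    exact h'.symm
  have hffix : ∀ w ∈ W, (E * E') *ᵥ w = w := by
    intro w hw
    rw [← Matrix.mulVec_mulVec, hfix' w hw, hfix w hw]
  have hFF : (E * E') * (E * E') = 1 := by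
    rw [← hval]
    exact e4m_sq_one h2 ι hι (e * e') hf w hw0 (by rw [hval]; exact hffix w hwW)
  have hcomm : E' * E = E * E' := by
    calc E' * E = (E * E) * (E' * E) * (E' * E') := by rw [hEE, hE'E', one_mul, mul_one]
      _ = E * ((E * E') * (E * E')) * E' := by simp only [mul_assoc]
      _ = E * E' := by rw [hFF, mul_one]
  have t1 : E.trace = 0 := by
    rw [hE]; exact e4m_trace_zero ι hι e he (by rw [← hE]; exact hEne) w hw0
      (by rw [← hE]; exact hfix w hwW)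
  have t2 : E'.trace = 0 := by
    rw [hE']; exact e4m_trace_zero ι hι e' he' (by rw [← hE']; exact hE'ne) w hw0
      (by rw [← hE']; exact hfix' w hwW)
  have t3 : (E * E').trace = 0 := by
    rw [← hval]
    exact e4m_trace_zero ι hι (e * e') hf (by rw [hval]; exact hfne) w hw0
      (by rw [hval]; exact hffix w hwW)
  have h4 : (4 : F) ≠ 0 := by
    have : (4 : F) = 2 * 2 := by norm_num
    rw [this]; exact mul_ne_zero h2 h2
  obtain ⟨π, hπ⟩ : ∃ π : Matrix (Fin 4) (Fin 4) F, π = (4 : F)⁻¹ • ((1 + E) * (1 + E')) :=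
    ⟨_, rfl⟩
  have hsq1 : (1 + E) * (1 + E) = (2 : F) • (1 + E) := by
    simp only [mul_add, add_mul, mul_one, one_mul, hEE]
    rw [two_smul]; abel
  have hsq2 : (1 + E') * (1 + E') = (2 : F) • (1 + E') := by
    simp only [mul_add, add_mul, mul_one, one_mul, hE'E']
    rw [two_smul]; abel
  have hc2 : (1 + E') * (1 + E) = (1 + E) * (1 + E') := by
    simp only [mul_add, add_mul, mul_one, one_mul, hcomm]
    abel
  have hprod : (1 + E) * (1 + E') * ((1 + E) * (1 + E')) = (4 : F) • ((1 + E) * (1 + E')) := by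
    calc (1 + E) * (1 + E') * ((1 + E) * (1 + E'))
        = (1 + E) * ((1 + E') * (1 + E)) * (1 + E') := by simp only [mul_assoc]
      _ = ((1 + E) * (1 + E)) * ((1 + E') * (1 + E')) := by rw [hc2]; simp only [mul_assoc]
      _ = (4 : F) • ((1 + E) * (1 + E')) := by
          rw [hsq1, hsq2, Matrix.smul_mul, Matrix.mul_smul, smul_smul]; norm_num
  have hπ2 : π * π = π := by
    rw [hπ, Matrix.smul_mul, Matrix.mul_smul, smul_smul, hprod, smul_smul]
    congr 1
    field_simp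
  have hπfix : ∀ w ∈ W, π *ᵥ w = w := by
    intro w hw
    have e1 : (1 + E') *ᵥ w = (2 : F) • w := by
      rw [Matrix.add_mulVec, Matrix.one_mulVec, hfix' w hw, two_smul]
    have e2 : (1 + E) *ᵥ w = (2 : F) • w := by
      rw [Matrix.add_mulVec, Matrix.one_mulVec, hfix w hw, two_smul]
    rw [hπ, Matrix.smul_mulVec, ← Matrix.mulVec_mulVec, e1, Matrix.mulVec_smul, e2, smul_smul,
      smul_smul]
    have : (4 : F)⁻¹ * 2 * 2 = 1 := by
      have : (2 : F) * 2 = 4 := by norm_num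
      rw [mul_assoc, this, inv_mul_cancel₀ h4]
    rw [this, one_smul]
  have hπtr : π.trace = 1 := by
    have h5 : ((1 + E) * (1 + E')).trace = 4 := by
      simp only [mul_add, add_mul, mul_one, one_mul, Matrix.trace_add, t1, t2, t3,
        Matrix.trace_one]
      simp
    rw [hπ, Matrix.trace_smul, h5, smul_eq_mul, inv_mul_cancel₀ h4]
  obtain ⟨n, hn1, hn2, hn3⟩ := e4m_idem_trace π hπ2 W hπfix
  rw [hπtr] at hn3
  have hn0 : 2 ≤ n := le_trans hW hn1
  interval_cases n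
  · push_cast at hn3
    exact one_ne_zero (by linear_combination -hn3 : (1 : F) = 0)
  · push_cast at hn3
    exact h2 (by linear_combination -hn3)
  · push_cast at hn3
    exact h3 (by linear_combination -hn3)

/-- the common kernel of two covectors has dimension at least two -/
theorem e4m_exists_W (a b : Fin 4 → F) :
    ∃ W : Submodule F (Fin 4 → F), 2 ≤ Module.finrank F W ∧
      ∀ w ∈ W, a ⬝ᵥ w = 0 ∧ b ⬝ᵥ w = 0 := by
  let A : (Fin 4 → F) →ₗ[F] F :=
    { toFun := fun v => a ⬝ᵥ v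
      map_add' := fun u v => dotProduct_add a u v
      map_smul' := fun c v => by simp [dotProduct_smul] }
  let B : (Fin 4 → F) →ₗ[F] F :=
    { toFun := fun v => b ⬝ᵥ v
      map_add' := fun u v => dotProduct_add b u v
      map_smul' := fun c v => by simp [dotProduct_smul] }
  refine ⟨LinearMap.ker (A.prod B), ?_, ?_⟩
  · have h1 := LinearMap.finrank_range_add_finrank_ker (A.prod B)
    have h2 : Module.finrank F (LinearMap.range (A.prod B)) ≤ 2 := by
      have := Submodule.finrank_le (LinearMap.range (A.prod B))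
      simpa [Module.finrank_prod] using this
    have h3 : Module.finrank F (Fin 4 → F) = 4 := by simp
    omega
  · intro w hw
    rw [LinearMap.mem_ker, LinearMap.prod_apply, Prod.mk_eq_zero] at hw
    exact hw

end

theorem e4_mult3 {F : Type*} [Field F] (h2 : (2 : F) ≠ 0) (h3 : (3 : F) ≠ 0) (ι : F)
    (hι : ι ^ 2 = -1) (y : GL (Fin 4) F) (hy : y ∈ Cfsg.Geo.subgroupNormalizer (E4 ι))
    (r : ℕ) (hr : Odd r) (z : F)
    (hz : (y : Matrix (Fin 4) (Fin 4) F) ^ r = z • (1 : Matrix (Fin 4) (Fin 4) F))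
    (a : Fin 4 → F) (ha : a ≠ 0) (μ : F)
    (hμ : ∀ v : Fin 4 → F, a ⬝ᵥ v = 0 → (y : Matrix (Fin 4) (Fin 4) F) *ᵥ v = μ • v) :
    ∃ c : F, (y : Matrix (Fin 4) (Fin 4) F) = c • (1 : Matrix (Fin 4) (Fin 4) F) := by
  have hN : ∀ e, e ∈ E4 ι ↔ y * e * y⁻¹ ∈ E4 ι := fun e => Subgroup.mem_normalizer_iff.mp hy e
  obtain ⟨Y, hY⟩ : ∃ Y : Matrix (Fin 4) (Fin 4) F, Y = (y : Matrix (Fin 4) (Fin 4) F) :=
    ⟨_, rfl⟩
  obtain ⟨Yi, hYi⟩ : ∃ Yi : Matrix (Fin 4) (Fin 4) F,
      Yi = ((y⁻¹ : GL (Fin 4) F) : Matrix (Fin 4) (Fin 4) F) := ⟨_, rfl⟩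
  have hYYi : Y * Yi = 1 := by rw [hY, hYi, ← Units.val_mul, mul_inv_cancel, Units.val_one]
  have hYiY : Yi * Y = 1 := by rw [hY, hYi, ← Units.val_mul, inv_mul_cancel, Units.val_one]
  rw [← hY] at hμ hz ⊢
  -- `y²` commutes with every element of `E4 ι`
  have key : ∀ g ∈ E4 ι, y * y * g = g * (y * y) := by
    intro g hg
    obtain ⟨G, hG⟩ : ∃ G : Matrix (Fin 4) (Fin 4) F, G = (g : Matrix (Fin 4) (Fin 4) F) :=
      ⟨_, rfl⟩
    obtain ⟨Gi, hGi⟩ : ∃ Gi : Matrix (Fin 4) (Fin 4) F,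
        Gi = ((g⁻¹ : GL (Fin 4) F) : Matrix (Fin 4) (Fin 4) F) := ⟨_, rfl⟩
    have hGGi : G * Gi = 1 := by rw [hG, hGi, ← Units.val_mul, mul_inv_cancel, Units.val_one]
    obtain ⟨W, hW2, hWmem⟩ := e4m_exists_W a (a ᵥ* Gi)
    obtain ⟨w0, hw0W, hw00⟩ : ∃ w ∈ W, w ≠ 0 := by
      have hpos : 0 < Module.finrank F W := by omega
      obtain ⟨⟨w, hw⟩, hne⟩ := Module.finrank_pos_iff_exists_ne_zero.mp hpos
      exact ⟨w, hw, fun h => hne (Subtype.ext h)⟩
    have hμ0 : μ ≠ 0 := by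
      intro h0
      have h1 := hμ w0 (hWmem w0 hw0W).1
      rw [h0, zero_smul] at h1
      apply hw00
      have : Yi *ᵥ (Y *ᵥ w0) = w0 := by rw [Matrix.mulVec_mulVec, hYiY, Matrix.one_mulVec]
      rw [← this, h1, Matrix.mulVec_zero]
    have hYinv : ∀ v : Fin 4 → F, a ⬝ᵥ v = 0 → Yi *ᵥ v = μ⁻¹ • v := by
      intro v hv
      have h1 := hμ v hv
      have h2' : Yi *ᵥ (Y *ᵥ v) = v := by rw [Matrix.mulVec_mulVec, hYiY, Matrix.one_mulVec]
      rw [h1, Matrix.mulVec_smul] at h2'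
      nth_rewrite 2 [← h2']
      rw [smul_smul, inv_mul_cancel₀ hμ0, one_smul]
    obtain ⟨c, hc⟩ : ∃ c : GL (Fin 4) F, c = y * g * y⁻¹ * g⁻¹ := ⟨_, rfl⟩
    have hcE : c ∈ E4 ι := by
      rw [hc]; exact (E4 ι).mul_mem ((hN g).mp hg) ((E4 ι).inv_mem hg)
    have hcval : (c : Matrix (Fin 4) (Fin 4) F) = Y * G * Yi * Gi := by
      rw [hc, Units.val_mul, Units.val_mul, Units.val_mul, hY, hG, hYi, hGi]
    have hcfix : ∀ w ∈ W, (c : Matrix (Fin 4) (Fin 4) F) *ᵥ w = w := by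
      intro w hw
      obtain ⟨h1, h2'⟩ := hWmem w hw
      have h2'' : a ⬝ᵥ (Gi *ᵥ w) = 0 := by rw [Matrix.dotProduct_mulVec]; exact h2'
      rw [hcval, ← Matrix.mulVec_mulVec, ← Matrix.mulVec_mulVec, ← Matrix.mulVec_mulVec,
        hYinv _ h2'', Matrix.mulVec_smul, Matrix.mulVec_mulVec, hGGi, Matrix.one_mulVec,
        Matrix.mulVec_smul, hμ w h1, smul_smul, inv_mul_cancel₀ hμ0, one_smul]
    obtain ⟨c', hc'⟩ : ∃ c' : GL (Fin 4) F, c' = y * c * y⁻¹ := ⟨_, rfl⟩
    have hc'E : c' ∈ E4 ι := by rw [hc']; exact (hN c).mp hcE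
    have hc'fix : ∀ w ∈ W, (c' : Matrix (Fin 4) (Fin 4) F) *ᵥ w = w := by
      intro w hw
      obtain ⟨h1, h2'⟩ := hWmem w hw
      rw [hc', Units.val_mul, Units.val_mul, ← hY, ← hYi, ← Matrix.mulVec_mulVec,
        ← Matrix.mulVec_mulVec, hYinv w h1, Matrix.mulVec_smul, hcfix w hw, Matrix.mulVec_smul,
        hμ w h1, smul_smul, inv_mul_cancel₀ hμ0, one_smul]
    have hcc : c' = c := by
      by_cases h1 : c = 1
      · rw [hc', h1]; group
      · have h1' : c' ≠ 1 := by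
          intro h
          apply h1
          have : c = y⁻¹ * c' * y := by rw [hc']; group
          rw [this, h]; group
        exact e4m_unique h2 h3 ι hι W hW2 c' c hc'E hcE hc'fix hcfix h1' h1
    have hc2 : c * c = 1 := by
      apply Units.ext
      rw [Units.val_mul, Units.val_one]
      exact e4m_sq_one h2 ι hι c hcE w0 hw00 (hcfix w0 hw0W)
    have e1 : y * g = c * g * y := by rw [hc]; group
    have e2 : y * c = c * y := by
      have : c' * y = y * c := by rw [hc']; group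
      rw [← this, hcc]
    calc y * y * g = y * (y * g) := by group
      _ = y * (c * g * y) := by rw [e1]
      _ = (y * c) * (g * y) := by group
      _ = c * y * (g * y) := by rw [e2]
      _ = c * (y * g) * y := by group
      _ = c * (c * g * y) * y := by rw [e1]
      _ = (c * c) * g * (y * y) := by group
      _ = g * (y * y) := by rw [hc2, one_mul]
  have hgen : ∀ (u : GL (Fin 4) F), u ∈ E4 ι →
      (Y * Y) * (u : Matrix (Fin 4) (Fin 4) F) = (u : Matrix (Fin 4) (Fin 4) F) * (Y * Y) := by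
    intro u hu
    have h := congrArg (fun t : GL (Fin 4) F => (t : Matrix (Fin 4) (Fin 4) F)) (key u hu)
    simp only [Units.val_mul] at h
    rw [hY]; exact h
  obtain ⟨s, hs⟩ := e4_scalar_of_commute h2 (Y * Y) (hgen _ (e4gX1_mem ι))
    (hgen _ (e4gZ1_mem ι)) (hgen _ (e4gX2_mem ι)) (hgen _ (e4gZ2_mem ι))
  have hs0 : s ≠ 0 := by
    rintro rfl
    rw [zero_smul] at hs
    have h1 : (Y * Y) * (Yi * Yi) = 1 := by
      rw [mul_assoc, ← mul_assoc Y Yi, hYYi, one_mul, hYYi]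
    rw [hs, zero_mul] at h1
    have h2' := congr_fun (congr_fun h1 0) 0
    simp at h2'
  obtain ⟨k, rfl⟩ := hr
  rw [pow_succ, pow_mul, pow_two, hs, smul_pow, one_pow, Matrix.smul_mul, one_mul] at hz
  refine ⟨(s ^ k)⁻¹ * z, ?_⟩
  rw [← smul_smul, ← hz, smul_smul, inv_mul_cancel₀ (pow_ne_zero k hs0), one_smul]

end Cfsg.Agent.Helper66
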