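import Mathlib
import Cfsg.Prelude.Def_GeometricClasses
import Cfsg.Prelude.Def_LieClassical
import Cfsg.Agent.Helper84.E4FIFTH

/-!
# CALL S6002, piece CF5A (helper66, second formalisation): a non-zero vector is cyclic for an
element of order 5 of `GL_4(p)`, `p ≡ ±2 (mod 5)`
-/

set_option autoImplicit false

namespace Cfsg.Agent.Helper66
open scoped Matrix
open Polynomial

/-- a non-zero vector is cyclic for an element of order 5 when `p ≡ ±2 (mod 5)` -/
theorem e5_cyclic_five {F : Type*} [Field F] [Fintype F] {p : ℕ} [Fact p.Prime] [CharP F p]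
    (hF : Fintype.card F = p) (hp5 : p % 5 = 2 ∨ p % 5 = 3)
    (x : Matrix (Fin 2 ⊕ Fin 2) (Fin 2 ⊕ Fin 2) F) (hx5 : x ^ 5 = 1) (hx1 : x ≠ 1) :
    x ^ 4 + x ^ 3 + x ^ 2 + x + 1 = 0 ∧
    ∀ v : Fin 2 ⊕ Fin 2 → F, v ≠ 0 → ∀ c : Fin 4 → F,
      c 0 • v + c 1 • (x *ᵥ v) + c 2 • ((x ^ 2) *ᵥ v) + c 3 • ((x ^ 3) *ᵥ v) = 0 → c = 0 := by
  classical
  have hdec : orderOf (2 : ZMod 5) = 4 ∧ orderOf (3 : ZMod 5) = 4 := by
    constructor <;> (rw [orderOf_eq_iff (by norm_num)]; decide)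
  have hp : p.Prime := Fact.out
  have : Fact (Nat.Prime 5) := ⟨by norm_num⟩
  have h5F : ((5 : ℕ) : F) ≠ 0 := by
    rw [Ne, CharP.cast_eq_zero_iff F p]
    intro h
    have := (Nat.prime_dvd_prime_iff_eq hp (by norm_num : Nat.Prime 5)).mp h
    omega
  have hord : orderOf ((Fintype.card F : ℕ) : ZMod 5) = 5 - 1 := by
    rw [hF, ← ZMod.natCast_mod]
    rcases hp5 with h | h
    · rw [h]; exact hdec.1
    · rw [h]; exact hdec.2
  have hirr0 := Cfsg.Agent.Helper84.e4_cyclo_irreducible (F := F) 5 h5F hord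
  obtain ⟨Φ, hΦdef⟩ : ∃ Φ : F[X], Φ = X ^ 4 + X ^ 3 + X ^ 2 + X + 1 := ⟨_, rfl⟩
  have hΦsum : (∑ j ∈ Finset.range 5, (X : F[X]) ^ j) = Φ := by
    rw [hΦdef]; simp [Finset.sum_range_succ]; ring
  have hirr : Irreducible Φ := hΦsum ▸ hirr0
  have hmonic : Φ.Monic := by rw [hΦdef]; monicity!
  have hdeg : Φ.natDegree = 4 := by rw [hΦdef]; compute_degree!
  -- `Φ(x) = 0`
  have hfac : (X ^ 5 - 1 : F[X]) = (X - 1) * Φ := by rw [hΦdef]; ring
  have hm5 : minpoly F x ∣ (X - 1) * Φ := by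
    rw [← hfac]
    apply minpoly.dvd
    simp [hx5]
  have hΦm : Φ ∣ minpoly F x := by
    by_contra hnd
    have hcop : IsCoprime Φ (minpoly F x) := (hirr.coprime_iff_not_dvd).mpr hnd
    have h1 : minpoly F x ∣ X - 1 := hcop.symm.dvd_of_dvd_mul_right hm5
    obtain ⟨r, hr⟩ := h1
    have h2 : aeval x (X - 1 : F[X]) = 0 := by rw [hr, map_mul, minpoly.aeval, zero_mul]
    apply hx1
    simpa [sub_eq_zero] using h2
  have hΦc : Φ ∣ x.charpoly := hΦm.trans (Matrix.minpoly_dvd_charpoly x)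
  have hcdeg : x.charpoly.natDegree = 4 := by rw [Matrix.charpoly_natDegree_eq_dim]; simp
  have hceq : x.charpoly = Φ :=
    Polynomial.eq_of_monic_of_dvd_of_natDegree_le hmonic (Matrix.charpoly_monic x) hΦc
      (by rw [hcdeg, hdeg])
  have hΦx : aeval x Φ = 0 := by rw [← hceq]; exact Matrix.aeval_self_charpoly x
  have hΦx' : x ^ 4 + x ^ 3 + x ^ 2 + x + 1 = 0 := by
    rw [hΦdef] at hΦx; simpa using hΦx
  refine ⟨hΦx', ?_⟩
  intro v hv c hc
  obtain ⟨q, hq⟩ : ∃ q : F[X], q = c 0 • (1 : F[X]) + c 1 • X + c 2 • X ^ 2 + c 3 • X ^ 3 :=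
    ⟨_, rfl⟩
  have hqx : (aeval x q) *ᵥ v = 0 := by
    rw [hq]
    simp only [map_add, map_smul, map_pow, map_one, aeval_X, Matrix.add_mulVec,
      Matrix.smul_mulVec, Matrix.one_mulVec]
    exact hc
  have hq' : q = C (c 0) + C (c 1) * X + C (c 2) * X ^ 2 + C (c 3) * X ^ 3 := by
    rw [hq]; simp [Polynomial.smul_eq_C_mul]
  by_cases hq0 : q = 0
  · have h0 := congrArg (fun r : F[X] => r.coeff 0) hq0
    have h1 := congrArg (fun r : F[X] => r.coeff 1) hq0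
    have h2 := congrArg (fun r : F[X] => r.coeff 2) hq0
    have h3 := congrArg (fun r : F[X] => r.coeff 3) hq0
    rw [hq'] at h0 h1 h2 h3
    simp [coeff_X, coeff_X_pow, coeff_C] at h0 h1 h2 h3
    funext i
    fin_cases i
    · exact h0
    · exact h1
    · exact h2
    · exact h3
  · exfalso
    have hqdeg : q.natDegree ≤ 3 := by rw [hq']; compute_degree
    have hnd : ¬ Φ ∣ q := by
      intro hd
      have := Polynomial.natDegree_le_of_dvd hd hq0
      omega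
    have hcop : IsCoprime Φ q := hirr.coprime_iff_not_dvd.mpr hnd
    obtain ⟨a, b, hab⟩ := hcop
    have h1 := congrArg (aeval x) hab
    rw [map_add, map_mul, map_mul, hΦx, mul_zero, zero_add, map_one] at h1
    apply hv
    calc v = (1 : Matrix (Fin 2 ⊕ Fin 2) (Fin 2 ⊕ Fin 2) F) *ᵥ v := (Matrix.one_mulVec v).symm
      _ = (aeval x b * aeval x q) *ᵥ v := by rw [h1]
      _ = aeval x b *ᵥ (aeval x q *ᵥ v) := (Matrix.mulVec_mulVec _ _ _).symm
      _ = 0 := by rw [hqx, Matrix.mulVec_zero]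

end Cfsg.Agent.Helper66
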