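import Mathlib
import Cfsg.Prelude.Def_GeometricClasses
import Cfsg.Prelude.Def_LieClassical

/-!
# CALL S6002, piece CF5B (helper66), core: a vector `v` with `ω(v, x v) = 1`, `ω(v, x² v) = 0`
for an isometry `x` of order 5 of the symplectic space `F_p⁴`, `p ≡ ±2 (mod 5)`; the cyclicity
statement (piece CF5A) is a hypothesis here.
-/

set_option autoImplicit false

namespace Cfsg.Agent.Helper66
open scoped Matrix
open Polynomial

/-- Chevalley–Warning: a quadratic form in four variables over a finite field has a non-trivial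
zero. -/
theorem e5b_cw {F : Type*} [Field F] [Fintype F]
    (M : Matrix (Fin 2 ⊕ Fin 2) (Fin 2 ⊕ Fin 2) F) :
    ∃ v : Fin 2 ⊕ Fin 2 → F, v ≠ 0 ∧ v ⬝ᵥ (M *ᵥ v) = 0 := by
  classical
  obtain ⟨p, hpF⟩ := CharP.exists F
  have hp : p.Prime := CharP.char_is_prime F p
  obtain ⟨P, hP⟩ : ∃ P : MvPolynomial (Fin 2 ⊕ Fin 2) F, P =
    ∑ r, MvPolynomial.X r * (∑ b, MvPolynomial.C (M r b) * MvPolynomial.X b) := ⟨_, rfl⟩
  have hdeg : P.totalDegree < Fintype.card (Fin 2 ⊕ Fin 2) := by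
    have h4 : Fintype.card (Fin 2 ⊕ Fin 2) = 4 := by simp
    rw [h4]
    have h1 : ∀ (c : Fin 2 ⊕ Fin 2 → F), (∑ a, MvPolynomial.C (c a) * MvPolynomial.X a :
        MvPolynomial (Fin 2 ⊕ Fin 2) F).totalDegree ≤ 1 := by
      intro c
      apply MvPolynomial.totalDegree_finsetSum_le
      intro a _
      refine (MvPolynomial.totalDegree_mul _ _).trans ?_
      rw [MvPolynomial.totalDegree_C, MvPolynomial.totalDegree_X]
    have h2 : P.totalDegree ≤ 2 := by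
      rw [hP]
      apply MvPolynomial.totalDegree_finsetSum_le
      intro r _
      refine (MvPolynomial.totalDegree_mul _ _).trans ?_
      have := h1 (M r)
      rw [MvPolynomial.totalDegree_X]
      omega
    omega
  have hdvd := char_dvd_card_solutions p hdeg
  have heval : ∀ v : Fin 2 ⊕ Fin 2 → F, MvPolynomial.eval v P = v ⬝ᵥ (M *ᵥ v) := by
    intro v
    rw [hP]
    simp only [map_sum, map_mul, MvPolynomial.eval_C, MvPolynomial.eval_X]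
    rfl
  have hz : MvPolynomial.eval (0 : Fin 2 ⊕ Fin 2 → F) P = 0 := by
    rw [heval]; simp
  have hcard : 1 < Fintype.card {v : Fin 2 ⊕ Fin 2 → F // MvPolynomial.eval v P = 0} := by
    have hpos : 0 < Fintype.card {v : Fin 2 ⊕ Fin 2 → F // MvPolynomial.eval v P = 0} :=
      Fintype.card_pos_iff.mpr ⟨⟨0, hz⟩⟩
    have := Nat.le_of_dvd hpos hdvd
    have := hp.two_le
    omega
  obtain ⟨w, hw⟩ := Fintype.exists_ne_of_one_lt_card hcard ⟨0, hz⟩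
  refine ⟨w.1, fun h => hw (Subtype.ext h), ?_⟩
  rw [← heval]
  exact w.2

/-- The standard symplectic form is alternating. -/
theorem e5b_self {F : Type*} [Field F] (v : Fin 2 ⊕ Fin 2 → F) :
    v ⬝ᵥ (Matrix.J (Fin 2) F *ᵥ v) = 0 := by
  unfold Matrix.J
  rw [dotProduct, Fintype.sum_sum_type]
  simp [Matrix.mulVec, dotProduct, Fintype.sum_sum_type, Matrix.fromBlocks, Matrix.one_apply]
  ring

/-- `5` is not a square in `F_p` for an odd prime `p ≡ ±2 (mod 5)`. -/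
theorem e5b_five_nonsquare {F : Type*} [Field F] [Fintype F] {p : ℕ} [Fact p.Prime] [CharP F p]
    (hF : Fintype.card F = p) (hp2 : p ≠ 2) (hp5 : p % 5 = 2 ∨ p % 5 = 3) :
    ¬ IsSquare (5 : F) := by
  have hdec : ∀ r : ZMod 5, r * r ≠ 2 ∧ r * r ≠ 3 := by decide
  intro hsq
  have hp : p.Prime := Fact.out
  have e : ZMod p ≃+* F := ZMod.ringEquivOfPrime F hp hF
  have h1 : IsSquare ((5 : ℕ) : ZMod p) := by
    obtain ⟨r, hr⟩ := hsq
    refine ⟨e.symm r, ?_⟩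
    rw [← map_mul, ← hr, map_ofNat, Nat.cast_ofNat]
  have : Fact (Nat.Prime 5) := ⟨by norm_num⟩
  rw [← ZMod.exists_sq_eq_prime_iff_of_mod_four_eq_one (p := 5) (q := p) (by norm_num) hp2] at h1
  obtain ⟨r, hr⟩ := h1
  rw [← ZMod.natCast_mod] at hr
  rcases hp5 with h | h
  · rw [h] at hr
    exact (hdec r).1 (by rw [← hr]; rfl)
  · rw [h] at hr
    exact (hdec r).2 (by rw [← hr]; rfl)

theorem e5_good_vector_five_core {F : Type*} [Field F] [Fintype F] {p : ℕ} [Fact p.Prime]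
    [CharP F p] (hF : Fintype.card F = p) (hp5 : p % 5 = 2 ∨ p % 5 = 3)
    (x : Matrix (Fin 2 ⊕ Fin 2) (Fin 2 ⊕ Fin 2) F)
    (hx : xᵀ * Matrix.J (Fin 2) F * x = Matrix.J (Fin 2) F)
    (hx5 : x ^ 5 = 1)
    (hΦ : x ^ 4 + x ^ 3 + x ^ 2 + x + 1 = 0)
    (hcyc : ∀ v : Fin 2 ⊕ Fin 2 → F, v ≠ 0 → ∀ c : Fin 4 → F,
      c 0 • v + c 1 • (x *ᵥ v) + c 2 • ((x ^ 2) *ᵥ v) + c 3 • ((x ^ 3) *ᵥ v) = 0 → c = 0) :
    ∃ v : Fin 2 ⊕ Fin 2 → F, v ⬝ᵥ (Matrix.J (Fin 2) F *ᵥ (x *ᵥ v)) = 1 ∧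
      v ⬝ᵥ (Matrix.J (Fin 2) F *ᵥ ((x ^ 2) *ᵥ v)) = 0 := by
  classical
  have hself : ∀ v : Fin 2 ⊕ Fin 2 → F, v ⬝ᵥ (Matrix.J (Fin 2) F *ᵥ v) = 0 := e5b_self
  have hJt : (Matrix.J (Fin 2) F)ᵀ = -Matrix.J (Fin 2) F := Matrix.J_transpose (Fin 2) F
  have hJJ : Matrix.J (Fin 2) F * Matrix.J (Fin 2) F = -1 := Matrix.J_squared (Fin 2) F
  obtain ⟨J, hJ⟩ : ∃ J : Matrix (Fin 2 ⊕ Fin 2) (Fin 2 ⊕ Fin 2) F, J = Matrix.J (Fin 2) F :=
    ⟨_, rfl⟩
  rw [← hJ] at hx hself hJt hJJ ⊢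
  -- isometries
  have hiso : ∀ k : ℕ, (x ^ k)ᵀ * J * x ^ k = J := by
    intro k
    induction k with
    | zero => simp
    | succ k ih =>
      rw [pow_succ, Matrix.transpose_mul]
      calc xᵀ * (x ^ k)ᵀ * J * (x ^ k * x) = xᵀ * ((x ^ k)ᵀ * J * x ^ k) * x := by
            simp only [Matrix.mul_assoc]
        _ = J := by rw [ih, hx]
  have hadj : ∀ k j : ℕ, k + j = 5 → (x ^ k)ᵀ * J = J * x ^ j := by
    intro k j hkj
    calc (x ^ k)ᵀ * J = (x ^ k)ᵀ * J * x ^ 5 := by rw [hx5, mul_one]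
      _ = (x ^ k)ᵀ * J * x ^ k * x ^ j := by rw [← hkj, pow_add]; simp only [Matrix.mul_assoc]
      _ = J * x ^ j := by rw [hiso k]
  have hquad : ∀ (M : Matrix (Fin 2 ⊕ Fin 2) (Fin 2 ⊕ Fin 2) F) (v : Fin 2 ⊕ Fin 2 → F),
      v ⬝ᵥ (Mᵀ *ᵥ v) = v ⬝ᵥ (M *ᵥ v) := by
    intro M v
    rw [Matrix.mulVec_transpose, dotProduct_comm, ← Matrix.dotProduct_mulVec]
  have hC : ∀ (A M : Matrix (Fin 2 ⊕ Fin 2) (Fin 2 ⊕ Fin 2) F) (u : Fin 2 ⊕ Fin 2 → F),
      (A *ᵥ u) ⬝ᵥ (M *ᵥ (A *ᵥ u)) = u ⬝ᵥ ((Aᵀ * M * A) *ᵥ u) := by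
    intro A M u
    have e1 : (Aᵀ * M * A) *ᵥ u = Aᵀ *ᵥ (M *ᵥ (A *ᵥ u)) := by
      simp only [Matrix.mulVec_mulVec, Matrix.mul_assoc]
    rw [e1, Matrix.mulVec_transpose, dotProduct_comm u, ← Matrix.dotProduct_mulVec,
      dotProduct_comm]
  have hscale : ∀ (M : Matrix (Fin 2 ⊕ Fin 2) (Fin 2 ⊕ Fin 2) F) (m : F)
      (u : Fin 2 ⊕ Fin 2 → F), (m • u) ⬝ᵥ (M *ᵥ (m • u)) = m * m * (u ⬝ᵥ (M *ᵥ u)) := by
    intro M m u
    rw [Matrix.mulVec_smul, smul_dotProduct, dotProduct_smul, smul_eq_mul, smul_eq_mul,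
      mul_assoc]
  -- Chevalley–Warning
  obtain ⟨v, hv, hc2⟩ := e5b_cw (J * x ^ 2)
  have hc0 : v ⬝ᵥ (J *ᵥ v) = 0 := hself v
  have hc3 : v ⬝ᵥ ((J * x ^ 3) *ᵥ v) = 0 := by
    have h1 : J * x ^ 3 = -(J * x ^ 2)ᵀ := by
      rw [Matrix.transpose_mul, hJt, Matrix.mul_neg, neg_neg, hadj 2 3 rfl]
    rw [h1, Matrix.neg_mulVec, dotProduct_neg, hquad, hc2, neg_zero]
  -- `c₁ ≠ 0`
  have hc1 : v ⬝ᵥ ((J * x) *ᵥ v) ≠ 0 := by
    intro hc1
    apply hv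
    have hli : LinearIndependent F ![v, x *ᵥ v, (x ^ 2) *ᵥ v, (x ^ 3) *ᵥ v] := by
      rw [Fintype.linearIndependent_iff]
      intro c hc
      have h0 := hcyc v hv c (by simpa [Fin.sum_univ_four] using hc)
      intro i
      rw [h0]; rfl
    have hspan := hli.span_eq_top_of_card_eq_finrank' (by simp)
    have hall : ∀ w : Fin 2 ⊕ Fin 2 → F, (v ᵥ* J) ⬝ᵥ w = 0 := by
      intro w
      have hw : w ∈ Submodule.span F (Set.range ![v, x *ᵥ v, (x ^ 2) *ᵥ v, (x ^ 3) *ᵥ v]) := by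
        rw [hspan]; trivial
      induction hw using Submodule.span_induction with
      | mem w hw =>
        obtain ⟨k, rfl⟩ := hw
        rw [← Matrix.dotProduct_mulVec]
        fin_cases k
        · simpa using hc0
        · simpa [Matrix.mulVec_mulVec] using hc1
        · simpa [Matrix.mulVec_mulVec] using hc2
        · simpa [Matrix.mulVec_mulVec] using hc3
      | zero => simp
      | add a b _ _ ha hb => rw [dotProduct_add, ha, hb, add_zero]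
      | smul c w _ hw => rw [dotProduct_smul, hw, smul_zero]
    have h1 : v ᵥ* J = 0 := by
      funext i
      have := hall (Pi.single i 1)
      simpa using this
    have h2 : (v ᵥ* J) ᵥ* J = -v := by
      rw [Matrix.vecMul_vecMul, hJJ, Matrix.vecMul_neg, Matrix.vecMul_one]
    rw [h1, Matrix.zero_vecMul] at h2
    exact neg_eq_zero.mp h2.symm
  by_cases hsq : IsSquare (v ⬝ᵥ ((J * x) *ᵥ v))⁻¹
  · obtain ⟨m, hm⟩ := hsq
    refine ⟨m • v, ?_, ?_⟩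
    · rw [Matrix.mulVec_mulVec, hscale, ← hm, inv_mul_cancel₀ hc1]
    · rw [Matrix.mulVec_mulVec, hscale, hc2, mul_zero]
  · have hp2 : p ≠ 2 := by
      rintro rfl
      exact hsq (FiniteField.isSquare_of_char_two (ringChar.eq F 2) _)
    have h5ns : ¬ IsSquare (5 : F) := e5b_five_nonsquare hF hp2 hp5
    have h50 : (5 : F) ≠ 0 := by
      intro h
      exact h5ns (h ▸ IsSquare.zero)
    have hsq2 : IsSquare ((5 : F)⁻¹ * (v ⬝ᵥ ((J * x) *ᵥ v))⁻¹) := by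
      have h1 : quadraticChar F (5 : F)⁻¹ = -1 :=
        quadraticChar_neg_one_iff_not_isSquare.mpr (by rwa [isSquare_inv])
      have h2 : quadraticChar F (v ⬝ᵥ ((J * x) *ᵥ v))⁻¹ = -1 :=
        quadraticChar_neg_one_iff_not_isSquare.mpr hsq
      rw [← quadraticChar_one_iff_isSquare (mul_ne_zero (inv_ne_zero h50) (inv_ne_zero hc1)),
        map_mul, h1, h2]
      norm_num
    obtain ⟨m, hm⟩ := hsq2
    -- the self-adjoint element `μ = 1 + 2 (x + x⁴)` with `μ² = 5`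
    obtain ⟨τ, hτdef⟩ : ∃ τ : Matrix (Fin 2 ⊕ Fin 2) (Fin 2 ⊕ Fin 2) F, τ = x + x ^ 4 :=
      ⟨_, rfl⟩
    obtain ⟨μ, hμ⟩ : ∃ μ : Matrix (Fin 2 ⊕ Fin 2) (Fin 2 ⊕ Fin 2) F, μ = 1 + τ + τ := ⟨_, rfl⟩
    obtain ⟨q, hq⟩ : ∃ q : F[X], q = 1 + (X + X ^ 4) + (X + X ^ 4) := ⟨_, rfl⟩
    have hμq : aeval x q = μ := by
      rw [hq, hμ, hτdef]; simp
    have hxk : ∀ k : ℕ, aeval x (X ^ k : F[X]) = x ^ k := by intro k; simp
    have hμx : ∀ k : ℕ, μ * x ^ k = x ^ k * μ := by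
      intro k
      rw [← hμq, ← hxk k, ← map_mul, ← map_mul, mul_comm]
    have hμ2 : μ * μ = (5 : F) • (1 : Matrix (Fin 2 ⊕ Fin 2) (Fin 2 ⊕ Fin 2) F) := by
      have e : q * q = C (5 : F) + 4 * (X ^ 4 + X ^ 3 + X ^ 2 + X + 1)
          + (X ^ 5 - 1) * (8 + 4 * X ^ 3) := by
        rw [hq, show (C (5 : F) : F[X]) = 5 from map_ofNat C 5]; ring
      have hΦ' : aeval x (X ^ 4 + X ^ 3 + X ^ 2 + X + 1 : F[X]) = 0 := by simpa using hΦ
      have h5' : aeval x (X ^ 5 - 1 : F[X]) = 0 := by simp [hx5]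
      rw [← hμq, ← map_mul, e, map_add, map_add, map_mul, map_mul, hΦ', h5', mul_zero,
        zero_mul, add_zero, add_zero, aeval_C, Algebra.algebraMap_eq_smul_one]
    have hτ : τᵀ * J = J * τ := by
      have h1 := hadj 1 4 rfl
      have h4 := hadj 4 1 rfl
      rw [pow_one] at h1 h4
      rw [hτdef, Matrix.transpose_add, Matrix.add_mul, Matrix.mul_add, h1, h4, add_comm]
    have hμJ : μᵀ * J = J * μ := by
      rw [hμ, Matrix.transpose_add, Matrix.transpose_add, Matrix.transpose_one, Matrix.add_mul,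
        Matrix.add_mul, Matrix.one_mul, hτ, Matrix.mul_add, Matrix.mul_add, Matrix.mul_one]
    have hB : ∀ k : ℕ, μᵀ * (J * x ^ k) * μ = (5 : F) • (J * x ^ k) := by
      intro k
      calc μᵀ * (J * x ^ k) * μ = (μᵀ * J) * x ^ k * μ := by simp only [Matrix.mul_assoc]
        _ = J * (μ * x ^ k) * μ := by rw [hμJ]; simp only [Matrix.mul_assoc]
        _ = J * (x ^ k * μ) * μ := by rw [hμx k]
        _ = J * x ^ k * (μ * μ) := by simp only [Matrix.mul_assoc]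
        _ = (5 : F) • (J * x ^ k) := by rw [hμ2, Matrix.mul_smul, Matrix.mul_one]
    have hD : ∀ k : ℕ, (μ *ᵥ v) ⬝ᵥ ((J * x ^ k) *ᵥ (μ *ᵥ v))
        = 5 * (v ⬝ᵥ ((J * x ^ k) *ᵥ v)) := by
      intro k
      rw [hC, hB k, Matrix.smul_mulVec, dotProduct_smul, smul_eq_mul]
    refine ⟨m • (μ *ᵥ v), ?_, ?_⟩
    · have h1 := hD 1
      rw [pow_one] at h1
      rw [Matrix.mulVec_mulVec, hscale, h1, ← hm]
      field_simp
    · rw [Matrix.mulVec_mulVec, hscale, hD 2, hc2, mul_zero, mul_zero]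

end Cfsg.Agent.Helper66
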