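import Mathlib
import Cfsg.Prelude.Def_GeometricClasses
import Cfsg.Prelude.Def_LieClassical
import Cfsg.Agent.Helper66.E5CF5Bcore
import Cfsg.Agent.Helper66.E5CF5A

/-!
# CALL S6002, piece CF5B (helper66): the core with the cyclicity statement CF5A plugged in
-/

set_option autoImplicit false

namespace Cfsg.Agent.Helper66
open scoped Matrix

/-- a vector `v` with `ω(v, x v) = 1` and `ω(v, x² v) = 0`, `ω(u, w) = u ⬝ᵥ (J *ᵥ w)` -/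
theorem e5_good_vector_five {F : Type*} [Field F] [Fintype F] {p : ℕ} [Fact p.Prime] [CharP F p]
    (hF : Fintype.card F = p) (hp5 : p % 5 = 2 ∨ p % 5 = 3)
    (x : Matrix (Fin 2 ⊕ Fin 2) (Fin 2 ⊕ Fin 2) F)
    (hx : xᵀ * Matrix.J (Fin 2) F * x = Matrix.J (Fin 2) F)
    (hx5 : x ^ 5 = 1) (hx1 : x ≠ 1) :
    ∃ v : Fin 2 ⊕ Fin 2 → F, v ⬝ᵥ (Matrix.J (Fin 2) F *ᵥ (x *ᵥ v)) = 1 ∧
      v ⬝ᵥ (Matrix.J (Fin 2) F *ᵥ ((x ^ 2) *ᵥ v)) = 0 :=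
  e5_good_vector_five_core hF hp5 x hx hx5 (e5_cyclic_five hF hp5 x hx5 hx1).1
    (e5_cyclic_five hF hp5 x hx5 hx1).2

end Cfsg.Agent.Helper66
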