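import Mathlib
import Cfsg.Prelude.Def_GeometricClasses
import Cfsg.Prelude.Def_LieClassical

/-!
# CALL S6002, piece GOLDS (helper66): a root of `t² + t - 1` in `F_p` for `p ≡ ±1 (mod 5)`
-/

set_option autoImplicit false

namespace Cfsg.Agent.Helper66
open scoped Matrix

theorem e5_exists_golden {F : Type*} [Field F] [Fintype F] {p : ℕ} [Fact p.Prime] [CharP F p]
    (hF : Fintype.card F = p) (hodd : Odd p) (hp5 : p % 5 = 1 ∨ p % 5 = 4) :
    ∃ t : F, t ^ 2 + t - 1 = 0 := by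
  have hp2 : p ≠ 2 := by rintro rfl; exact absurd hodd (by decide)
  have hsq5 : IsSquare ((5 : ℕ) : ZMod p) := by
    have : Fact (Nat.Prime 5) := ⟨by norm_num⟩
    rw [← ZMod.exists_sq_eq_prime_iff_of_mod_four_eq_one (p := 5) (q := p) (by norm_num) hp2]
    rcases hp5 with h | h
    · refine ⟨1, ?_⟩
      rw [← ZMod.natCast_mod, h]
      rfl
    · refine ⟨2, ?_⟩
      rw [← ZMod.natCast_mod, h]
      rfl
  obtain ⟨r, hr⟩ := hsq5
  obtain ⟨φ, hφ⟩ : ∃ φ : ZMod p →+* F, φ = ZMod.castHom (dvd_refl p) F := ⟨_, rfl⟩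
  have h5 : (5 : F) = φ r * φ r := by
    rw [← map_mul, ← hr, map_natCast, Nat.cast_ofNat]
  have h2 : (2 : F) ≠ 0 := by
    intro h
    have h' : ((2 : ℕ) : F) = 0 := by exact_mod_cast h
    rw [CharP.cast_eq_zero_iff F p] at h'
    have h1 := Nat.le_of_dvd (by norm_num) h'
    have hp := (Fact.out : p.Prime).two_le
    omega
  refine ⟨(φ r - 1) / 2, ?_⟩
  field_simp
  linear_combination (-1 : F) * h5

end Cfsg.Agent.Helper66
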