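import Cfsg.Agent.Helper66.Wielandt
import Mathlib.GroupTheory.GroupAction.ConjAct
import Mathlib.Data.ZMod.Units
import Mathlib.Data.Nat.Totient
import Mathlib.Data.Nat.Factorization.Basic

set_option autoImplicit false

namespace Cfsg.Agent.Helper66

open MulAction

/-- Class-sum divisibility: if `f` is constant on orbits and `k` divides `|orbit y| * f y` for
every `y`, then `k` divides the sum of `f`. -/
theorem dvd_sum_of_orbits {Γ Y : Type*} [Group Γ] [MulAction Γ Y] [Fintype Y] (f : Y → ℕ)
    (hf : ∀ (g : Γ) (y : Y), f (g • y) = f y) (k : ℕ)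
    (h : ∀ y : Y, k ∣ (orbit Γ y).ncard * f y) : k ∣ ∑ y, f y := by
  classical
  have : Fintype (orbitRel.Quotient Γ Y) := Fintype.ofFinite _
  rw [← Finset.sum_fiberwise Finset.univ (Quotient.mk'' : Y → orbitRel.Quotient Γ Y) f]
  apply Finset.dvd_sum
  intro ω _
  induction ω using Quotient.inductionOn' with
  | h y₀ =>
    have hfil : (Finset.univ.filter (fun y : Y => (Quotient.mk'' y : orbitRel.Quotient Γ Y) =
        Quotient.mk'' y₀)) = (orbit Γ y₀).toFinset := by
      ext y
      simp only [Finset.mem_filter, Finset.mem_univ, true_and, Set.mem_toFinset]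
      exact Quotient.eq''
    rw [hfil]
    have hconst : ∀ y ∈ (orbit Γ y₀).toFinset, f y = f y₀ := by
      intro y hy
      rw [Set.mem_toFinset] at hy
      obtain ⟨g, rfl⟩ := hy
      exact hf g y₀
    rw [Finset.sum_congr rfl hconst, Finset.sum_const, smul_eq_mul, ← Set.ncard_eq_toFinset_card']
    exact h y₀

/-- Orbit-stabilizer for the conjugation action, in terms of the centralizer. -/
theorem card_centralizer_mul_ncard_conj_orbit {G : Type*} [Group G] (y : G) :
    Nat.card (Subgroup.centralizer ({y} : Set G)) * (orbit (ConjAct G) y).ncard = Nat.card G := by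
  have h1 := card_stabilizer_mul_ncard_orbit (G := ConjAct G) y
  have e : Subgroup.centralizer ({y} : Set G) ≃ stabilizer (ConjAct G) y :=
    { toFun := fun x => ⟨ConjAct.toConjAct x.1, by
        rw [mem_stabilizer_iff, ConjAct.toConjAct_smul]
        have := Subgroup.mem_centralizer_iff.mp x.2 y rfl
        rw [← this]; group⟩
      invFun := fun x => ⟨ConjAct.ofConjAct x.1, by
        rw [Subgroup.mem_centralizer_iff]
        intro h hh
        rw [Set.mem_singleton_iff] at hh
        subst hh
        have h2 : x.1 • h = h := x.2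
        rw [ConjAct.smul_def] at h2
        calc h * ConjAct.ofConjAct x.1
            = (ConjAct.ofConjAct x.1 * h * (ConjAct.ofConjAct x.1)⁻¹) * ConjAct.ofConjAct x.1 := by
              rw [h2]
          _ = ConjAct.ofConjAct x.1 * h := by group⟩
      left_inv := fun x => rfl
      right_inv := fun x => rfl }
  rw [Nat.card_congr e, h1]
  rfl

/-- Class-sum divisibility for the conjugation action on a finite group. -/
theorem dvd_sum_of_conj_invariant {G : Type*} [Group G] [Fintype G] (T : G → Prop)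
    [DecidablePred T] (hT : ∀ g y : G, T y → T (g * y * g⁻¹)) (f : G → ℕ)
    (hf : ∀ g y : G, f (g * y * g⁻¹) = f y) (k : ℕ)
    (h : ∀ y : G, T y → k ∣ (orbit (ConjAct G) y).ncard * f y) :
    k ∣ ∑ y ∈ Finset.univ.filter T, f y := by
  rw [Finset.sum_filter]
  apply dvd_sum_of_orbits (Γ := ConjAct G) (fun y => if T y then f y else 0)
  · intro g y
    have hiff : T (g • y) ↔ T y := by
      constructor
      · intro h1
        have := hT (ConjAct.ofConjAct g)⁻¹ _ h1
        rw [ConjAct.smul_def] at this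
        convert this using 1
        group
      · intro h1
        rw [ConjAct.smul_def]
        exact hT _ _ h1
    by_cases hy : T y
    · rw [if_pos hy, if_pos (hiff.mpr hy), ConjAct.smul_def, hf]
    · rw [if_neg hy, if_neg (fun h1 => hy (hiff.mp h1))]
  · intro y
    by_cases hy : T y
    · rw [if_pos hy]; exact h y hy
    · rw [if_neg hy, mul_zero]; exact dvd_zero k

section CoprimeFactorization

variable {G : Type*} [Group G]

/-- Exponent `e` with `e ≡ 1 [MOD a]` and `e ≡ 0 [MOD b]`. -/
def cfExp (a b : ℕ) (hab : Nat.Coprime a b) : ℕ := (Nat.chineseRemainder hab 1 0 : ℕ)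

theorem cfExp_modEq_left (a b : ℕ) (hab : Nat.Coprime a b) : cfExp a b hab ≡ 1 [MOD a] :=
  (Nat.chineseRemainder hab 1 0).2.1

theorem cfExp_dvd (a b : ℕ) (hab : Nat.Coprime a b) : b ∣ cfExp a b hab :=
  (Nat.modEq_zero_iff_dvd).mp (Nat.chineseRemainder hab 1 0).2.2

/-- The number of elements `w` of the centralizer of `u` with `w ^ b = 1`. -/
noncomputable def centCount (b : ℕ) (u : G) : ℕ :=
  Nat.card {w : G // w ^ b = 1 ∧ w * u = u * w}

theorem pow_cfExp_pow {a b : ℕ} (hab : Nat.Coprime a b) {x : G} (hx : x ^ (a * b) = 1) :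
    (x ^ cfExp a b hab) ^ a = 1 := by
  obtain ⟨k, hk⟩ := cfExp_dvd a b hab
  rw [← pow_mul, hk, mul_comm b k, mul_assoc, mul_comm b a, mul_comm k, pow_mul, hx, one_pow]

theorem pow_cfExp_pow' {a b : ℕ} (hab : Nat.Coprime a b) {x : G} (hx : x ^ (a * b) = 1) :
    (x ^ cfExp b a hab.symm) ^ b = 1 := by
  apply pow_cfExp_pow hab.symm
  rw [mul_comm]
  exact hx

theorem pow_cfExp_mul {a b : ℕ} (hab : Nat.Coprime a b) {x : G} (hx : x ^ (a * b) = 1) :
    x ^ cfExp a b hab * x ^ cfExp b a hab.symm = x := by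
  rw [← pow_add]
  have h1 : cfExp a b hab + cfExp b a hab.symm ≡ 1 [MOD a] := by
    have := (cfExp_modEq_left a b hab).add
      ((Nat.modEq_zero_iff_dvd).mpr (cfExp_dvd b a hab.symm))
    simpa using this
  have h2 : cfExp a b hab + cfExp b a hab.symm ≡ 1 [MOD b] := by
    have := ((Nat.modEq_zero_iff_dvd).mpr (cfExp_dvd a b hab)).add
      (cfExp_modEq_left b a hab.symm)
    simpa using this
  have h3 : cfExp a b hab + cfExp b a hab.symm ≡ 1 [MOD a * b] :=
    (Nat.modEq_and_modEq_iff_modEq_mul hab).mp ⟨h1, h2⟩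
  have h4 : cfExp a b hab + cfExp b a hab.symm ≡ 1 [MOD orderOf x] :=
    h3.of_dvd (orderOf_dvd_of_pow_eq_one hx)
  have := pow_eq_pow_iff_modEq.mpr h4
  rwa [pow_one] at this

theorem mul_pow_cfExp {a b : ℕ} (hab : Nat.Coprime a b) {u w : G} (hu : u ^ a = 1)
    (hw : w ^ b = 1) (hc : w * u = u * w) : (u * w) ^ cfExp a b hab = u := by
  have hcomm : Commute u w := hc.symm
  rw [hcomm.mul_pow]
  have h1 : w ^ cfExp a b hab = 1 := by
    obtain ⟨k, hk⟩ := cfExp_dvd a b hab
    rw [hk, pow_mul, hw, one_pow]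
  have h2 : u ^ cfExp a b hab = u := by
    have h4 : cfExp a b hab ≡ 1 [MOD orderOf u] :=
      (cfExp_modEq_left a b hab).of_dvd (orderOf_dvd_of_pow_eq_one hu)
    have := pow_eq_pow_iff_modEq.mpr h4
    rwa [pow_one] at this
  rw [h1, h2, mul_one]

theorem mul_pow_cfExp' {a b : ℕ} (hab : Nat.Coprime a b) {u w : G} (hu : u ^ a = 1)
    (hw : w ^ b = 1) (hc : w * u = u * w) : (u * w) ^ cfExp b a hab.symm = w := by
  have := mul_pow_cfExp hab.symm hw hu hc.symm
  rwa [hc] at this

theorem sigma_subtype_ext {α γ : Type*} {Z : α → γ → Prop}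
    (p q : Σ a : α, {c : γ // Z a c}) (h1 : p.1 = q.1) (h2 : p.2.1 = q.2.1) : p = q := by
  obtain ⟨a, c, hc⟩ := p
  obtain ⟨a', c', hc'⟩ := q
  simp only at h1 h2
  subst h1
  subst h2
  rfl

/-- Coprime factorization of the solutions of `x ^ (a * b) = 1`. -/
noncomputable def cfEquiv (a b : ℕ) (hab : Nat.Coprime a b) (P : G → Prop) :
    {x : G // x ^ (a * b) = 1 ∧ P (x ^ cfExp a b hab)} ≃
      Σ u : {u : G // u ^ a = 1 ∧ P u}, {w : G // w ^ b = 1 ∧ w * u.1 = u.1 * w} where
  toFun x := ⟨⟨x.1 ^ cfExp a b hab, pow_cfExp_pow hab x.2.1, x.2.2⟩,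
    ⟨x.1 ^ cfExp b a hab.symm, pow_cfExp_pow' hab x.2.1,
      (pow_mul_comm x.1 _ _)⟩⟩
  invFun p := ⟨p.1.1 * p.2.1, by
    have hcomm : Commute p.1.1 p.2.1 := p.2.2.2.symm
    refine ⟨?_, ?_⟩
    · rw [hcomm.mul_pow, pow_mul, p.1.2.1, one_pow, mul_comm a b, pow_mul, p.2.2.1, one_pow,
        mul_one]
    · rw [mul_pow_cfExp hab p.1.2.1 p.2.2.1 p.2.2.2]
      exact p.1.2.2⟩
  left_inv x := Subtype.ext (pow_cfExp_mul hab x.2.1)
  right_inv p := by
    apply sigma_subtype_ext
    · exact Subtype.ext (mul_pow_cfExp hab p.1.2.1 p.2.2.1 p.2.2.2)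
    · exact mul_pow_cfExp' hab p.1.2.1 p.2.2.1 p.2.2.2

/-- Counting form of the coprime factorization. -/
theorem card_cf [Fintype G] (a b : ℕ) (hab : Nat.Coprime a b) (P : G → Prop)
    [DecidablePred P] [DecidableEq G] :
    Nat.card {x : G // x ^ (a * b) = 1 ∧ P (x ^ cfExp a b hab)} =
      ∑ u ∈ Finset.univ.filter (fun u : G => u ^ a = 1 ∧ P u), centCount b u := by
  rw [Nat.card_congr (cfEquiv a b hab P), Nat.card_sigma]
  rw [Finset.sum_subtype (Finset.univ.filter (fun u : G => u ^ a = 1 ∧ P u))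
    (p := fun u : G => u ^ a = 1 ∧ P u) (by simp) (fun u => centCount b u)]
  rfl

end CoprimeFactorization

section Counting

variable {G : Type*} [Group G]

theorem centCount_eq_card_centralizer (b : ℕ) (u : G) :
    centCount b u = Nat.card {w : Subgroup.centralizer ({u} : Set G) // w ^ b = 1} := by
  apply Nat.card_congr
  exact
    { toFun := fun w => ⟨⟨w.1, by
          rw [Subgroup.mem_centralizer_iff]
          intro h hh
          rw [Set.mem_singleton_iff] at hh
          rw [hh]
          exact w.2.2.symm⟩, Subtype.ext w.2.1⟩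
      invFun := fun w => ⟨w.1.1, congrArg Subtype.val w.2,
        (Subgroup.mem_centralizer_iff.mp w.1.2 u rfl).symm⟩
      left_inv := fun w => rfl
      right_inv := fun w => rfl }

theorem centCount_conj (b : ℕ) (g u : G) : centCount b (g * u * g⁻¹) = centCount b u := by
  symm
  apply Nat.card_congr
  refine Equiv.subtypeEquiv (MulAut.conj g).toEquiv ?_
  intro w
  have h1 : (MulAut.conj g) w ^ b = 1 ↔ w ^ b = 1 := by
    rw [← map_pow, map_eq_one_iff _ (MulAut.conj g).injective]
  have h2 : (MulAut.conj g) w * (MulAut.conj g) u = (MulAut.conj g) u * (MulAut.conj g) w ↔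
      w * u = u * w := by
    rw [← map_mul, ← map_mul, (MulAut.conj g).injective.eq_iff]
  show (w ^ b = 1 ∧ w * u = u * w) ↔
    ((MulAut.conj g) w ^ b = 1 ∧ (MulAut.conj g) w * (g * u * g⁻¹) = (g * u * g⁻¹) * (MulAut.conj g) w)
  rw [← MulAut.conj_apply g u, h1, h2]

/-- The number of elements of order `p ^ (a + 1)` is divisible by `p ^ a`. -/
theorem pow_dvd_card_orderOf_eq [Finite G] (p a : ℕ) (hp : p.Prime) :
    p ^ a ∣ Nat.card {x : G // orderOf x = p ^ (a + 1)} := by
  set N := p ^ (a + 1) with hN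
  have hN1 : 1 < N := Nat.one_lt_pow (Nat.succ_ne_zero a) hp.one_lt
  have : Fact (1 < N) := ⟨hN1⟩
  have : NeZero N := ⟨by omega⟩
  let act : MulAction (ZMod N)ˣ {x : G // orderOf x = N} :=
    { smul := fun u x => ⟨x.1 ^ (u : ZMod N).val, by
        have hc : (orderOf x.1).Coprime (u : ZMod N).val := by
          rw [x.2]; exact (ZMod.val_coe_unit_coprime u).symm
        rw [hc.orderOf_pow, x.2]⟩
      one_smul := fun x => Subtype.ext (by
        show x.1 ^ ((1 : (ZMod N)ˣ) : ZMod N).val = x.1
        rw [Units.val_one, ZMod.val_one, pow_one])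
      mul_smul := fun u v x => Subtype.ext (by
        show x.1 ^ ((u * v : (ZMod N)ˣ) : ZMod N).val =
          (x.1 ^ (v : ZMod N).val) ^ (u : ZMod N).val
        rw [Units.val_mul, ZMod.val_mul, ← pow_mul, mul_comm (v : ZMod N).val]
        have h := pow_mod_orderOf x.1 ((u : ZMod N).val * (v : ZMod N).val)
        rw [x.2] at h
        exact h) }
  have hfree : ∀ x : {x : G // orderOf x = N}, MulAction.stabilizer (ZMod N)ˣ x = ⊥ := by
    intro x
    rw [eq_bot_iff]
    intro u hu
    have h1 : x.1 ^ (u : ZMod N).val = x.1 := congrArg Subtype.val (hu : u • x = x)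
    have h2 : x.1 ^ (u : ZMod N).val = x.1 ^ 1 := by rw [h1, pow_one]
    rw [pow_eq_pow_iff_modEq, x.2] at h2
    have h3 : (((u : ZMod N).val : ℕ) : ZMod N) = ((1 : ℕ) : ZMod N) :=
      (ZMod.natCast_eq_natCast_iff _ _ N).mpr h2
    rw [ZMod.natCast_zmod_val, Nat.cast_one] at h3
    rw [Subgroup.mem_bot]
    exact Units.ext h3
  have e := MulAction.selfEquivOrbitsQuotientProd hfree
  have hU : Nat.card (ZMod N)ˣ = p ^ a * (p - 1) := by
    rw [Nat.card_eq_fintype_card, ZMod.card_units_eq_totient, hN,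
      Nat.totient_prime_pow hp (Nat.succ_pos a), Nat.succ_sub_one]
  rw [Nat.card_congr e, Nat.card_prod, hU]
  exact (dvd_mul_right _ _).mul_left _

/-- Splitting the solutions of `x ^ p ^ (a + 1) = 1`. -/
theorem card_pow_prime_pow_succ [Finite G] (p a : ℕ) (hp : p.Prime) :
    Nat.card {x : G // x ^ p ^ (a + 1) = 1} =
      Nat.card {x : G // x ^ p ^ a = 1} + Nat.card {x : G // orderOf x = p ^ (a + 1)} := by
  classical
  have hdisj : Disjoint (fun x : G => x ^ p ^ a = 1) (fun x : G => orderOf x = p ^ (a + 1)) := by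
    rw [disjoint_iff_inf_le]
    intro x ⟨h1, h2⟩
    have h3 : orderOf x ∣ p ^ a := orderOf_dvd_of_pow_eq_one h1
    rw [h2] at h3
    have := Nat.le_of_dvd (pow_pos hp.pos a) h3
    have h4 : p ^ a < p ^ (a + 1) := Nat.pow_lt_pow_right hp.one_lt (Nat.lt_succ_self a)
    exact absurd this (not_le.mpr h4)
  have hiff : ∀ x : G, x ^ p ^ (a + 1) = 1 ↔ (x ^ p ^ a = 1 ∨ orderOf x = p ^ (a + 1)) := by
    intro x
    constructor
    · intro h
      obtain ⟨j, hj, hj'⟩ := (Nat.dvd_prime_pow hp).mp (orderOf_dvd_of_pow_eq_one h)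
      rcases Nat.lt_or_ge j (a + 1) with hlt | hge
      · left
        rw [← orderOf_dvd_iff_pow_eq_one, hj']
        exact pow_dvd_pow p (by omega)
      · right
        rw [hj']
        congr 1
        omega
    · rintro (h | h)
      · rw [pow_succ, pow_mul, h, one_pow]
      · rw [← h]; exact pow_orderOf_eq_one x
  rw [Nat.card_congr (Equiv.subtypeEquivRight hiff),
    Nat.card_congr (subtypeOrEquiv _ _ hdisj), Nat.card_sum]

end Counting

section Frobenius

universe u

/-- For `w` in a finite group `C`, `w ^ p ^ g = 1` iff `w ^ p ^ c = 1` where `p ^ c` is the exact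
power of `p` dividing the order of `C` and `c ≤ g`. -/
theorem pow_prime_pow_eq_one_iff {C : Type*} [Group C] [Finite C] (p : ℕ) (hp : p.Prime)
    (g : ℕ) (hg : (Nat.card C).factorization p ≤ g) (w : C) :
    w ^ p ^ g = 1 ↔ w ^ p ^ (Nat.card C).factorization p = 1 := by
  constructor
  · intro h
    obtain ⟨j, -, hj⟩ := (Nat.dvd_prime_pow hp).mp (orderOf_dvd_of_pow_eq_one h)
    have h1 : p ^ j ∣ Nat.card C := hj ▸ orderOf_dvd_natCard w
    have h2 : j ≤ (Nat.card C).factorization p :=
      (hp.pow_dvd_iff_le_factorization Nat.card_pos.ne').mp h1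
    rw [← orderOf_dvd_iff_pow_eq_one, hj]
    exact pow_dvd_pow p h2
  · intro h
    obtain ⟨k, hk⟩ := pow_dvd_pow p hg
    rw [hk, pow_mul, h, one_pow]

/-- The central elements `u` with `u ^ d = 1` form a subgroup. -/
def centralTorsion (G : Type*) [Group G] (d : ℕ) : Subgroup G where
  carrier := {u | u ∈ Subgroup.center G ∧ u ^ d = 1}
  one_mem' := ⟨Subgroup.one_mem _, one_pow d⟩
  mul_mem' := by
    rintro x y ⟨hx, hx'⟩ ⟨hy, hy'⟩
    refine ⟨Subgroup.mul_mem _ hx hy, ?_⟩
    have hc : Commute x y := (Subgroup.mem_center_iff.mp hx y).symm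
    rw [hc.mul_pow, hx', hy', one_mul]
  inv_mem' := by
    rintro x ⟨hx, hx'⟩
    exact ⟨Subgroup.inv_mem _ hx, by rw [inv_pow, hx', inv_one]⟩

theorem not_dvd_card_centralTorsion (G : Type*) [Group G] [Finite G] (p d : ℕ) [Fact p.Prime]
    (hcop : Nat.Coprime p d) : ¬ p ∣ Nat.card (centralTorsion G d) := by
  intro h
  obtain ⟨x, hx⟩ := exists_prime_orderOf_dvd_card' p h
  have h1 : x.1 ^ d = 1 := x.2.2
  have h2 : orderOf x.1 ∣ d := orderOf_dvd_of_pow_eq_one h1
  rw [Subgroup.orderOf_coe, hx] at h2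
  have h3 := Nat.dvd_gcd (dvd_refl p) h2
  rw [Nat.Coprime.gcd_eq_one hcop] at h3
  exact (Fact.out : p.Prime).one_lt.ne' (Nat.dvd_one.mp h3)

/-- The number of `p`-elements of a finite group is divisible by the order of a Sylow
`p`-subgroup. -/
theorem prime_pow_dvd_card_pElements_aux (p : ℕ) (hp : p.Prime) :
    ∀ (n : ℕ) (G : Type u) [Group G] [Finite G], Nat.card G = n →
      p ^ (Nat.card G).factorization p ∣
        Nat.card {x : G // x ^ p ^ (Nat.card G).factorization p = 1} := by
  have : Fact p.Prime := ⟨hp⟩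
  intro n
  induction n using Nat.strong_induction_on with
  | _ n ih =>
    intro G _ _ hn
    classical
    have : Fintype G := Fintype.ofFinite G
    have hN0 : Nat.card G ≠ 0 := Nat.card_pos.ne'
    obtain ⟨g, hg⟩ : ∃ g, g = (Nat.card G).factorization p := ⟨_, rfl⟩
    obtain ⟨d, hd⟩ : ∃ d, d = Nat.card G / p ^ g := ⟨_, rfl⟩
    have hNeq : p ^ g * d = Nat.card G := by
      rw [hd, hg]; exact Nat.ordProj_mul_ordCompl_eq_self (Nat.card G) p
    have hcop : Nat.Coprime p d := by
      rw [hd, hg]; exact Nat.coprime_ordCompl hp hN0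
    have hcop' : Nat.Coprime d (p ^ g) := (Nat.Coprime.pow_left g hcop).symm
    rw [← hg]
    -- the factorization formula
    have h1 := card_cf (G := G) d (p ^ g) hcop' (fun _ => True)
    have hall : Nat.card {x : G // x ^ (d * p ^ g) = 1 ∧ True} = Nat.card G := by
      apply Nat.card_congr (Equiv.subtypeUnivEquiv _)
      intro x
      refine ⟨?_, trivial⟩
      rw [mul_comm, hNeq]; exact pow_card_eq_one'
    rw [hall, ← Finset.sum_filter_add_sum_filter_not _ (fun u : G => u ∈ Subgroup.center G)] at h1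
    -- central part
    have hcentral : ∑ u ∈ (Finset.univ.filter (fun u : G => u ^ d = 1 ∧ True)).filter
        (fun u : G => u ∈ Subgroup.center G), centCount (p ^ g) u =
        Nat.card (centralTorsion G d) * Nat.card {x : G // x ^ p ^ g = 1} := by
      have hconst : ∀ u ∈ (Finset.univ.filter (fun u : G => u ^ d = 1 ∧ True)).filter
          (fun u : G => u ∈ Subgroup.center G),
          centCount (p ^ g) u = Nat.card {x : G // x ^ p ^ g = 1} := by
        intro u hu
        have huc : u ∈ Subgroup.center G := (Finset.mem_filter.mp hu).2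
        apply Nat.card_congr
        apply Equiv.subtypeEquivRight
        intro w
        exact ⟨fun h => h.1, fun h => ⟨h, (Subgroup.mem_center_iff.mp huc w)⟩⟩
      rw [Finset.sum_congr rfl hconst, Finset.sum_const, smul_eq_mul]
      congr 1
      rw [Nat.card_eq_fintype_card]
      rw [← Finset.card_univ (α := centralTorsion G d)]
      symm
      apply Finset.card_bij (fun (x : centralTorsion G d) _ => x.1)
      · intro x _
        simp only [Finset.mem_filter, Finset.mem_univ, true_and, and_true]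
        exact ⟨x.2.2, x.2.1⟩
      · intro x _ y _ hxy
        exact Subtype.ext hxy
      · intro u hu
        simp only [Finset.mem_filter, Finset.mem_univ, true_and, and_true] at hu
        exact ⟨⟨u, hu.2, hu.1⟩, Finset.mem_univ _, rfl⟩
    -- non-central part
    have hnoncentral : p ^ g ∣ ∑ u ∈ (Finset.univ.filter (fun u : G => u ^ d = 1 ∧ True)).filter
        (fun u : G => ¬ u ∈ Subgroup.center G), centCount (p ^ g) u := by
      rw [Finset.filter_filter]
      apply dvd_sum_of_conj_invariant
      · rintro x u ⟨⟨hu, -⟩, hu'⟩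
        refine ⟨⟨by rw [conj_pow, hu]; group, trivial⟩, ?_⟩
        intro hcu
        apply hu'
        have := (inferInstance : (Subgroup.center G).Normal).conj_mem _ hcu x⁻¹
        simpa [mul_assoc] using this
      · intro x u
        exact centCount_conj _ x u
      · rintro u ⟨-, hu'⟩
        have hmul := card_centralizer_mul_ncard_conj_orbit u
        have hCne : Subgroup.centralizer ({u} : Set G) ≠ ⊤ := by
          intro h
          rw [Subgroup.centralizer_eq_top_iff_subset] at h
          exact hu' (h rfl)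
        have hClt : Nat.card (Subgroup.centralizer ({u} : Set G)) < n := by
          rw [← hn]
          refine lt_of_le_of_ne (Subgroup.card_le_card_group _) ?_
          intro h
          exact hCne (Subgroup.eq_top_of_card_eq _ h)
        have hIH := ih _ hClt (Subgroup.centralizer ({u} : Set G)) rfl
        have hC0 : Nat.card (Subgroup.centralizer ({u} : Set G)) ≠ 0 := Nat.card_pos.ne'
        have hcg : (Nat.card (Subgroup.centralizer ({u} : Set G))).factorization p ≤ g := by
          rw [hg]
          apply (hp.pow_dvd_iff_le_factorization hN0).mp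
          exact (Nat.ordProj_dvd _ p).trans (Subgroup.card_subgroup_dvd_card _)
        have hcount : centCount (p ^ g) u = Nat.card {w : Subgroup.centralizer ({u} : Set G) //
            w ^ p ^ (Nat.card (Subgroup.centralizer ({u} : Set G))).factorization p = 1} := by
          rw [centCount_eq_card_centralizer]
          exact Nat.card_congr (Equiv.subtypeEquivRight
            (fun w => pow_prime_pow_eq_one_iff p hp g hcg w))
        rw [hcount]
        obtain ⟨F', hF'⟩ := hIH
        rw [hF']
        obtain ⟨c, hc⟩ : ∃ c, c = (Nat.card (Subgroup.centralizer ({u} : Set G))).factorization p :=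
          ⟨_, rfl⟩
        rw [← hc]
        obtain ⟨m, hm⟩ : ∃ m, m = Nat.card (Subgroup.centralizer ({u} : Set G)) / p ^ c := ⟨_, rfl⟩
        have hCeq : p ^ c * m = Nat.card (Subgroup.centralizer ({u} : Set G)) := by
          rw [hm, hc]; exact Nat.ordProj_mul_ordCompl_eq_self _ p
        have hcopm : Nat.Coprime (p ^ g) m := by
          apply Nat.Coprime.pow_left
          rw [hm, hc]; exact Nat.coprime_ordCompl hp hC0
        have h5 : p ^ g ∣ m * (p ^ c * (MulAction.orbit (ConjAct G) u).ncard) := by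
          have : m * (p ^ c * (MulAction.orbit (ConjAct G) u).ncard) = Nat.card G := by
            rw [← hmul, ← hCeq]; ring
          rw [this, ← hNeq]
          exact dvd_mul_right _ _
        have h6 : p ^ g ∣ p ^ c * (MulAction.orbit (ConjAct G) u).ncard :=
          hcopm.dvd_of_dvd_mul_left h5
        calc p ^ g ∣ p ^ c * (MulAction.orbit (ConjAct G) u).ncard := h6
          _ ∣ (MulAction.orbit (ConjAct G) u).ncard * (p ^ c * F') :=
            Dvd.intro F' (by ring)
    rw [hcentral] at h1
    have h7 : p ^ g ∣ Nat.card (centralTorsion G d) * Nat.card {x : G // x ^ p ^ g = 1} := by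
      have h8 : p ^ g ∣ Nat.card G := by rw [← hNeq]; exact dvd_mul_right _ _
      rw [h1] at h8
      exact (Nat.dvd_add_left hnoncentral).mp h8
    have hcopz : Nat.Coprime (p ^ g) (Nat.card (centralTorsion G d)) := by
      apply Nat.Coprime.pow_left
      exact (Nat.Prime.coprime_iff_not_dvd hp).mpr (not_dvd_card_centralTorsion G p d hcop)
    exact hcopz.dvd_of_dvd_mul_left h7

/-- Frobenius for prime powers: `gcd(p^a, |G|)` divides `#{x : x^(p^a) = 1}`. -/
theorem gcd_prime_pow_dvd_card (p : ℕ) (hp : p.Prime) (G : Type u) [Group G] [Finite G] (a : ℕ) :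
    Nat.gcd (p ^ a) (Nat.card G) ∣ Nat.card {x : G // x ^ p ^ a = 1} := by
  obtain ⟨g, hg⟩ : ∃ g, g = (Nat.card G).factorization p := ⟨_, rfl⟩
  have hN0 : Nat.card G ≠ 0 := Nat.card_pos.ne'
  have hbase := prime_pow_dvd_card_pElements_aux p hp _ G rfl
  rw [← hg] at hbase
  have hdown : ∀ k, k ≤ g → p ^ (g - k) ∣ Nat.card {x : G // x ^ p ^ (g - k) = 1} := by
    intro k
    induction k with
    | zero => intro _; simpa using hbase
    | succ k ih =>
      intro hk
      have h1 := ih (by omega)
      have h2 : g - k = (g - (k + 1)) + 1 := by omega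
      rw [h2, card_pow_prime_pow_succ p _ hp] at h1
      have h3 := pow_dvd_card_orderOf_eq (G := G) p (g - (k + 1)) hp
      have h4 : p ^ (g - (k + 1)) ∣ p ^ (g - (k + 1) + 1) := pow_dvd_pow p (Nat.le_succ _)
      exact (Nat.dvd_add_left h3).mp (h4.trans h1)
  rcases Nat.lt_or_ge a g with hlt | hge
  · have h1 := hdown (g - a) (by omega)
    have h2 : g - (g - a) = a := by omega
    rw [h2] at h1
    exact (Nat.gcd_dvd_left _ _).trans h1
  · have h1 : Nat.gcd (p ^ a) (Nat.card G) ∣ p ^ g := by
      obtain ⟨j, -, hj⟩ := (Nat.dvd_prime_pow hp).mp (Nat.gcd_dvd_left (p ^ a) (Nat.card G))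
      rw [hj]
      apply pow_dvd_pow
      rw [hg]
      exact (hp.pow_dvd_iff_le_factorization hN0).mp (hj ▸ Nat.gcd_dvd_right _ _)
    have h2 : Nat.card {x : G // x ^ p ^ a = 1} = Nat.card {x : G // x ^ p ^ g = 1} :=
      Nat.card_congr (Equiv.subtypeEquivRight (fun w => by
        rw [hg]; exact pow_prime_pow_eq_one_iff p hp a (hg ▸ hge) w))
    rw [h2]
    exact h1.trans hbase

/-- Class-sum step: if Frobenius holds for exponent `b` in all centralizers, then for every
conjugation-invariant set `T` of elements, `k ∣ ∑_{u ∈ T} #{w ∈ C(u) : w^b = 1}` whenever `k ∣ b`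
and `k ∣ |G|`. -/
theorem dvd_sum_centCount (b : ℕ)
    (hb : ∀ (H : Type u) [Group H] [Finite H],
      Nat.gcd b (Nat.card H) ∣ Nat.card {x : H // x ^ b = 1})
    (G : Type u) [Group G] [Fintype G] (T : G → Prop) [DecidablePred T]
    (hT : ∀ g y : G, T y → T (g * y * g⁻¹)) :
    Nat.gcd b (Nat.card G) ∣ ∑ u ∈ Finset.univ.filter T, centCount b u := by
  apply dvd_sum_of_conj_invariant T hT
  · intro x u; exact centCount_conj _ x u
  · intro u _
    have hmul := card_centralizer_mul_ncard_conj_orbit u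
    rw [centCount_eq_card_centralizer]
    have hIH := hb (Subgroup.centralizer ({u} : Set G))
    rw [← hmul]
    calc Nat.gcd b (Nat.card (Subgroup.centralizer ({u} : Set G)) *
          (MulAction.orbit (ConjAct G) u).ncard)
        ∣ Nat.gcd b (Nat.card (Subgroup.centralizer ({u} : Set G))) *
          Nat.gcd b (MulAction.orbit (ConjAct G) u).ncard := Nat.gcd_mul_right_dvd_mul_gcd _ _ _
      _ ∣ Nat.card {w : Subgroup.centralizer ({u} : Set G) // w ^ b = 1} *
          (MulAction.orbit (ConjAct G) u).ncard := mul_dvd_mul hIH (Nat.gcd_dvd_right _ _)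
      _ = (MulAction.orbit (ConjAct G) u).ncard *
          Nat.card {w : Subgroup.centralizer ({u} : Set G) // w ^ b = 1} := mul_comm _ _

/-- Reduction step for Frobenius' theorem. -/
theorem gcd_dvd_card_mul_of_coprime (a b : ℕ) (hab : Nat.Coprime a b)
    (hb : ∀ (H : Type u) [Group H] [Finite H],
      Nat.gcd b (Nat.card H) ∣ Nat.card {x : H // x ^ b = 1})
    (G : Type u) [Group G] [Finite G] :
    Nat.gcd b (Nat.card G) ∣ Nat.card {x : G // x ^ (a * b) = 1} := by
  classical
  have : Fintype G := Fintype.ofFinite G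
  have h1 := card_cf (G := G) a b hab (fun _ => True)
  have h2 : Nat.card {x : G // x ^ (a * b) = 1} = Nat.card {x : G // x ^ (a * b) = 1 ∧ True} :=
    Nat.card_congr (Equiv.subtypeEquivRight (fun x => ⟨fun h => ⟨h, trivial⟩, fun h => h.1⟩))
  rw [h2, h1]
  apply dvd_sum_centCount b hb G
  rintro x u ⟨hu, -⟩
  exact ⟨by rw [conj_pow, hu]; group, trivial⟩

/-- **Frobenius' theorem**: `gcd(n, |G|)` divides the number of solutions of `x ^ n = 1`. -/
theorem gcd_dvd_card_pow_eq_one (n : ℕ) : ∀ (G : Type u) [Group G] [Finite G],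
    Nat.gcd n (Nat.card G) ∣ Nat.card {x : G // x ^ n = 1} := by
  induction n using Nat.recOnPosPrimePosCoprime with
  | prime_pow p a hp ha =>
    intro G _ _
    exact gcd_prime_pow_dvd_card p hp G a
  | zero =>
    intro G _ _
    rw [Nat.gcd_zero_left]
    have : Nat.card {x : G // x ^ 0 = 1} = Nat.card G :=
      Nat.card_congr (Equiv.subtypeUnivEquiv (fun x => pow_zero x))
    rw [this]
  | one =>
    intro G _ _
    rw [Nat.gcd_one_left]
    exact one_dvd _
  | coprime a b ha hb hab iha ihb =>
    intro G _ _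
    rw [Nat.Coprime.mul_gcd hab]
    have h1 : Nat.gcd b (Nat.card G) ∣ Nat.card {x : G // x ^ (a * b) = 1} :=
      gcd_dvd_card_mul_of_coprime a b hab ihb G
    have h2 : Nat.gcd a (Nat.card G) ∣ Nat.card {x : G // x ^ (a * b) = 1} := by
      have := gcd_dvd_card_mul_of_coprime b a hab.symm iha G
      rwa [mul_comm b a] at this
    have hcop : Nat.Coprime (Nat.gcd a (Nat.card G)) (Nat.gcd b (Nat.card G)) :=
      Nat.Coprime.coprime_dvd_left (Nat.gcd_dvd_left _ _)
        (Nat.Coprime.coprime_dvd_right (Nat.gcd_dvd_left _ _) hab)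
    exact hcop.mul_dvd_of_dvd_of_dvd h2 h1

end Frobenius

end Cfsg.Agent.Helper66
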