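import Mathlib
import Cfsg.Prelude.Def_GeometricClasses
import Cfsg.Prelude.Def_Classical
import Cfsg.Agent.Helper13.NPDefs
import Cfsg.Agent.Helper96.OHDefs
import Cfsg.Agent.Helper45.Spinor
import Cfsg.Agent.Helper43.UniIso
import Cfsg.Agent.Helper19.NPSPIN4b

set_option autoImplicit false

/-!
# CALL NP (helper13) piece SPINNEG (helper66, double): the sign of an isometry `g` with
`g * g = -1` on a level set `{Q = c}`, `c ≠ 0`.
-/

namespace Cfsg.Agent.Helper66.NP5989

open Module Cfsg Cfsg.Geo Cfsg.Agent.Helper13.NP Cfsg.Agent.Helper96.OH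
open Cfsg.Agent.Helper43.UniIso (UnipH kdim)
open scoped MatrixGroups

universe u

section A

variable {F : Type u} [Field F] [Fintype F]

/-- SPINNEG. -/
theorem np_spin_neg {ι : Type} [Fintype ι] [DecidableEq ι] (Q : (ι → F) → F) (hQ0 : Q 0 = 0)
    (h2 : (2 : F) ≠ 0) (g : ↥(Cfsg.isometryGroup F Q))
    (hg : ((g : GL ι F) : Matrix ι ι F) * ((g : GL ι F) : Matrix ι ι F) = -1) (c : F)
    (hc : c ≠ 0) :
    4 ∣ Fintype.card (Cfsg.Agent.Helper45.Lev Q c) ∧
      Cfsg.Agent.Helper45.spin Q c g =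
        (-1) ^ (Fintype.card (Cfsg.Agent.Helper45.Lev Q c) / 4) := by
  have hval : ∀ x : Cfsg.Agent.Helper45.Lev Q c,
      (Cfsg.Agent.Helper45.levPerm Q c g (Cfsg.Agent.Helper45.levPerm Q c g x)).val = -x.val := by
    intro x
    rw [Cfsg.Agent.Helper45.levPerm_val, Cfsg.Agent.Helper45.levPerm_val]
    show Matrix.mulVec ((g : GL ι F) : Matrix ι ι F)
      (Matrix.mulVec ((g : GL ι F) : Matrix ι ι F) x.val) = -x.val
    rw [Matrix.mulVec_mulVec, hg, Matrix.neg_mulVec, Matrix.one_mulVec]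
  have hf : ∀ x : Cfsg.Agent.Helper45.Lev Q c,
      Cfsg.Agent.Helper45.levPerm Q c g (Cfsg.Agent.Helper45.levPerm Q c g x) ≠ x := by
    intro x hx
    have h1 : -x.val = x.val := by rw [← hval x, hx]
    have h3 : x.val = 0 := by
      funext j
      have h4 : -(x.val j) = x.val j := congrFun h1 j
      have h5 : (2 : F) * x.val j = 0 := by linear_combination -h4
      exact (mul_eq_zero.mp h5).resolve_left h2
    have h6 := x.prop
    rw [h3, hQ0] at h6
    exact hc h6.symm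
  have h4 : (Cfsg.Agent.Helper45.levPerm Q c g) ^ 4 = 1 := by
    ext x
    apply Cfsg.Agent.Helper45.Lev.ext'
    show (Cfsg.Agent.Helper45.levPerm Q c g (Cfsg.Agent.Helper45.levPerm Q c g
      (Cfsg.Agent.Helper45.levPerm Q c g (Cfsg.Agent.Helper45.levPerm Q c g x)))).val = x.val
    rw [hval, hval, neg_neg]
  obtain ⟨hd, hs⟩ := Cfsg.Agent.Helper19.NP5989.np_sign_four
    (Cfsg.Agent.Helper45.levPerm Q c g) h4 hf
  exact ⟨hd, hs⟩

end A

end Cfsg.Agent.Helper66.NP5989
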