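import Cfsg.Agent.Helper95.O12Row
import Cfsg.Agent.Helper30.OZA2P
import Cfsg.Agent.Helper66.SkewLine

/-!
# Piece F5A of CALL S5850 (helper66): the `K`-line of skew-adjoint `K`-linear maps
-/

set_option autoImplicit false
open Cfsg Cfsg.Geo Matrix

namespace Cfsg.Agent.Helper66

variable {F : Type*} [Field F] [Fintype F]

theorem o10_skew_line (h2 : (2 : F) ≠ 0) (Q : (Fin 10 → F) → F)
    (hQ : IsNondegenerateQuadraticForm Q) (K : Subalgebra F (Matrix (Fin 10) (Fin 10) F))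
    (hK : IsFieldSubalgebra 5 K) (hsa : IsSelfAdjointFor (QuadraticMap.polar Q) K) :
    ∃ a : Matrix (Fin 10) (Fin 10) F, a ≠ 0 ∧ (∀ k ∈ K, k * a = a * k) ∧
      (∀ u v : Fin 10 → F, QuadraticMap.polar Q (a *ᵥ u) v = - QuadraticMap.polar Q u (a *ᵥ v)) ∧
      a * a ∈ K ∧
      ∀ b : Matrix (Fin 10) (Fin 10) F, (∀ k ∈ K, k * b = b * k) →
        (∀ u v : Fin 10 → F, QuadraticMap.polar Q (b *ᵥ u) v = - QuadraticMap.polar Q u (b *ᵥ v)) →
        ∃ y ∈ K, b = y * a :=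
  skew_line_general h2 (by norm_num) (QuadraticMap.polar Q)
    ⟨hQ.polar_bilinear, fun u v => QuadraticMap.polar_comm Q u v, hQ.nondegenerate⟩
    (by rw [Fintype.card_fin]) K hK hsa

end Cfsg.Agent.Helper66
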