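import Cfsg.Agent.Helper95.O12Row
import Cfsg.Agent.Helper30.OZA2P
import Cfsg.Agent.Helper66.CliffJ

/-!
# Piece F5EA of CALL S5850 (helper66): the Clifford element `j` (characteristic 2)
-/

set_option autoImplicit false
open Cfsg Cfsg.Geo Matrix

namespace Cfsg.Agent.Helper66

variable {F : Type*} [Field F] [Fintype F]

theorem o10_cliff_j (h2 : (2 : F) = 0) (Q : (Fin 10 → F) → F)
    (hQ : IsNondegenerateQuadraticForm Q) (K : Subalgebra F (Matrix (Fin 10) (Fin 10) F))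
    (hK : IsFieldSubalgebra 5 K) (hsa : IsSelfAdjointFor (QuadraticMap.polar Q) K)
    (hK0 : ∀ k ∈ K, ∀ v : Fin 10 → F, QuadraticMap.polar Q (k *ᵥ v) v = 0) :
    ∃ j : Matrix (Fin 10) (Fin 10) F, (∀ k ∈ K, k * j = j * k) ∧
      (∀ k ∈ K, ∀ w : Fin 10 → F, QuadraticMap.polar Q ((k * k * j) *ᵥ w) w = Q (k *ᵥ w)) ∧
      ∀ a : Matrix (Fin 10) (Fin 10) F, (∀ k ∈ K, k * a = a * k) →
        (∀ k ∈ K, ∀ w : Fin 10 → F, QuadraticMap.polar Q ((k * a) *ᵥ w) w = 0) → a ∈ K :=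
  cliff_j_general h2 (by norm_num) Q hQ (by rw [Fintype.card_fin]) K hK hsa hK0

end Cfsg.Agent.Helper66
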