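import Mathlib
import Cfsg.Prelude.Def_GeometricClasses
import Cfsg.Agent.Helper66.O12N2

/-!
# Piece N3 of CALL S5874 (helper95)

`o12_notOmega_field`: `Ω(Q)` does not normalise a field subalgebra `K` of degree `r ≥ 2` when
`2 r < n`.  An Eichler element `E(u, v)` with `v ∉ K u` fixes a subspace of codimension 2, hence
centralises `K` (as `n ≥ 5`), and then `K u ⊆ ⟨u, v⟩` gives `v ∈ K u`.
-/

set_option autoImplicit false
open Cfsg Cfsg.Geo Matrix

namespace Cfsg.Agent.Helper66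

variable {ι : Type} [Fintype ι] [DecidableEq ι] {F : Type*} [Field F]

theorem o12_inf_ker {V : Type*} [AddCommGroup V] [Module F V] [FiniteDimensional F V]
    (A : Submodule F V) (φ : V →ₗ[F] F) :
    Module.finrank F A ≤ Module.finrank F ↥(A ⊓ LinearMap.ker φ) + 1 := by
  have h1 := Submodule.finrank_sup_add_finrank_inf_eq A (LinearMap.ker φ)
  have h2 := LinearMap.finrank_range_add_finrank_ker φ
  have h3 : Module.finrank F (LinearMap.range φ) ≤ 1 := by
    have := Submodule.finrank_le (LinearMap.range φ)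
    rwa [Module.finrank_self] at this
  have h4 : Module.finrank F ↥(A ⊔ LinearMap.ker φ) ≤ Module.finrank F V := Submodule.finrank_le _
  omega

/-- **Piece N3 of CALL S5874.** -/
theorem o12_notOmega_field [Fintype F] (Q : (ι → F) → F) (hQ : IsNondegenerateQuadraticForm Q)
    {r : ℕ} (hr : 2 ≤ r) (hn : 2 * r < Fintype.card ι)
    (K : Subalgebra F (Matrix ι ι F)) (hK : IsFieldSubalgebra r K) :
    ¬ omegaGL Q ≤ subalgebraNormalizer K := by
  classical
  intro hle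
  have hn5 : 5 ≤ Fintype.card ι := by omega
  have : Nonempty ι := Fintype.card_pos_iff.mp (by omega)
  have hQnd := Helper98.op_qf_nondeg Q hQ
  have hcomm : ∀ x y, QuadraticMap.polar Q x y = QuadraticMap.polar Q y x :=
    fun x y => QuadraticMap.polar_comm Q x y
  -- non-zero elements of `K` are injective
  have hKinj : ∀ k ∈ K, k ≠ 0 → ∀ w : ι → F, k *ᵥ w = 0 → w = 0 := by
    intro k hk hk0 w hw
    obtain ⟨y, hy, hky⟩ := hK.inv k hk hk0
    have h1 : y * k = 1 := by rw [← hK.comm k hk y hy]; exact hky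
    have h2 : y *ᵥ (k *ᵥ w) = w := by rw [Matrix.mulVec_mulVec, h1, Matrix.one_mulVec]
    rw [hw, Matrix.mulVec_zero] at h2
    exact h2.symm
  -- a singular vector
  obtain ⟨u, -, hu0, hQu⟩ := Helper45.exists_sing_in (Helper98.op_qf Q hQ) ⊤ (by
    rw [finrank_top, Module.finrank_fintype_fun_eq_card]; omega)
  have hQu' : Q u = 0 := hQu
  -- the subspace `K u`
  obtain ⟨ev, hev⟩ : ∃ ev : Matrix ι ι F →ₗ[F] (ι → F), ∀ k, ev k = k *ᵥ u :=
    ⟨{ toFun := fun k => k *ᵥ u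
       map_add' := fun a b => Matrix.add_mulVec a b u
       map_smul' := fun c a => Matrix.smul_mulVec c a u }, fun k => rfl⟩
  obtain ⟨Ku, hKudef⟩ : ∃ Ku : Submodule F (ι → F),
      Ku = (Subalgebra.toSubmodule K).map ev := ⟨_, rfl⟩
  have hKumem : ∀ k ∈ K, k *ᵥ u ∈ Ku := by
    intro k hk
    rw [hKudef, ← hev]
    exact Submodule.mem_map_of_mem hk
  have hKudim : Module.finrank F Ku ≤ r := by
    rw [hKudef, ← hK.finrank_eq, ← Subalgebra.finrank_toSubmodule]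
    exact Submodule.finrank_map_le ev _
  -- a vector `v ⟂ u` outside `K u`
  have hperpdim : Fintype.card ι ≤
      Module.finrank F (Helper45.perpSub (Helper98.op_qf Q hQ) u) + 1 := by
    have h1 := Helper45.finrank_inf_perpSub_ge (Helper98.op_qf Q hQ) ⊤ u
    rwa [top_inf_eq, finrank_top, Module.finrank_fintype_fun_eq_card] at h1
  obtain ⟨v, hvperp, hvKu⟩ : ∃ v ∈ Helper45.perpSub (Helper98.op_qf Q hQ) u, v ∉ Ku := by
    by_contra hcon
    push Not at hcon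
    have h1 : Helper45.perpSub (Helper98.op_qf Q hQ) u ≤ Ku := hcon
    have h2 := Submodule.finrank_mono h1
    omega
  have huv : QuadraticMap.polar Q u v = 0 := (Helper45.mem_perpSub _ u v).1 hvperp
  obtain ⟨E, hEΩ, hE⟩ := o12_eichler Q hQ hn5 u v hQu' huv
  have hEN : ∀ k : Matrix ι ι F, k ∈ K ↔
      (E : Matrix ι ι F) * k * ((E⁻¹ : GL ι F) : Matrix ι ι F) ∈ K := hle hEΩ
  have hEfix : ∀ x, QuadraticMap.polar Q u x = 0 → QuadraticMap.polar Q v x = 0 →
      (E : Matrix ι ι F) *ᵥ x = x := by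
    intro x h1 h2
    rw [hE, h1, h2, mul_zero, sub_zero, zero_smul, zero_smul, add_zero, sub_zero]
  -- `E` centralises `K`
  have hcent : ∀ k ∈ K, (E : Matrix ι ι F) * k = k * (E : Matrix ι ι F) := by
    intro k hk
    obtain ⟨k', hk'def⟩ : ∃ k', k' =
        (E : Matrix ι ι F) * k * ((E⁻¹ : GL ι F) : Matrix ι ι F) := ⟨_, rfl⟩
    have hk' : k' ∈ K := by rw [hk'def]; exact (hEN k).1 hk
    have hk'E : k' * (E : Matrix ι ι F) = (E : Matrix ι ι F) * k := by
      rw [hk'def, Matrix.mul_assoc, ← Units.val_mul, inv_mul_cancel, Units.val_one,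
        Matrix.mul_one]
    have hx : ∃ x : ι → F, x ≠ 0 ∧ QuadraticMap.polar Q u x = 0 ∧
        QuadraticMap.polar Q v x = 0 ∧ QuadraticMap.polar Q u (k *ᵥ x) = 0 ∧
        QuadraticMap.polar Q v (k *ᵥ x) = 0 := by
      obtain ⟨φu, hφu⟩ : ∃ φ : (ι → F) →ₗ[F] F, φ =
          QuadraticMap.polarBilin (Helper98.op_qf Q hQ) u := ⟨_, rfl⟩
      obtain ⟨φv, hφv⟩ : ∃ φ : (ι → F) →ₗ[F] F, φ =
          QuadraticMap.polarBilin (Helper98.op_qf Q hQ) v := ⟨_, rfl⟩
      have a1 := o12_inf_ker (⊤ : Submodule F (ι → F)) φu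
      have a2 := o12_inf_ker (⊤ ⊓ LinearMap.ker φu) φv
      have a3 := o12_inf_ker (⊤ ⊓ LinearMap.ker φu ⊓ LinearMap.ker φv)
        (φu.comp (Matrix.toLin' k))
      have a4 := o12_inf_ker (⊤ ⊓ LinearMap.ker φu ⊓ LinearMap.ker φv ⊓
        LinearMap.ker (φu.comp (Matrix.toLin' k))) (φv.comp (Matrix.toLin' k))
      rw [finrank_top, Module.finrank_fintype_fun_eq_card] at a1
      have hpos : 0 < Module.finrank F ↥(⊤ ⊓ LinearMap.ker φu ⊓ LinearMap.ker φv ⊓
          LinearMap.ker (φu.comp (Matrix.toLin' k)) ⊓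
          LinearMap.ker (φv.comp (Matrix.toLin' k))) := by omega
      have hne : (⊤ ⊓ LinearMap.ker φu ⊓ LinearMap.ker φv ⊓
          LinearMap.ker (φu.comp (Matrix.toLin' k)) ⊓
          LinearMap.ker (φv.comp (Matrix.toLin' k)) : Submodule F (ι → F)) ≠ ⊥ := by
        intro h
        rw [h, finrank_bot] at hpos
        exact lt_irrefl _ hpos
      obtain ⟨x, hx, hx0⟩ := (Submodule.ne_bot_iff _).mp hne
      obtain ⟨⟨⟨⟨-, h1⟩, h2⟩, h3⟩, h4⟩ := hx
      have h1' : φu x = 0 := h1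
      have h2' : φv x = 0 := h2
      have h3' : φu (k *ᵥ x) = 0 := h3
      have h4' : φv (k *ᵥ x) = 0 := h4
      rw [hφu] at h1' h3'
      rw [hφv] at h2' h4'
      exact ⟨x, hx0, h1', h2', h3', h4'⟩
    obtain ⟨x, hx0, h1, h2, h3, h4⟩ := hx
    have e1 := hEfix x h1 h2
    have e2 := hEfix (k *ᵥ x) h3 h4
    have e3 : k *ᵥ x = k' *ᵥ x := by
      calc k *ᵥ x = (E : Matrix ι ι F) *ᵥ (k *ᵥ x) := e2.symm
        _ = ((E : Matrix ι ι F) * k) *ᵥ x := by rw [Matrix.mulVec_mulVec]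
        _ = (k' * (E : Matrix ι ι F)) *ᵥ x := by rw [hk'E]
        _ = k' *ᵥ ((E : Matrix ι ι F) *ᵥ x) := by rw [Matrix.mulVec_mulVec]
        _ = k' *ᵥ x := by rw [e1]
    have e4 : k = k' := by
      by_contra hne
      have h5 : (k - k') *ᵥ x = 0 := by rw [Matrix.sub_mulVec, e3, sub_self]
      exact hx0 (hKinj (k - k') (K.sub_mem hk hk') (sub_ne_zero.mpr hne) x h5)
    rw [← hk'E, ← e4]
  -- a non-scalar element of `K`
  obtain ⟨k₁, hk₁, hk₁ns⟩ : ∃ k₁ ∈ K, ∀ a : F, k₁ ≠ a • (1 : Matrix ι ι F) := by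
    by_contra hcon
    push Not at hcon
    have h1 : Subalgebra.toSubmodule K ≤ Submodule.span F {(1 : Matrix ι ι F)} := by
      intro k hk
      obtain ⟨a, ha⟩ := hcon k hk
      rw [ha]
      exact Submodule.smul_mem _ a (Submodule.subset_span rfl)
    have h2 := Submodule.finrank_mono h1
    rw [finrank_span_singleton (one_ne_zero), Subalgebra.finrank_toSubmodule,
      hK.finrank_eq] at h2
    omega
  -- `x₀ ⟂ u` with `polar v x₀ ≠ 0`
  have hvspan : v ∉ Submodule.span F {u} := by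
    intro h
    obtain ⟨c, rfl⟩ := Submodule.mem_span_singleton.mp h
    apply hvKu
    have h1 := hKumem (c • (1 : Matrix ι ι F)) (K.smul_mem (K.one_mem) c)
    rwa [Matrix.smul_mulVec, Matrix.one_mulVec] at h1
  obtain ⟨x₀, hx₀u, hx₀v⟩ := Helper45.exists_perp_of_notMem (Helper98.op_qf Q hQ) hQnd
    (Submodule.span F {u}) v hvspan
  have hux₀ : QuadraticMap.polar Q u x₀ = 0 := hx₀u u (Submodule.mem_span_singleton_self u)
  have hvx₀ : QuadraticMap.polar Q v x₀ ≠ 0 := by rw [hcomm]; exact hx₀v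
  have hEx₀ : (E : Matrix ι ι F) *ᵥ x₀ = x₀ + (QuadraticMap.polar Q v x₀) • u := by
    rw [hE, hux₀, mul_zero, sub_zero, zero_smul, sub_zero]
  have h1 : (E : Matrix ι ι F) *ᵥ (k₁ *ᵥ x₀) =
      k₁ *ᵥ x₀ + (QuadraticMap.polar Q v x₀) • (k₁ *ᵥ u) := by
    rw [Matrix.mulVec_mulVec, hcent k₁ hk₁, ← Matrix.mulVec_mulVec, hEx₀, Matrix.mulVec_add,
      Matrix.mulVec_smul]
  rw [hE] at h1
  obtain ⟨a, ha⟩ : ∃ a, a = QuadraticMap.polar Q v (k₁ *ᵥ x₀) -
      Q v * QuadraticMap.polar Q u (k₁ *ᵥ x₀) := ⟨_, rfl⟩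
  obtain ⟨b, hb⟩ : ∃ b, b = QuadraticMap.polar Q u (k₁ *ᵥ x₀) := ⟨_, rfl⟩
  obtain ⟨c, hc⟩ : ∃ c, c = QuadraticMap.polar Q v x₀ := ⟨_, rfl⟩
  rw [← ha, ← hb, ← hc] at h1
  rw [← hc] at hvx₀
  have h2 : c • (k₁ *ᵥ u) = a • u - b • v := by
    rw [add_sub_assoc] at h1
    exact (add_left_cancel h1).symm
  by_cases hb0 : b = 0
  · have h3 : (k₁ - (a / c) • (1 : Matrix ι ι F)) *ᵥ u = 0 := by
      rw [Matrix.sub_mulVec, Matrix.smul_mulVec, Matrix.one_mulVec]
      have h4 : k₁ *ᵥ u = (a / c) • u := by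
        have h5 : c • (k₁ *ᵥ u) = a • u := by rw [h2, hb0, zero_smul, sub_zero]
        calc k₁ *ᵥ u = c⁻¹ • (c • (k₁ *ᵥ u)) := by
              rw [smul_smul, inv_mul_cancel₀ hvx₀, one_smul]
          _ = (a / c) • u := by rw [h5, smul_smul, div_eq_inv_mul]
      rw [h4, sub_self]
    exact hu0 (hKinj _ (K.sub_mem hk₁ (K.smul_mem K.one_mem _))
      (sub_ne_zero.mpr (hk₁ns _)) u h3)
  · apply hvKu
    have h3 : v = ((b⁻¹ * a) • (1 : Matrix ι ι F) - (b⁻¹ * c) • k₁) *ᵥ u := by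
      rw [Matrix.sub_mulVec, Matrix.smul_mulVec, Matrix.smul_mulVec, Matrix.one_mulVec,
        ← smul_smul, ← smul_smul, h2, ← smul_sub, sub_sub_cancel, smul_smul,
        inv_mul_cancel₀ hb0, one_smul]
    rw [h3]
    exact hKumem _ (K.sub_mem (K.smul_mem K.one_mem _) (K.smul_mem hk₁ _))

end Cfsg.Agent.Helper66
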