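import Mathlib
import Cfsg.Agent.Helper96.OHDefs
import Cfsg.Agent.Helper69.ODDefs
import Cfsg.Agent.Helper31.OHOPERP
import Cfsg.Agent.Helper33.ODDSSUM
import Cfsg.Agent.Helper33.ODDSLINE
import Cfsg.Agent.Helper84.ODDSISO1
import Cfsg.Agent.Helper14.OEEISO
import Cfsg.Agent.Helper80.TSR2TSB
import Cfsg.Agent.Helper96.OHEMB

set_option autoImplicit false
set_option linter.unusedSectionVars false
set_option linter.unusedVariables false

/-!
# CALL OD part 2 (helper69; row S5991) piece PMC2 (helper66, double): `E` with a radical of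
codimension `1`; nondegenerate `X₁`, `X₂` of the same dimension with
`2 dim (Xⱼ ⊓ E) = dim Xⱼ + 1` have the same discriminant class.
-/

namespace Cfsg.Agent.Helper66.OD59

open Module Polynomial Cfsg Cfsg.Geo
open Cfsg.Agent.Helper13.TIu Cfsg.Agent.Helper96.OH Cfsg.Agent.Helper69.OD
open scoped MatrixGroups

variable {ι : Type} [Fintype ι] [DecidableEq ι] {F : Type*} [Field F] (Q : (ι → F) → F)

/-- structure of `E`: values of `Q` and of the polar form on `f = t e + ρ`. -/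
theorem pmc2_E (hQ : IsNondegenerateQuadraticForm Q) (h2 : (2 : F) ≠ 0)
    (E : Submodule F (ι → F)) (e : ι → F) (he : e ∈ E)
    (f : ι → F) (hf : f ∈ E) (t : F) (ht : ∀ g ∈ E, QuadraticMap.polar Q (f - t • e) g = 0) :
    Q f = t * t * Q e ∧ ∀ g ∈ E, QuadraticMap.polar Q f g = t * QuadraticMap.polar Q e g := by
  have hρ : f - t • e ∈ E := E.sub_mem hf (E.smul_mem t he)
  have hfeq : (f - t • e) + t • e = f := by abel
  have hQρ : Q (f - t • e) = 0 := by
    have h' : pB Q hQ (f - t • e) (f - t • e) = 0 := ht _ hρ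
    rw [pB_self] at h'
    rcases mul_eq_zero.mp h' with h | h
    · exact absurd h h2
    · exact h
  constructor
  · have h1 := q_add Q (f - t • e) (t • e)
    rw [hfeq] at h1
    rw [h1, hQρ, hQ.smul, ht _ (E.smul_mem t he)]
    ring
  · intro g hg
    have h1 : pB Q hQ ((f - t • e) + t • e) g = pB Q hQ (f - t • e) g + t * pB Q hQ e g := by
      rw [map_add, LinearMap.add_apply, map_smul, LinearMap.smul_apply, smul_eq_mul]
    have h2' : pB Q hQ (f - t • e) g = 0 := ht g hg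
    rw [hfeq, h2', zero_add] at h1
    exact h1

/-- split off a nonsingular vector of `X ⊓ E`: the rest is of plus type. -/
theorem pmc2_reduce [Fintype F] (hQ : IsNondegenerateQuadraticForm Q) (h2 : (2 : F) ≠ 0)
    (E : Submodule F (ι → F)) (e : ι → F) (he : e ∈ E) (hQe : Q e ≠ 0)
    (hE : ∀ f ∈ E, ∃ t : F, ∀ g ∈ E, QuadraticMap.polar Q (f - t • e) g = 0)
    (X : Submodule F (ι → F)) (hX : ONd Q X)
    (hf : 2 * finrank F ↥(X ⊓ E) = finrank F X + 1) :
    ∃ P : Submodule F (ι → F), ONd Q P ∧ OPl Q P ∧ finrank F P + 1 = finrank F X ∧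
      (ODs Q X ↔ (IsSquare (2 * Q e) ↔ ODs Q P)) := by
  classical
  have hex : ∃ f ∈ X ⊓ E, Q f ≠ 0 := by
    by_contra hcon
    push_neg at hcon
    have := Cfsg.Agent.Helper80.TSR2.r2_ts_bound Q hQ X (X ⊓ E) hX inf_le_left hcon
    omega
  obtain ⟨f, hfXE, hQf⟩ := hex
  have hfX : f ∈ X := hfXE.1
  have hfE : f ∈ E := hfXE.2
  have hf0 : f ≠ 0 := by
    rintro rfl
    exact hQf (q_zero Q hQ)
  obtain ⟨t, ht⟩ := hE f hfE
  obtain ⟨hQft, hpolf⟩ := pmc2_E Q hQ h2 E e he f hfE t ht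
  have ht0 : t ≠ 0 := by
    rintro rfl
    apply hQf
    rw [hQft]
    ring
  have hspan : ONd Q (Submodule.span F {f}) :=
    Cfsg.Agent.Helper96.OHEmb.oemb_nd_span Q hQ h2 f hQf
  have hspanle : Submodule.span F {f} ≤ X := by
    rw [Submodule.span_singleton_le_iff_mem]
    exact hfX
  have hT : OPres Q (1 : Module.End F (ι → F)) := fun v => rfl
  have hmap1 : ∀ M : Submodule F (ι → F), M.map (1 : Module.End F (ι → F)) ≤ M := by
    intro M x hx
    obtain ⟨y, hy, rfl⟩ := hx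
    exact hy
  obtain ⟨P, hPX, -, hPnd, hinf, hsup, horth, hdim⟩ :=
    Cfsg.Agent.Helper31.OH5992.o_perp Q hQ 1 hT 1 one_pos (one_pow 1) X (Submodule.span F {f})
      hX hspan hspanle (hmap1 _) (hmap1 _)
  rw [finrank_span_singleton hf0] at hdim
  have hts : ∀ w ∈ P ⊓ E, Q w = 0 := by
    intro g hg
    obtain ⟨s, hs⟩ := hE g hg.2
    obtain ⟨hQgs, hpolg⟩ := pmc2_E Q hQ h2 E e he g hg.2 s hs
    have h0 : QuadraticMap.polar Q f g = 0 :=
      horth f (Submodule.mem_span_singleton_self f) g hg.1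
    have hee : QuadraticMap.polar Q e e = 2 * Q e := pB_self Q hQ e
    rw [hpolf g hg.2, QuadraticMap.polar_comm, hpolg e he, hee] at h0
    have hs0 : s = 0 := by
      rcases mul_eq_zero.mp h0 with h | h
      · exact absurd h ht0
      · rcases mul_eq_zero.mp h with h | h
        · exact h
        · rcases mul_eq_zero.mp h with h | h
          · exact absurd h h2
          · exact absurd h hQe
    rw [hQgs, hs0]
    ring
  have hle : X ⊓ E ≤ Submodule.span F {f} ⊔ (P ⊓ E) := by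
    intro g hg
    have hgX : g ∈ Submodule.span F {f} ⊔ P := by
      rw [hsup]
      exact hg.1
    obtain ⟨u, hu, p, hp, rfl⟩ := Submodule.mem_sup.mp hgX
    have huE : u ∈ E := by
      obtain ⟨c, rfl⟩ := Submodule.mem_span_singleton.mp hu
      exact E.smul_mem c hfE
    have hpE : p ∈ E := by
      have := E.sub_mem hg.2 huE
      rwa [add_sub_cancel_left] at this
    exact Submodule.add_mem _ (Submodule.mem_sup_left hu)
      (Submodule.mem_sup_right (Submodule.mem_inf.mpr ⟨hp, hpE⟩))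
  have hd1 := Submodule.finrank_mono hle
  have hd2 := Submodule.finrank_add_le_finrank_add_finrank (Submodule.span F {f}) (P ⊓ E)
  rw [finrank_span_singleton hf0] at hd2
  have hd3 := Cfsg.Agent.Helper80.TSR2.r2_ts_bound Q hQ P (P ⊓ E) hPnd inf_le_left hts
  have hpl : OPl Q P := ⟨P ⊓ E, inf_le_left, hts, by omega⟩
  refine ⟨P, hPnd, hpl, by omega, ?_⟩
  have hsum := Cfsg.Agent.Helper33.OD59.ods_sup Q hQ (Submodule.span F {f}) P hspan hPnd horth
  rw [hsup] at hsum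
  have hsq : IsSquare (2 * (t * t * Q e)) ↔ IsSquare (2 * Q e) := by
    constructor
    · rintro ⟨r, hr⟩
      refine ⟨r / t, ?_⟩
      field_simp
      linear_combination hr
    · rintro ⟨r, hr⟩
      exact ⟨t * r, by linear_combination (t * t) * hr⟩
  rw [hsum, Cfsg.Agent.Helper33.OD59.ods_span_iff Q hQ f hf0, hQft, hsq]

/-- PMC2. -/
theorem od_pm_class [Fintype F] (hQ : IsNondegenerateQuadraticForm Q) (h2 : (2 : F) ≠ 0)
    (E : Submodule F (ι → F)) (e : ι → F) (he : e ∈ E) (hQe : Q e ≠ 0)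
    (hE : ∀ f ∈ E, ∃ t : F, ∀ g ∈ E, QuadraticMap.polar Q (f - t • e) g = 0)
    (X₁ X₂ : Submodule F (ι → F)) (hX₁ : ONd Q X₁) (hX₂ : ONd Q X₂)
    (hdim : finrank F X₁ = finrank F X₂)
    (hf₁ : 2 * finrank F ↥(X₁ ⊓ E) = finrank F X₁ + 1)
    (hf₂ : 2 * finrank F ↥(X₂ ⊓ E) = finrank F X₂ + 1) :
    ODs Q X₁ ↔ ODs Q X₂ := by
  obtain ⟨P₁, hP₁nd, hP₁pl, hP₁d, h₁⟩ := pmc2_reduce Q hQ h2 E e he hQe hE X₁ hX₁ hf₁
  obtain ⟨P₂, hP₂nd, hP₂pl, hP₂d, h₂⟩ := pmc2_reduce Q hQ h2 E e he hQe hE X₂ hX₂ hf₂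
  have hev : Even (finrank F P₁) := ⟨finrank F ↥(X₁ ⊓ E) - 1, by omega⟩
  have hiso := Cfsg.Agent.Helper14.OE5993.oe_iso Q hQ h2 P₁ P₂ hP₁nd hP₂nd (by omega) hev
    ⟨fun _ => hP₂pl, fun _ => hP₁pl⟩
  have hP := Cfsg.Agent.Helper84.OD59.ods_of_iso Q hQ P₁ P₂ hiso
  rw [h₁, h₂, hP]

end Cfsg.Agent.Helper66.OD59
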