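import Mathlib
import Cfsg.Agent.Helper96.OHDefs
import Cfsg.Agent.Helper69.ODDefs
import Cfsg.Agent.Helper31.OHOPERP
import Cfsg.Agent.Helper33.ODDSSUM
import Cfsg.Agent.Helper66.ODPMC2

set_option autoImplicit false
set_option linter.unusedSectionVars false
set_option linter.unusedVariables false

/-!
# CALL OD part 2 (helper69; row S5991) piece PMC3 (helper66): all invariant nondegenerate
`m`-spaces with the same "sign" have the same discriminant class.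

`od_pm_claim_of` is the piece with PMC2 (`od_pm_class`) as a hypothesis for the given `E = ker N`.
-/

namespace Cfsg.Agent.Helper66.OD59

open Module Polynomial Cfsg Cfsg.Geo
open Cfsg.Agent.Helper13.TIu Cfsg.Agent.Helper96.OH Cfsg.Agent.Helper69.OD
open scoped MatrixGroups

variable {ι : Type} [Fintype ι] [DecidableEq ι] {F : Type*} [Field F] (Q : (ι → F) → F)

/-- a `T`-invariant complement pair splits the fixed space. -/
theorem pmc3_split (T : Module.End F (ι → F)) (W P : Submodule F (ι → F))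
    (hWT : W.map T ≤ W) (hPT : P.map T ≤ P) (hinf : W ⊓ P = ⊥) (hsup : W ⊔ P = ⊤) :
    finrank F (LinearMap.ker (T - 1)) =
      finrank F ↥(W ⊓ LinearMap.ker (T - 1)) + finrank F ↥(P ⊓ LinearMap.ker (T - 1)) := by
  have h1 : (W ⊓ LinearMap.ker (T - 1)) ⊔ (P ⊓ LinearMap.ker (T - 1)) = LinearMap.ker (T - 1) := by
    apply le_antisymm
    · exact sup_le inf_le_right inf_le_right
    · intro f hf
      have hftop : f ∈ W ⊔ P := by rw [hsup]; exact Submodule.mem_top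
      obtain ⟨w, hw, p, hp, rfl⟩ := Submodule.mem_sup.mp hftop
      rw [LinearMap.mem_ker, LinearMap.sub_apply, Module.End.one_apply, map_add] at hf
      have hTw : T w ∈ W := hWT (Submodule.mem_map_of_mem hw)
      have hTp : T p ∈ P := hPT (Submodule.mem_map_of_mem hp)
      have hx : T w - w ∈ W ⊓ P := by
        refine ⟨W.sub_mem hTw hw, ?_⟩
        have : T w - w = p - T p := by
          have := hf
          rw [sub_eq_zero] at this
          rw [sub_eq_sub_iff_add_eq_add]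
          rw [this]
          abel
        rw [this]
        exact P.sub_mem hp hTp
      rw [hinf, Submodule.mem_bot] at hx
      have hy : T p - p = 0 := by
        have h3 : T w + T p - (w + p) = (T w - w) + (T p - p) := by abel
        rw [h3, hx, zero_add] at hf
        exact hf
      refine Submodule.add_mem _ (Submodule.mem_sup_left (Submodule.mem_inf.mpr ⟨hw, ?_⟩))
        (Submodule.mem_sup_right (Submodule.mem_inf.mpr ⟨hp, ?_⟩))
      · rw [LinearMap.mem_ker, LinearMap.sub_apply, Module.End.one_apply]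
        exact hx
      · rw [LinearMap.mem_ker, LinearMap.sub_apply, Module.End.one_apply]
        exact hy
  have h2 : (W ⊓ LinearMap.ker (T - 1)) ⊓ (P ⊓ LinearMap.ker (T - 1)) = ⊥ := by
    rw [eq_bot_iff]
    intro f hf
    have : f ∈ W ⊓ P := ⟨hf.1.1, hf.2.1⟩
    rw [hinf] at this
    exact this
  have h3 := Submodule.finrank_sup_add_finrank_inf_eq (W ⊓ LinearMap.ker (T - 1))
    (P ⊓ LinearMap.ker (T - 1))
  rw [h1, h2, finrank_bot, add_zero] at h3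
  exact h3

/-- PMC3 with PMC2 as a hypothesis. -/
theorem od_pm_claim_of [Fintype F] (hQ : IsNondegenerateQuadraticForm Q) (h2 : (2 : F) ≠ 0) (d : ℕ)
    (hcard : Fintype.card ι = 2 * d) (A : Matrix ι ι F) (hA : ∀ v, Q (A.mulVec v) = Q v)
    (r : ℕ) (hr0 : 0 < r) (hAr : A ^ r = 1)
    (hk1 : finrank F (LinearMap.ker (Matrix.toLin' A - 1)) = d)
    (hclass : ∀ X₁ X₂ : Submodule F (ι → F), ONd Q X₁ → ONd Q X₂ →
      finrank F X₁ = finrank F X₂ →
      2 * finrank F ↥(X₁ ⊓ LinearMap.ker (Matrix.toLin' A - 1)) = finrank F X₁ + 1 →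
      2 * finrank F ↥(X₂ ⊓ LinearMap.ker (Matrix.toLin' A - 1)) = finrank F X₂ + 1 →
      (ODs Q X₁ ↔ ODs Q X₂))
    (m : ℕ) (W₁ W₂ : Submodule F (ι → F)) (hW₁ : ONd Q W₁) (hW₂ : ONd Q W₂)
    (hd₁ : finrank F W₁ = m) (hd₂ : finrank F W₂ = m)
    (hinv₁ : W₁.map (Matrix.toLin' A) ≤ W₁) (hinv₂ : W₂.map (Matrix.toLin' A) ≤ W₂)
    (hfix : (2 * finrank F ↥(W₁ ⊓ LinearMap.ker (Matrix.toLin' A - 1)) = m + 1 ∧
        2 * finrank F ↥(W₂ ⊓ LinearMap.ker (Matrix.toLin' A - 1)) = m + 1) ∨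
      (2 * finrank F ↥(W₁ ⊓ LinearMap.ker (Matrix.toLin' A - 1)) + 1 = m ∧
        2 * finrank F ↥(W₂ ⊓ LinearMap.ker (Matrix.toLin' A - 1)) + 1 = m)) :
    ODs Q W₁ ↔ ODs Q W₂ := by
  classical
  rcases hfix with ⟨hf₁, hf₂⟩ | ⟨hf₁, hf₂⟩
  · exact hclass W₁ W₂ hW₁ hW₂ (by rw [hd₁, hd₂]) (by rw [hd₁]; exact hf₁) (by rw [hd₂]; exact hf₂)
  · have hT : OPres Q (Matrix.toLin' A) := fun v => by
      rw [Matrix.toLin'_apply]
      exact hA v
    have hTr : (Matrix.toLin' A) ^ r = 1 := by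
      have h := map_pow (Matrix.toLinAlgEquiv' (R := F) (n := ι)) A r
      rw [hAr, map_one] at h
      exact h.symm
    have htop : finrank F (⊤ : Submodule F (ι → F)) = 2 * d := by
      rw [finrank_top, Module.finrank_fintype_fun_eq_card, hcard]
    have hmapTop : (⊤ : Submodule F (ι → F)).map (Matrix.toLin' A) ≤ ⊤ := le_top
    obtain ⟨P₁, -, hP₁T, hP₁nd, hinf₁, hsup₁, horth₁, hdim₁⟩ :=
      Cfsg.Agent.Helper31.OH5992.o_perp Q hQ (Matrix.toLin' A) hT r hr0 hTr ⊤ W₁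
        (ond_top Q hQ) hW₁ le_top hmapTop hinv₁
    obtain ⟨P₂, -, hP₂T, hP₂nd, hinf₂, hsup₂, horth₂, hdim₂⟩ :=
      Cfsg.Agent.Helper31.OH5992.o_perp Q hQ (Matrix.toLin' A) hT r hr0 hTr ⊤ W₂
        (ond_top Q hQ) hW₂ le_top hmapTop hinv₂
    have hs₁ := pmc3_split (Matrix.toLin' A) W₁ P₁ hinv₁ hP₁T hinf₁ hsup₁
    have hs₂ := pmc3_split (Matrix.toLin' A) W₂ P₂ hinv₂ hP₂T hinf₂ hsup₂
    rw [hk1] at hs₁ hs₂
    rw [htop, hd₁] at hdim₁
    rw [htop, hd₂] at hdim₂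
    have hP : ODs Q P₁ ↔ ODs Q P₂ :=
      hclass P₁ P₂ hP₁nd hP₂nd (by omega) (by omega) (by omega)
    have hsum₁ := Cfsg.Agent.Helper33.OD59.ods_sup Q hQ W₁ P₁ hW₁ hP₁nd horth₁
    have hsum₂ := Cfsg.Agent.Helper33.OD59.ods_sup Q hQ W₂ P₂ hW₂ hP₂nd horth₂
    rw [hsup₁] at hsum₁
    rw [hsup₂] at hsum₂
    tauto

/-- PMC3. -/
theorem od_pm_claim [Fintype F] (hQ : IsNondegenerateQuadraticForm Q) (h2 : (2 : F) ≠ 0) (d : ℕ)
    (hcard : Fintype.card ι = 2 * d) (A : Matrix ι ι F) (hA : ∀ v, Q (A.mulVec v) = Q v)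
    (r : ℕ) (hr0 : 0 < r) (hAr : A ^ r = 1)
    (hk1 : finrank F (LinearMap.ker (Matrix.toLin' A - 1)) = d)
    (e : ι → F) (he : e ∈ LinearMap.ker (Matrix.toLin' A - 1)) (hQe : Q e ≠ 0)
    (hE : ∀ f ∈ LinearMap.ker (Matrix.toLin' A - 1), ∃ t : F,
      ∀ g ∈ LinearMap.ker (Matrix.toLin' A - 1), QuadraticMap.polar Q (f - t • e) g = 0)
    (m : ℕ) (W₁ W₂ : Submodule F (ι → F)) (hW₁ : ONd Q W₁) (hW₂ : ONd Q W₂)
    (hd₁ : finrank F W₁ = m) (hd₂ : finrank F W₂ = m)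
    (hinv₁ : W₁.map (Matrix.toLin' A) ≤ W₁) (hinv₂ : W₂.map (Matrix.toLin' A) ≤ W₂)
    (hfix : (2 * finrank F ↥(W₁ ⊓ LinearMap.ker (Matrix.toLin' A - 1)) = m + 1 ∧
        2 * finrank F ↥(W₂ ⊓ LinearMap.ker (Matrix.toLin' A - 1)) = m + 1) ∨
      (2 * finrank F ↥(W₁ ⊓ LinearMap.ker (Matrix.toLin' A - 1)) + 1 = m ∧
        2 * finrank F ↥(W₂ ⊓ LinearMap.ker (Matrix.toLin' A - 1)) + 1 = m)) :
    ODs Q W₁ ↔ ODs Q W₂ :=
  od_pm_claim_of Q hQ h2 d hcard A hA r hr0 hAr hk1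
    (fun X₁ X₂ hX₁ hX₂ hdim hf₁ hf₂ =>
      od_pm_class Q hQ h2 (LinearMap.ker (Matrix.toLin' A - 1)) e he hQe hE X₁ X₂ hX₁ hX₂ hdim
        hf₁ hf₂)
    m W₁ W₂ hW₁ hW₂ hd₁ hd₂ hinv₁ hinv₂ hfix

end Cfsg.Agent.Helper66.OD59
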