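import Mathlib
import Cfsg.Agent.Helper96.OHDefs
import Cfsg.Agent.Helper69.ODDefs
import Cfsg.Agent.Helper84.OEETRANSFIXCore
import Cfsg.Agent.Helper20.TSR2SKTYPE
import Cfsg.Agent.Helper93.TSR2SKEX
import Cfsg.Agent.Helper59.TSR2SKOMEGA
import Cfsg.Agent.Helper70.TSR2EIG
import Cfsg.Agent.Helper70.TSR2CH2
import Cfsg.Agent.Helper35.TSSTDM

set_option autoImplicit false
set_option linter.unusedSectionVars false
set_option linter.unusedVariables false

/-!
# CALL OD (helper69; rows S5989 + S5991) piece SKM (helper66): `Ω⁻_{2d}(q)`, `q` odd, contains an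
element `g` with `g * g = -1` iff `d` is odd and `q ≡ 7 (mod 8)`.
-/

namespace Cfsg.Agent.Helper66.OD59

open Module Polynomial Cfsg Cfsg.Geo
open Cfsg.Agent.Helper13.TIu Cfsg.Agent.Helper96.OH Cfsg.Agent.Helper69.OD
open scoped MatrixGroups

variable {ι : Type} [Fintype ι] [DecidableEq ι] {F : Type*} [Field F] (Q : (ι → F) → F)

/-- for odd `d`, `2 ^ d` is a square iff `2` is -/
theorem skm_two_pow {K : Type*} [Field K] (h2 : (2 : K) ≠ 0) (d : ℕ) (hd : Odd d) :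
    IsSquare ((2 : K) ^ d) ↔ IsSquare (2 : K) := by
  constructor
  · rintro ⟨r, hr⟩
    obtain ⟨k, rfl⟩ := hd
    have hk : (2 : K) ^ k ≠ 0 := pow_ne_zero k h2
    refine ⟨r / 2 ^ k, ?_⟩
    have h1 : (2 : K) ^ (2 * k + 1) = 2 * (2 ^ k * 2 ^ k) := by ring
    rw [h1] at hr
    field_simp
    linear_combination hr
  · intro h
    exact h.pow d

/-- SKM. -/
theorem od_skew_minus [Fintype F] (hodd : Odd (Fintype.card F)) (d : ℕ) (hd : 1 ≤ d) (a b : F)
    (hab : ∀ x y : F, x ^ 2 + a * x * y + b * y ^ 2 = 0 → x = 0 ∧ y = 0) :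
    (∃ g : ↥(Cfsg.isometryGroup F (Cfsg.quadFormMinus (d - 1) F a b)),
      g ∈ Cfsg.Omega F (Cfsg.quadFormMinus (d - 1) F a b) ∧
      ((g : GL ((Fin (d - 1) ⊕ Fin (d - 1)) ⊕ Fin 2) F) :
        Matrix ((Fin (d - 1) ⊕ Fin (d - 1)) ⊕ Fin 2) ((Fin (d - 1) ⊕ Fin (d - 1)) ⊕ Fin 2) F) *
      ((g : GL ((Fin (d - 1) ⊕ Fin (d - 1)) ⊕ Fin 2) F) :
        Matrix ((Fin (d - 1) ⊕ Fin (d - 1)) ⊕ Fin 2) ((Fin (d - 1) ⊕ Fin (d - 1)) ⊕ Fin 2) F) = -1) ↔
    ¬ (Even d ∨ Fintype.card F % 8 ≠ 7) := by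
  classical
  obtain ⟨hQ, hminus⟩ := Cfsg.Agent.Helper35.TS5973.ts_std_minus (F := F) (d - 1) a b hab
  have h2 : (2 : F) ≠ 0 := Cfsg.Agent.Helper70.TSR2.r2_two_ne hodd
  have hcard : Fintype.card ((Fin (d - 1) ⊕ Fin (d - 1)) ⊕ Fin 2) = 2 * d := by
    rw [Fintype.card_sum, Fintype.card_sum, Fintype.card_fin, Fintype.card_fin]
    omega
  have hneg := FiniteField.isSquare_neg_one_iff (F := F)
  have htwo := FiniteField.isSquare_two_iff (F := F)
  obtain ⟨k, hk⟩ := hodd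
  by_cases hm1 : IsSquare (-1 : F)
  · -- `-1` a square: no skew isometry at all, and `q % 8 ≠ 7`
    have hq4 : Fintype.card F % 4 ≠ 3 := hneg.mp hm1
    constructor
    · rintro ⟨g, -, hg2⟩
      exfalso
      obtain ⟨W, hWd, hW0, -⟩ := Cfsg.Agent.Helper70.TSR2.r2_eig
        (Cfsg.quadFormMinus (d - 1) F a b) hQ h2 d hcard _
        (fun v => Cfsg.Agent.Helper45.mv_quad (Cfsg.quadFormMinus (d - 1) F a b) g v) hg2 hm1 d
        le_rfl
      apply hminus
      refine ⟨W, le_top, hW0, ?_⟩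
      rw [hWd, finrank_top, Module.finrank_fintype_fun_eq_card, hcard]
    · intro h
      exfalso
      push_neg at h
      omega
  · -- `-1` a nonsquare
    have hq4 : Fintype.card F % 4 = 3 := by
      by_contra h
      exact hm1 (hneg.mpr h)
    constructor
    · rintro ⟨g, hgΩ, hg2⟩
      have htype := Cfsg.Agent.Helper20.TSR2.r2_skew_type
        (Cfsg.quadFormMinus (d - 1) F a b) hQ h2 d hd hcard _
        (fun v => Cfsg.Agent.Helper45.mv_quad (Cfsg.quadFormMinus (d - 1) F a b) g v) hg2 hm1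
      have hdodd : ¬ Even d := fun he => hminus (htype.mpr he)
      have hsq := (Cfsg.Agent.Helper59.TSR2.r2_skew_omega
        (Cfsg.quadFormMinus (d - 1) F a b) hQ h2 d hd hcard g hg2 hm1).mp hgΩ
      have h2sq : IsSquare (2 : F) :=
        (skm_two_pow h2 d (Nat.not_even_iff_odd.mp hdodd)).mp hsq
      have h8 := htwo.mp h2sq
      rintro (he | h7)
      · exact hdodd he
      · omega
    · intro h
      push_neg at h
      obtain ⟨hdodd, h7⟩ := h
      have htype : IsPlusTypeOn (Cfsg.quadFormMinus (d - 1) F a b) ⊤ ↔ Even d :=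
        ⟨fun hp => absurd hp hminus, fun he => absurd he hdodd⟩
      obtain ⟨g, hg2⟩ := Cfsg.Agent.Helper93.TSR2.r2_skew_ex
        (Cfsg.quadFormMinus (d - 1) F a b) hQ h2 d hd hcard hm1 htype
      refine ⟨g, ?_, hg2⟩
      rw [Cfsg.Agent.Helper59.TSR2.r2_skew_omega
        (Cfsg.quadFormMinus (d - 1) F a b) hQ h2 d hd hcard g hg2 hm1,
        skm_two_pow h2 d (Nat.not_even_iff_odd.mp hdodd), htwo]
      omega

end Cfsg.Agent.Helper66.OD59
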