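import Mathlib
import Cfsg.Agent.Helper96.OHDefs
import Cfsg.Agent.Helper69.ODDefs
import Cfsg.Agent.Helper84.OEETRANSFIXCore
import Cfsg.Agent.Helper20.TSR2SKTYPE
import Cfsg.Agent.Helper93.TSR2SKEX
import Cfsg.Agent.Helper59.TSR2SKOMEGA
import Cfsg.Agent.Helper70.TSR2EIG
import Cfsg.Agent.Helper70.TSR2CH2
import Cfsg.Agent.Helper35.TSSTDP
import Cfsg.Agent.Helper50.ODSKOMEGAG
import Cfsg.Agent.Helper52.ODSKEXP
import Cfsg.Agent.Helper66.ODSKM

set_option autoImplicit false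
set_option linter.unusedSectionVars false
set_option linter.unusedVariables false

/-!
# CALL OD (helper69; rows S5989 + S5991) piece SKP (helper66, double): `Ω⁺_{2d}(q)`, `q` odd,
contains an element `g` with `g * g = -1` iff `d` is even or `q ≡ 1 (mod 8)`.
-/

namespace Cfsg.Agent.Helper66.OD59

open Module Polynomial Cfsg Cfsg.Geo
open Cfsg.Agent.Helper13.TIu Cfsg.Agent.Helper96.OH Cfsg.Agent.Helper69.OD
open scoped MatrixGroups

variable {ι : Type} [Fintype ι] [DecidableEq ι] {F : Type*} [Field F] (Q : (ι → F) → F)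

/-- for even `d`, `2 ^ d` is a square -/
theorem skp_two_pow_even {K : Type*} [Field K] (d : ℕ) (hd : Even d) :
    IsSquare ((2 : K) ^ d) := by
  obtain ⟨k, rfl⟩ := hd
  exact ⟨2 ^ k, by rw [pow_add]⟩

/-- SKP. -/
theorem od_skew_plus [Fintype F] (hodd : Odd (Fintype.card F)) (d : ℕ) (hd : 1 ≤ d) :
    (∃ g : ↥(Cfsg.isometryGroup F (Cfsg.quadFormPlus d F)),
      g ∈ Cfsg.Omega F (Cfsg.quadFormPlus d F) ∧
      ((g : GL (Fin d ⊕ Fin d) F) : Matrix (Fin d ⊕ Fin d) (Fin d ⊕ Fin d) F) *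
        ((g : GL (Fin d ⊕ Fin d) F) : Matrix (Fin d ⊕ Fin d) (Fin d ⊕ Fin d) F) = -1) ↔
    ¬ (Odd d ∧ Fintype.card F % 8 ≠ 1) := by
  classical
  obtain ⟨hQ, hplus⟩ := Cfsg.Agent.Helper35.TS5973.ts_std_plus (F := F) d
  have h2 : (2 : F) ≠ 0 := Cfsg.Agent.Helper70.TSR2.r2_two_ne hodd
  have hcard : Fintype.card (Fin d ⊕ Fin d) = 2 * d := by
    rw [Fintype.card_sum, Fintype.card_fin]
    omega
  have hneg := FiniteField.isSquare_neg_one_iff (F := F)
  have htwo := FiniteField.isSquare_two_iff (F := F)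
  obtain ⟨k, hk⟩ := hodd
  by_cases hm1 : IsSquare (-1 : F)
  · -- `-1` a square: skew isometries exist, in `Ω` iff `2 ^ d` is a square
    have hq4 : Fintype.card F % 4 ≠ 3 := hneg.mp hm1
    obtain ⟨ι₀, hι⟩ := hm1
    constructor
    · rintro ⟨g, hgΩ, hg2⟩
      have hsq := (Cfsg.Agent.Helper50.OD59.od_skew_omega
        (Cfsg.quadFormPlus d F) hQ h2 d hd hcard g hg2).mp hgΩ
      rintro ⟨hdodd, h8⟩
      have h2sq : IsSquare (2 : F) := (skm_two_pow h2 d hdodd).mp hsq
      have h8' := htwo.mp h2sq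
      omega
    · intro h
      obtain ⟨g, hg2⟩ := Cfsg.Agent.Helper52.OD59.od_skew_ex_plus (F := F) d ι₀ hι.symm
      refine ⟨g, ?_, hg2⟩
      rw [Cfsg.Agent.Helper50.OD59.od_skew_omega (Cfsg.quadFormPlus d F) hQ h2 d hd hcard g hg2]
      by_cases hdodd : Odd d
      · rw [skm_two_pow h2 d hdodd, htwo]
        have h8 : Fintype.card F % 8 = 1 := by
          by_contra h8
          exact h ⟨hdodd, h8⟩
        omega
      · exact skp_two_pow_even d (Nat.not_odd_iff_even.mp hdodd)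
  · -- `-1` a nonsquare
    have hq4 : Fintype.card F % 4 = 3 := by
      by_contra h
      exact hm1 (hneg.mpr h)
    constructor
    · rintro ⟨g, hgΩ, hg2⟩
      have htype := Cfsg.Agent.Helper20.TSR2.r2_skew_type
        (Cfsg.quadFormPlus d F) hQ h2 d hd hcard _
        (fun v => Cfsg.Agent.Helper45.mv_quad (Cfsg.quadFormPlus d F) g v) hg2 hm1
      have hde : Even d := htype.mp hplus
      rintro ⟨hdodd, -⟩
      exact Nat.not_even_iff_odd.mpr hdodd hde
    · intro h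
      have hde : Even d := by
        by_contra hne
        apply h
        refine ⟨Nat.not_even_iff_odd.mp hne, ?_⟩
        omega
      have htype : IsPlusTypeOn (Cfsg.quadFormPlus d F) ⊤ ↔ Even d :=
        ⟨fun _ => hde, fun _ => hplus⟩
      obtain ⟨g, hg2⟩ := Cfsg.Agent.Helper93.TSR2.r2_skew_ex
        (Cfsg.quadFormPlus d F) hQ h2 d hd hcard hm1 htype
      refine ⟨g, ?_, hg2⟩
      rw [Cfsg.Agent.Helper50.OD59.od_skew_omega (Cfsg.quadFormPlus d F) hQ h2 d hd hcard g hg2]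
      exact skp_two_pow_even d hde

end Cfsg.Agent.Helper66.OD59
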