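import Cfsg.Agent.Helper66.Dihedral

set_option autoImplicit false

namespace Cfsg.Agent.Helper66

open Subgroup
open scoped commutatorElement

/-- Reduction `ZMod (2 * n) → ZMod n`. -/
def quatCast (n : ℕ) : ZMod (2 * n) →+* ZMod n := ZMod.castHom (dvd_mul_left n 2) (ZMod n)

theorem quatCast_n (n : ℕ) : quatCast n (n : ZMod (2 * n)) = 0 := by
  rw [map_natCast, ZMod.natCast_self]

/-- The natural surjection from the dicyclic group of order `4 n` onto the dihedral group of order `2 n`. -/
def quatToDih (n : ℕ) : QuaternionGroup n →* DihedralGroup n where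
  toFun
    | QuaternionGroup.a i => DihedralGroup.r (quatCast n i)
    | QuaternionGroup.xa i => DihedralGroup.sr (quatCast n i)
  map_one' := by
    show DihedralGroup.r (quatCast n 0) = 1
    rw [map_zero]; rfl
  map_mul' := by
    rintro (i | i) (j | j)
    · simp
    · simp
    · simp
    · simp

@[simp] theorem quatToDih_a (n : ℕ) (i : ZMod (2 * n)) :
    quatToDih n (QuaternionGroup.a i) = DihedralGroup.r (quatCast n i) := rfl

@[simp] theorem quatToDih_xa (n : ℕ) (i : ZMod (2 * n)) :
    quatToDih n (QuaternionGroup.xa i) = DihedralGroup.sr (quatCast n i) := rfl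

theorem quatToDih_surjective (n : ℕ) : Function.Surjective (quatToDih n) := by
  have hs : Function.Surjective (quatCast n) := ZMod.ringHom_surjective _
  rintro (i | i)
  · obtain ⟨j, rfl⟩ := hs i
    exact ⟨QuaternionGroup.a j, rfl⟩
  · obtain ⟨j, rfl⟩ := hs i
    exact ⟨QuaternionGroup.xa j, rfl⟩

theorem quatCast_eq_zero_iff (n : ℕ) [NeZero n] (i : ZMod (2 * n)) :
    quatCast n i = 0 ↔ i = 0 ∨ i = (n : ZMod (2 * n)) := by
  constructor
  · intro h
    have h1 : ((i.val : ℕ) : ZMod (2 * n)) = i := ZMod.natCast_zmod_val i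
    rw [← h1, map_natCast, ZMod.natCast_eq_zero_iff] at h
    have h2 : i.val < 2 * n := ZMod.val_lt i
    obtain ⟨k, hk⟩ := h
    have hn : 0 < n := NeZero.pos n
    have hk2 : k < 2 := by
      by_contra hk2
      have : 2 ≤ k := by omega
      have : n * 2 ≤ n * k := Nat.mul_le_mul_left n this
      omega
    interval_cases k
    · left
      rw [← h1, hk]; simp
    · right
      rw [← h1, hk]; simp
  · rintro (rfl | rfl)
    · exact map_zero _
    · exact quatCast_n n

theorem quat_a_n_ne_one (n : ℕ) [NeZero n] : (QuaternionGroup.a (n : ZMod (2 * n))) ≠ 1 := by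
  intro h
  rw [QuaternionGroup.one_def] at h
  injection h with h
  rw [ZMod.natCast_eq_zero_iff] at h
  have hn : 0 < n := NeZero.pos n
  have := Nat.le_of_dvd hn h
  omega

theorem quatToDih_ker (n : ℕ) [NeZero n] :
    ((quatToDih n).ker : Set (QuaternionGroup n)) = {1, QuaternionGroup.a (n : ZMod (2 * n))} := by
  ext y
  simp only [SetLike.mem_coe, MonoidHom.mem_ker, Set.mem_insert_iff, Set.mem_singleton_iff]
  rcases y with i | i
  · rw [quatToDih_a, DihedralGroup.one_def, QuaternionGroup.one_def]
    constructor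
    · intro h
      injection h with h
      rcases (quatCast_eq_zero_iff n i).mp h with h | h
      · left; rw [h]
      · right; rw [h]
    · rintro (h | h)
      · injection h with h
        rw [h, map_zero]
      · injection h with h
        rw [h, quatCast_n]
  · rw [quatToDih_xa, DihedralGroup.one_def, QuaternionGroup.one_def]
    constructor
    · intro h; cases h
    · rintro (h | h) <;> cases h

theorem quatToDih_card_ker (n : ℕ) [NeZero n] : Nat.card (quatToDih n).ker = 2 := by
  rw [← SetLike.coe_sort_coe, Nat.card_coe_set_eq, quatToDih_ker,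
    Set.ncard_pair (quat_a_n_ne_one n).symm]

theorem quat_two_n (n : ℕ) : ((n : ZMod (2 * n)) + n) = 0 := by
  have : ((2 * n : ℕ) : ZMod (2 * n)) = 0 := ZMod.natCast_self _
  rw [← this]; push_cast; ring

theorem quat_a_n_mem_center (n : ℕ) :
    QuaternionGroup.a (n : ZMod (2 * n)) ∈ center (QuaternionGroup n) := by
  rw [Subgroup.mem_center_iff]
  rintro (j | j)
  · simp [add_comm]
  · simp only [QuaternionGroup.xa_mul_a, QuaternionGroup.a_mul_xa]
    congr 1
    have := quat_two_n n
    rw [sub_eq_add_neg]
    congr 1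
    exact eq_neg_of_add_eq_zero_left this

theorem quat_a_n_mem_commutator (n : ℕ) (hn : Even n) :
    QuaternionGroup.a (n : ZMod (2 * n)) ∈ commutator (QuaternionGroup n) := by
  obtain ⟨m, hm⟩ := hn
  have h1 : ⁅(QuaternionGroup.a 1 : QuaternionGroup n), (QuaternionGroup.xa 0 : QuaternionGroup n)⁆
      = (QuaternionGroup.a 1) ^ 2 := by
    rw [commutatorElement_def, mul_inv_eq_iff_eq_mul, mul_inv_eq_iff_eq_mul,
      QuaternionGroup.a_one_pow]
    simp only [QuaternionGroup.xa_mul_a, QuaternionGroup.a_mul_xa]
    congr 1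
    push_cast; ring
  have h2 : (QuaternionGroup.a 1 : QuaternionGroup n) ^ 2 ∈ commutator (QuaternionGroup n) := by
    rw [← h1, _root_.commutator_def]
    exact Subgroup.commutator_mem_commutator (mem_top _) (mem_top _)
  have h3 : QuaternionGroup.a (n : ZMod (2 * n)) = ((QuaternionGroup.a 1) ^ 2) ^ m := by
    rw [← pow_mul, QuaternionGroup.a_one_pow]
    congr 2
    omega
  rw [h3]
  exact pow_mem h2 m

theorem quatToDih_isStemExtension (n : ℕ) [NeZero n] (hn : Even n) :
    Cfsg.IsStemExtension (quatToDih n) := by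
  refine ⟨quatToDih_surjective n, ?_, ?_⟩
  · intro y hy
    have : y ∈ ((quatToDih n).ker : Set (QuaternionGroup n)) := hy
    rw [quatToDih_ker] at this
    rcases this with h | h
    · rw [h]; exact one_mem _
    · rw [h]; exact quat_a_n_mem_center n
  · intro y hy
    have : y ∈ ((quatToDih n).ker : Set (QuaternionGroup n)) := hy
    rw [quatToDih_ker] at this
    rcases this with h | h
    · rw [h]; exact one_mem _
    · rw [h]; exact quat_a_n_mem_commutator n hn

/-- A group with exactly two elements is isomorphic to `ZMod 2`. -/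
theorem nonempty_mulEquiv_zmod_two {K : Type*} [Group K] (hK : Nat.card K = 2) :
    Nonempty (K ≃* Multiplicative (ZMod 2)) := by
  have : Fact (Nat.Prime 2) := ⟨Nat.prime_two⟩
  have hcyc : IsCyclic K := isCyclic_of_prime_card hK
  obtain ⟨e⟩ : Nonempty (Multiplicative (ZMod 2) ≃* K) := by
    rw [← hK]; exact ⟨zmodCyclicMulEquiv hcyc⟩
  exact ⟨e.symm⟩

/-- The dihedral group is generated by `r 1` and `sr 0`. -/
theorem dihedral_closure_eq_top (n : ℕ) [NeZero n] :
    closure ({DihedralGroup.r 1, DihedralGroup.sr 0} : Set (DihedralGroup n)) = ⊤ := by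
  open DihedralGroup in
  rw [eq_top_iff]
  rintro (i | i) -
  · have : r i = (r 1 : DihedralGroup n) ^ i.val := by
      rw [r_one_pow, ZMod.natCast_zmod_val]
    rw [this]
    exact pow_mem (Subgroup.subset_closure (by simp)) _
  · have : sr i = sr 0 * (r 1 : DihedralGroup n) ^ i.val := by
      rw [r_one_pow, ZMod.natCast_zmod_val, sr_mul_r, zero_add]
    rw [this]
    exact mul_mem (Subgroup.subset_closure (by simp))
      (pow_mem (Subgroup.subset_closure (by simp)) _)

end Cfsg.Agent.Helper66
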