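import Mathlib
import Cfsg.Agent.Helper9.BRDefs
import Cfsg.Agent.Helper79.BRXTAB

/-!
# CALL S0998, piece MPX (helper66): sums of characters over a Sylow subgroup `P` of order `p`
-/

set_option autoImplicit false
open Cfsg
open scoped ComplexConjugate

universe u

namespace Cfsg.Agent.Helper66

/-- a function constant `= c` on `P ∖ {1}` sums to `f 1 + (p - 1) c` over `P`. -/
theorem s998_sum_P_aux {G : Type u} [Group G] [Fintype G] {p : ℕ} (P : Subgroup G)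
    (hP : Nat.card P = p) (f : G → ℂ) (c : ℂ) (hf : ∀ x ∈ P, x ≠ 1 → f x = c) :
    ∑ᶠ x : P, f (x : G) = f 1 + ((p : ℂ) - 1) * c := by
  classical
  haveI : Fintype P := Fintype.ofFinite P
  have hp1 : 1 ≤ p := by
    rw [← hP]
    exact Nat.card_pos
  rw [finsum_eq_sum_of_fintype, ← Finset.add_sum_erase Finset.univ _ (Finset.mem_univ (1 : P))]
  congr 1
  have h1 : ∀ x ∈ (Finset.univ : Finset P).erase 1, f (x : G) = c := by
    intro x hx
    refine hf x x.2 ?_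
    intro h
    exact (Finset.mem_erase.mp hx).1 (Subtype.ext h)
  rw [Finset.sum_congr rfl h1, Finset.sum_const, Finset.card_erase_of_mem (Finset.mem_univ _),
    Finset.card_univ, ← Nat.card_eq_fintype_card, hP, nsmul_eq_mul, Nat.cast_sub hp1, Nat.cast_one]

/-- MPX -/
theorem s998_mP {G : Type u} [Group G] [Fintype G] {p : ℕ} [Fact p.Prime]
    {M : Ideal Cfsg.AlgInt} (P : Sylow p G) (hP : Nat.card (P : Subgroup G) = p) (e : ℕ)
    (T : Cfsg.Agent.Helper9.BRTab p M P e) :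
    (∀ χ : Cfsg.IrrCharacter G, ∃ m : ℕ,
      ∑ᶠ x : (P : Subgroup G), (χ : G → ℂ) (x : G) = (p : ℂ) * (m : ℂ)) ∧
    (∑ᶠ x : (P : Subgroup G), (Cfsg.Agent.Helper81.trivIrr G : G → ℂ) (x : G) = (p : ℂ)) ∧
    (∀ χ ∈ T.X1, ∑ᶠ x : (P : Subgroup G), (χ : G → ℂ) (x : G)
      = (Cfsg.charDegree (χ : G → ℂ) : ℂ) + ((p : ℂ) - 1)) ∧
    (∀ χ ∈ T.X2, ∑ᶠ x : (P : Subgroup G), (χ : G → ℂ) (x : G)
      = (Cfsg.charDegree (χ : G → ℂ) : ℂ) - ((p : ℂ) - 1)) := by
  have hp : p.Prime := Fact.out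
  have hreg : ¬ p ∣ orderOf (1 : G) := by
    rw [orderOf_one]
    exact hp.not_dvd_one
  refine ⟨?_, ?_, ?_, ?_⟩
  · intro χ
    obtain ⟨m, hm⟩ := Cfsg.Agent.Helper79.brn_exists_mult (P : Subgroup G) χ
    exact ⟨m, by rw [hm, hP]⟩
  · rw [s998_sum_P_aux (P : Subgroup G) hP _ 1 (fun x _ _ => Cfsg.Agent.Helper81.trivIrr_apply x),
      Cfsg.Agent.Helper81.trivIrr_apply]
    ring
  · intro χ hχ
    have h1 : ∀ x ∈ (P : Subgroup G), x ≠ 1 → (χ : G → ℂ) x = 1 := by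
      intro x hx hx1
      have := (T.hX1 χ hχ).2 x hx hx1 1 (Subgroup.one_mem _) hreg
      rwa [mul_one] at this
    rw [s998_sum_P_aux (P : Subgroup G) hP _ 1 h1, Cfsg.Agent.Helper81.irr_one_eq_charDegree]
    ring
  · intro χ hχ
    have h1 : ∀ x ∈ (P : Subgroup G), x ≠ 1 → (χ : G → ℂ) x = -1 := by
      intro x hx hx1
      have := (T.hX2 χ hχ).2 x hx hx1 1 (Subgroup.one_mem _) hreg
      rwa [mul_one] at this
    rw [s998_sum_P_aux (P : Subgroup G) hP _ (-1) h1, Cfsg.Agent.Helper81.irr_one_eq_charDegree]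
    ring

end Cfsg.Agent.Helper66
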