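import Mathlib
import Cfsg.Agent.Helper87.SFDefs

/-!
# CALL S2752 (helper66): small group-theoretic lemmas shared by the pieces BETA1, BETA2, COMPL
-/

set_option autoImplicit false

namespace Cfsg.Agent.Helper66

open Cfsg.Agent.Helper87 Cfsg.Agent.Helper87.SF

/-- the centre of a simple nonabelian subgroup is trivial (elementwise form) -/
theorem sf66_center_trivial {G : Type*} [Group G] (K : Subgroup G) (hKs : IsSimpleGroup ↥K)
    (hKn : NC K) : ∀ z ∈ K, (∀ k ∈ K, z * k = k * z) → z = 1 := by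
  intro z hz hzc
  have hcen : (⟨z, hz⟩ : ↥K) ∈ Subgroup.center ↥K := by
    rw [Subgroup.mem_center_iff]
    intro g
    apply Subtype.ext
    exact (hzc g g.2).symm
  rcases (inferInstance : (Subgroup.center ↥K).Normal).eq_bot_or_eq_top with h | h
  · rw [h] at hcen
    have := Subgroup.mem_bot.mp hcen
    exact congrArg Subtype.val this
  · exfalso
    apply hKn
    intro x hx y hy
    have hy' : (⟨y, hy⟩ : ↥K) ∈ Subgroup.center ↥K := by rw [h]; trivial
    have := Subgroup.mem_center_iff.mp hy' ⟨x, hx⟩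
    exact congrArg Subtype.val this

/-- the join of two commuting subgroups with trivial intersection has the product order -/
theorem sf66_card_sup {G : Type*} [Group G] (H K : Subgroup G)
    (hcomm : ∀ h ∈ H, ∀ k ∈ K, h * k = k * h) (hdisj : H ⊓ K = ⊥) :
    Nat.card ↥(H ⊔ K) = Nat.card H * Nat.card K := by
  have hc : ∀ (h : ↥H) (k : ↥K), Commute (H.subtype h) (K.subtype k) :=
    fun h k => hcomm h h.2 k k.2
  have hrange : (MonoidHom.noncommCoprod H.subtype K.subtype hc).range = H ⊔ K := by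
    rw [MonoidHom.noncommCoprod_range, Subgroup.range_subtype, Subgroup.range_subtype]
  have hinj : Function.Injective (MonoidHom.noncommCoprod H.subtype K.subtype hc) := by
    rw [MonoidHom.noncommCoprod_injective]
    refine ⟨H.subtype_injective, K.subtype_injective, ?_⟩
    rw [Subgroup.range_subtype, Subgroup.range_subtype, disjoint_iff, hdisj]
  rw [← hrange, ← Nat.card_prod]
  exact Nat.card_congr (MonoidHom.ofInjective hinj).toEquiv.symm

/-- a subgroup `Bs` of `As` with `As = Bs ∪ a Bs`, `a ∉ Bs`, has index two -/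
theorem sf66_card_two {G : Type*} [Group G] (As Bs : Subgroup G) (hle : Bs ≤ As) (a : G)
    (haAs : a ∈ As) (haBs : a ∉ Bs) (hcomm : ∀ b ∈ As, b * a = a * b)
    (hidx : ∀ c ∈ As, c ∈ Bs ∨ a * c ∈ Bs) : Nat.card As = 2 * Nat.card Bs := by
  have hindex : (Bs.subgroupOf As).index = 2 := by
    rw [Subgroup.index_eq_two_iff]
    refine ⟨⟨a, haAs⟩, fun b => ?_⟩
    rw [Subgroup.mem_subgroupOf, Subgroup.mem_subgroupOf, Subgroup.coe_mul]
    by_cases hb : (b : G) ∈ Bs
    · refine Or.inr ⟨hb, fun hba => haBs ?_⟩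
      have : a = (b : G)⁻¹ * ((b : G) * a) := by group
      rw [this]
      exact Bs.mul_mem (Bs.inv_mem hb) hba
    · refine Or.inl ⟨?_, hb⟩
      show (b : G) * a ∈ Bs
      rw [hcomm b b.2]
      exact (hidx b b.2).resolve_left hb
  have h1 := Subgroup.card_mul_index (Bs.subgroupOf As)
  rw [hindex] at h1
  have h2 : Nat.card ↥(Bs.subgroupOf As) = Nat.card Bs :=
    Nat.card_congr (Subgroup.subgroupOfEquivOfLe hle).toEquiv
  rw [h2] at h1
  omega

/-- the elements of `A` normalizing `K` form a subgroup -/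
theorem sf66_exists_As {G : Type*} [Group G] (A K : Subgroup G) (hA : EA2 A) :
    ∃ As : Subgroup G, ∀ c : G, c ∈ As ↔ c ∈ A ∧ ∀ k ∈ K, c * k * c⁻¹ ∈ K := by
  refine ⟨{ carrier := {c | c ∈ A ∧ ∀ k ∈ K, c * k * c⁻¹ ∈ K}
            mul_mem' := ?_
            one_mem' := ?_
            inv_mem' := ?_ }, fun c => Iff.rfl⟩
  · rintro x y ⟨hx, hxK⟩ ⟨hy, hyK⟩
    refine ⟨A.mul_mem hx hy, fun k hk => ?_⟩
    have : x * y * k * (x * y)⁻¹ = x * (y * k * y⁻¹) * x⁻¹ := by group
    rw [this]
    exact hxK _ (hyK k hk)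
  · refine ⟨A.one_mem, fun k hk => ?_⟩
    simpa using hk
  · rintro x ⟨hx, hxK⟩
    have hxinv : x⁻¹ = x := inv_eq_of_mul_eq_one_left (hA.2 x hx)
    refine ⟨A.inv_mem hx, fun k hk => ?_⟩
    rw [hxinv]
    exact hxK k hk

end Cfsg.Agent.Helper66
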