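import Mathlib
import Cfsg.Agent.Helper87.SFDefs
import Cfsg.Agent.Helper66.SFLemmas
import Cfsg.Agent.Helper29.SFORB
import Cfsg.Agent.Helper3.SFGINV

/-!
# CALL S2752, piece BETA1 (helper66), core: the piece COMPL is a hypothesis here
-/

set_option autoImplicit false

namespace Cfsg.Agent.Helper66

open Cfsg.Agent.Helper87 Cfsg.Agent.Helper87.SF

theorem sf_beta1_core {G : Type*} [Group G] [Finite G] (A K : Subgroup G) (hA : EA2 A)
    (hKs : IsSimpleGroup ↥K) (hKn : NC K) (hcc : CC K A)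
    (Bs : Subgroup G) (a x₀ : G)
    (hBs : ∀ b ∈ Bs, b ∈ A ∧ ∀ k ∈ K, b * k * b⁻¹ ∈ K)
    (hidx : ∀ c ∈ A, (∀ k ∈ K, c * k * c⁻¹ ∈ K) → c ∈ Bs ∨ a * c ∈ Bs)
    (ha : a ∈ A) (haK : ∀ k ∈ K, a * k * a⁻¹ ∈ K)
    (hx₀ : x₀ ∈ K) (hx1 : x₀ ≠ 1) (hxo : Odd (orderOf x₀))
    (hBx : ∀ b ∈ Bs, b * x₀ = x₀ * b) (hax : a * x₀ * a⁻¹ = x₀⁻¹)
    (hCOMPL : ∀ D : Subgroup G, D ≤ A → ∃ T : Subgroup G, T ≤ A ∧ D ⊓ T = ⊥ ∧ D ⊔ T = A ∧
      Nat.card D * Nat.card T = Nat.card A) : Good A := by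
  classical
  obtain ⟨As, hAs⟩ := sf66_exists_As A K hA
  have hAsA : As ≤ A := fun c hc => ((hAs c).mp hc).1
  obtain ⟨T, hTA, hdisj, hsup, hcardT⟩ := hCOMPL As hAsA
  have hTK : ∀ c ∈ T, (∀ k ∈ K, c * k * c⁻¹ ∈ K) → c = 1 := by
    intro c hc hcK
    have : c ∈ As ⊓ T := ⟨(hAs c).mpr ⟨hTA hc, hcK⟩, hc⟩
    rw [hdisj] at this
    exact Subgroup.mem_bot.mp this
  obtain ⟨Δ, hΔ1, hΔ2, hΔ3, -⟩ := Cfsg.Agent.Helper29.sf_orb A K T hA hTA hcc hTK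
  obtain ⟨k₀, hk₀⟩ : ∃ k₀ : ↥K, (k₀ : G) = x₀ := ⟨⟨x₀, hx₀⟩, rfl⟩
  have hZ := sf66_center_trivial K hKs hKn
  have haa : a * a = 1 := hA.2 a ha
  -- `z = Δ k₀` is not trivial
  have hz1 : Δ k₀ ≠ 1 := by
    intro hz
    apply hx1
    have h3 : x₀⁻¹ = 1 := by
      apply hZ _ (K.inv_mem hx₀)
      intro k hk
      have := hΔ3 k₀ k hk
      rw [hz, one_mul, hk₀] at this
      exact this
    exact inv_eq_one.mp h3
  have hzo : Odd (orderOf (Δ k₀)) := by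
    have h1 : orderOf (Δ k₀) ∣ orderOf k₀ := orderOf_map_dvd Δ k₀
    have h2 : orderOf k₀ = orderOf x₀ := by rw [← hk₀, Subgroup.orderOf_coe]
    rw [h2] at h1
    exact hxo.of_dvd_nat h1
  have haz : a * Δ k₀ * a⁻¹ = (Δ k₀)⁻¹ := by
    rw [← map_inv]
    apply hΔ2 a ha k₀ k₀⁻¹
    rw [hk₀, hax, Subgroup.coe_inv, hk₀]
  have hBsz : ∀ b ∈ Bs, b * Δ k₀ = Δ k₀ * b := by
    intro b hb
    have h1 : b * Δ k₀ * b⁻¹ = Δ k₀ := by
      apply hΔ2 b (hBs b hb).1 k₀ k₀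
      rw [hk₀, hBx b hb]
      group
    calc b * Δ k₀ = (b * Δ k₀ * b⁻¹) * b := by group
      _ = Δ k₀ * b := by rw [h1]
  have hBz : ∀ b ∈ Bs ⊔ T, b * Δ k₀ = Δ k₀ * b := by
    have hle : Bs ⊔ T ≤ Subgroup.centralizer {Δ k₀} := by
      apply sup_le
      · intro b hb
        rw [Subgroup.mem_centralizer_iff]
        intro h hh
        rw [Set.mem_singleton_iff] at hh
        rw [hh]
        exact (hBsz b hb).symm
      · intro c hc
        rw [Subgroup.mem_centralizer_iff]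
        intro h hh
        rw [Set.mem_singleton_iff] at hh
        rw [hh]
        exact (hΔ1 k₀ c hc).symm
    intro b hb
    have := Subgroup.mem_centralizer_iff.mp (hle hb) (Δ k₀) (Set.mem_singleton _)
    exact this.symm
  have hBA : Bs ⊔ T ≤ A := sup_le (fun b hb => (hBs b hb).1) hTA
  have hBsAs : Bs ≤ As := fun b hb => (hAs b).mpr (hBs b hb)
  have haAs : a ∈ As := (hAs a).mpr ⟨ha, haK⟩
  have haBs : a ∉ Bs := by
    intro h
    have h1 := hBx a h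
    have h2 : x₀⁻¹ = x₀ := by
      rw [← hax, h1]
      group
    have h3 : x₀ ^ 2 = 1 := by
      rw [pow_two]
      nth_rewrite 1 [← h2]
      group
    have h4 : orderOf x₀ ∣ 2 := orderOf_dvd_of_pow_eq_one h3
    rcases (Nat.dvd_prime Nat.prime_two).mp h4 with h5 | h5
    · exact hx1 (orderOf_eq_one_iff.mp h5)
    · rw [h5] at hxo
      exact absurd hxo (by decide)
  have hc1 : Nat.card As = 2 * Nat.card Bs :=
    sf66_card_two As Bs hBsAs a haAs haBs (fun b hb => hA.1 b (hAsA hb) a ha)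
      (fun c hc => hidx c (hAsA hc) ((hAs c).mp hc).2)
  have hc2 : Nat.card ↥(Bs ⊔ T) = Nat.card Bs * Nat.card T := by
    apply sf66_card_sup
    · intro h hh k hk
      exact hA.1 h (hBs h hh).1 k (hTA hk)
    · rw [eq_bot_iff, ← hdisj]
      exact inf_le_inf_right T hBsAs
  have hcard : Nat.card A = 2 * Nat.card ↥(Bs ⊔ T) := by
    rw [hc2, ← hcardT, hc1]
    ring
  exact Cfsg.Agent.Helper3.sf_good_inv A (Bs ⊔ T) hBA hcard a (Δ k₀) ha haa hz1 hzo hBz haz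

end Cfsg.Agent.Helper66
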