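import Mathlib
import Cfsg.Agent.Helper87.SFDefs
import Cfsg.Agent.Helper66.SFBETA1core
import Cfsg.Agent.Helper51.SFCOMPL

/-!
# CALL S2752, piece BETA1 (helper66)
-/

set_option autoImplicit false

namespace Cfsg.Agent.Helper66

open Cfsg.Agent.Helper87 Cfsg.Agent.Helper87.SF

/-- BETA1 -/
theorem sf_beta1 {G : Type*} [Group G] [Finite G] (A K : Subgroup G) (hA : EA2 A)
    (hKs : IsSimpleGroup ↥K) (hKn : NC K) (hcc : CC K A)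
    (Bs : Subgroup G) (a x₀ : G)
    (hBs : ∀ b ∈ Bs, b ∈ A ∧ ∀ k ∈ K, b * k * b⁻¹ ∈ K)
    (hidx : ∀ c ∈ A, (∀ k ∈ K, c * k * c⁻¹ ∈ K) → c ∈ Bs ∨ a * c ∈ Bs)
    (ha : a ∈ A) (haK : ∀ k ∈ K, a * k * a⁻¹ ∈ K)
    (hx₀ : x₀ ∈ K) (hx1 : x₀ ≠ 1) (hxo : Odd (orderOf x₀))
    (hBx : ∀ b ∈ Bs, b * x₀ = x₀ * b) (hax : a * x₀ * a⁻¹ = x₀⁻¹) : Good A :=
  sf_beta1_core A K hA hKs hKn hcc Bs a x₀ hBs hidx ha haK hx₀ hx1 hxo hBx hax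
    (fun D hD => Cfsg.Agent.Helper51.sf_compl A D hA hD)

end Cfsg.Agent.Helper66
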