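import Mathlib
import Cfsg.Agent.Helper87.SFDefs
import Cfsg.Agent.Helper22.Fitting

/-!
# CALL S2752, piece HNC (helper66): `O_2(G) = 1` passes to normal subgroups
-/

set_option autoImplicit false

namespace Cfsg.Agent.Helper66

open Cfsg.Agent.Helper87 Cfsg.Agent.Helper87.SF

/-- HNC -/
theorem sf_hn_core {G : Type*} [Group G] [Finite G] (h : Cfsg.pCore 2 G = ⊥) (C : Subgroup G)
    [C.Normal] : Cfsg.pCore 2 ↥C = ⊥ := by
  have hsub : C.IsSubnormal := Subgroup.Normal.isSubnormal inferInstance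
  have h1 : (Cfsg.pCore 2 ↥C).map C.subtype ≤ Cfsg.pCore 2 G :=
    Cfsg.Agent.Helper22.pCore_map_subtype_le 2 hsub
  rw [h] at h1
  rw [eq_bot_iff]
  intro x hx
  have h2 : (x : G) ∈ (⊥ : Subgroup G) := h1 ⟨x, hx, rfl⟩
  rw [Subgroup.mem_bot] at h2 ⊢
  exact Subtype.ext h2

end Cfsg.Agent.Helper66
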