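import Mathlib
import Cfsg.Agent.Helper87.SFDefs

/-!
# CALL S2752, piece HNK (helper66): the composition-factor K-group property passes to
normal subgroups
-/

set_option autoImplicit false

namespace Cfsg.Agent.Helper66

open Cfsg.Agent.Helper87 Cfsg.Agent.Helper87.SF

universe u

/-- HNK -/
theorem sf_hn_comp {G : Type u} [Group G] (K : ∀ (X : Type u) [Group X], Prop)
    (hK : ∀ (X Y : Type u) [Group X] [Group Y], (X ≃* Y) → K X → K Y)
    (h : Cfsg.IsCompositionKGroupWith K G) (C : Subgroup G) [C.Normal] :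
    Cfsg.IsCompositionKGroupWith K ↥C := by
  intro H hH N hN hsimple hnc
  have hCsub : C.IsSubnormal := Subgroup.Normal.isSubnormal inferInstance
  have hH' : (H.map C.subtype).IsSubnormal := hH.trans' hCsub
  let e : ↥H ≃* ↥(H.map C.subtype) := H.equivMapOfInjective C.subtype C.subtype_injective
  let N' : Subgroup ↥(H.map C.subtype) := N.map e.toMonoidHom
  haveI hN' : N'.Normal := Subgroup.Normal.map hN e.toMonoidHom e.surjective
  let q : (↥H ⧸ N) ≃* (↥(H.map C.subtype) ⧸ N') := QuotientGroup.congr N N' e rfl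
  have hs' : IsSimpleGroup (↥(H.map C.subtype) ⧸ N') := q.symm.isSimpleGroup
  have hnc' : ¬ IsMulCommutative (↥(H.map C.subtype) ⧸ N') := by
    intro hc
    apply hnc
    refine ⟨⟨fun a b => ?_⟩⟩
    apply q.injective
    rw [map_mul, map_mul]
    exact hc.is_comm.comm (q a) (q b)
  exact hK _ _ q.symm (h (H.map C.subtype) hH' N' hs' hnc')

end Cfsg.Agent.Helper66
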