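import Mathlib
import Cfsg.Prelude.Def_KGroupFacts
import Cfsg.Agent.Helper87.SFDefs

/-!
# CALL S2752, piece OUTODD (helper66): an involution normalizing `K` induces an inner
automorphism of `K` when `Out K` has odd order
-/

set_option autoImplicit false

namespace Cfsg.Agent.Helper66

open Cfsg.Agent.Helper87 Cfsg.Agent.Helper87.SF

/-- OUTODD -/
theorem sf_inner_of_odd_out {G : Type*} [Group G] [Finite G] (K : Subgroup G)
    (hodd : Odd (Nat.card (Cfsg.Out ↥K))) (a : G) (haa : a * a = 1)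
    (haK : ∀ k ∈ K, a * k * a⁻¹ ∈ K) : ∃ s ∈ K, ∀ k ∈ K, a * k * a⁻¹ = s * k * s⁻¹ := by
  classical
  have hainv : a⁻¹ = a := inv_eq_of_mul_eq_one_left haa
  have hff : ∀ k : ↥K, (⟨a * (⟨a * k * a⁻¹, haK k k.2⟩ : ↥K) * a⁻¹, haK _ (haK k k.2)⟩ : ↥K) = k := by
    intro k
    apply Subtype.ext
    show a * (a * (k : G) * a⁻¹) * a⁻¹ = k
    rw [hainv]
    calc a * (a * (k : G) * a) * a = (a * a) * k * (a * a) := by group
      _ = k := by rw [haa]; group
  let α : MulAut ↥K :=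
    { toFun := fun k => ⟨a * k * a⁻¹, haK k k.2⟩
      invFun := fun k => ⟨a * k * a⁻¹, haK k k.2⟩
      left_inv := hff
      right_inv := hff
      map_mul' := fun x y => by
        apply Subtype.ext
        show a * ((x : G) * y) * a⁻¹ = (a * x * a⁻¹) * (a * y * a⁻¹)
        group }
  have hαapp : ∀ k : ↥K, ((α k : ↥K) : G) = a * k * a⁻¹ := fun k => rfl
  have hαα : α ^ 2 = 1 := by
    ext k
    rw [pow_two, MulAut.mul_apply, MulAut.one_apply]
    exact congrArg Subtype.val (hff k)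
  have hq2 : (QuotientGroup.mk α : Cfsg.Out ↥K) ^ 2 = 1 := by
    rw [← QuotientGroup.mk_pow, hαα]
    rfl
  have hd2 : orderOf (QuotientGroup.mk α : Cfsg.Out ↥K) ∣ 2 := orderOf_dvd_of_pow_eq_one hq2
  have hdc : orderOf (QuotientGroup.mk α : Cfsg.Out ↥K) ∣ Nat.card (Cfsg.Out ↥K) :=
    orderOf_dvd_natCard _
  have ho1 : orderOf (QuotientGroup.mk α : Cfsg.Out ↥K) = 1 := by
    rcases (Nat.dvd_prime Nat.prime_two).mp hd2 with h | h
    · exact h
    · exfalso
      rw [h] at hdc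
      exact hodd.not_two_dvd_nat hdc
  have hq1 : (QuotientGroup.mk α : Cfsg.Out ↥K) = 1 := orderOf_eq_one_iff.mp ho1
  have hmem : α ∈ Cfsg.Inn ↥K := (QuotientGroup.eq_one_iff α).mp hq1
  obtain ⟨s, hs⟩ := hmem
  refine ⟨s, s.2, fun k hk => ?_⟩
  have h1 : ((α ⟨k, hk⟩ : ↥K) : G) = ((MulAut.conj s ⟨k, hk⟩ : ↥K) : G) := by rw [hs]
  rw [hαapp] at h1
  rw [h1, MulAut.conj_apply]
  rfl

end Cfsg.Agent.Helper66
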