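import Mathlib
import Cfsg.Agent.Helper87.SFDefs

/-!
# CALL S2752, piece PSI (helper66): the inner automorphisms induced by `E` on a simple
nonabelian `K` come from a homomorphism `E →* K`
-/

set_option autoImplicit false

namespace Cfsg.Agent.Helper66

open Cfsg.Agent.Helper87 Cfsg.Agent.Helper87.SF

/-- PSI -/
theorem sf_psi {G : Type*} [Group G] [Finite G] (K E : Subgroup G) (hE : EA2 E)
    (hKs : IsSimpleGroup ↥K) (hKn : NC K)
    (hinn : ∀ e ∈ E, ∃ s ∈ K, ∀ k ∈ K, e * k * e⁻¹ = s * k * s⁻¹) :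
    ∃ ψ : ↥E →* ↥K, ∀ e : ↥E, ∀ k ∈ K,
      (e : G) * k * (e : G)⁻¹ = (ψ e : G) * k * (ψ e : G)⁻¹ := by
  classical
  -- the center of `K` is trivial
  have hZ : ∀ z ∈ K, (∀ k ∈ K, z * k = k * z) → z = 1 := by
    intro z hz hzc
    have hcen : (⟨z, hz⟩ : ↥K) ∈ Subgroup.center ↥K := by
      rw [Subgroup.mem_center_iff]
      intro g
      apply Subtype.ext
      exact (hzc g g.2).symm
    rcases (inferInstance : (Subgroup.center ↥K).Normal).eq_bot_or_eq_top with h | h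
    · rw [h] at hcen
      have := Subgroup.mem_bot.mp hcen
      exact congrArg Subtype.val this
    · exfalso
      apply hKn
      intro x hx y hy
      have hy' : (⟨y, hy⟩ : ↥K) ∈ Subgroup.center ↥K := by rw [h]; trivial
      have := Subgroup.mem_center_iff.mp hy' ⟨x, hx⟩
      exact congrArg Subtype.val this
  -- uniqueness
  have huniq : ∀ s ∈ K, ∀ s' ∈ K, (∀ k ∈ K, s * k * s⁻¹ = s' * k * s'⁻¹) → s = s' := by
    intro s hs s' hs' h
    have h1 : s'⁻¹ * s = 1 := by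
      apply hZ _ (K.mul_mem (K.inv_mem hs') hs)
      intro k hk
      have := h k hk
      calc s'⁻¹ * s * k = s'⁻¹ * (s * k * s⁻¹) * s := by group
        _ = s'⁻¹ * (s' * k * s'⁻¹) * s := by rw [this]
        _ = k * (s'⁻¹ * s) := by group
    calc s = s' * (s'⁻¹ * s) := by group
      _ = s' := by rw [h1, mul_one]
  choose f hfK hf using hinn
  let ψ0 : ↥E → ↥K := fun e => ⟨f e e.2, hfK e e.2⟩
  have hψ0 : ∀ e : ↥E, ∀ k ∈ K, (e : G) * k * (e : G)⁻¹ = (ψ0 e : G) * k * (ψ0 e : G)⁻¹ :=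
    fun e k hk => hf e e.2 k hk
  refine ⟨MonoidHom.mk' ψ0 ?_, hψ0⟩
  intro e e'
  apply Subtype.ext
  apply huniq _ (ψ0 (e * e')).2 _ (K.mul_mem (ψ0 e).2 (ψ0 e').2)
  intro k hk
  rw [← hψ0 (e * e') k hk]
  have h1 := hψ0 e' k hk
  have hmem : (ψ0 e' : G) * k * (ψ0 e' : G)⁻¹ ∈ K :=
    K.mul_mem (K.mul_mem (ψ0 e').2 hk) (K.inv_mem (ψ0 e').2)
  have h2 := hψ0 e _ hmem
  calc ((e * e' : ↥E) : G) * k * ((e * e' : ↥E) : G)⁻¹
      = (e : G) * ((e' : G) * k * (e' : G)⁻¹) * (e : G)⁻¹ := by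
        rw [Subgroup.coe_mul]; group
    _ = (e : G) * ((ψ0 e' : G) * k * (ψ0 e' : G)⁻¹) * (e : G)⁻¹ := by rw [h1]
    _ = (ψ0 e : G) * ((ψ0 e' : G) * k * (ψ0 e' : G)⁻¹) * (ψ0 e : G)⁻¹ := h2
    _ = (ψ0 e : G) * (ψ0 e' : G) * k * ((ψ0 e : G) * (ψ0 e' : G))⁻¹ := by group

end Cfsg.Agent.Helper66
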