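import Mathlib
import Cfsg.Prelude.Def_GeometricClasses
import Cfsg.Agent.Helper90.SFRDefs
import Cfsg.Agent.Helper20.IMMB

/-!
# CALL S5965, piece RATCYC (helper66): an operator killed by an irreducible polynomial with
coefficients in the subfield `F₀` has a matrix with entries in `F₀`
-/

set_option autoImplicit false

namespace Cfsg.Agent.Helper66

open Module Polynomial Cfsg.Agent.Helper90.SFR

section lin
variable {F : Type*} [Field F] {V : Type*} [AddCommGroup V] [Module F V] [FiniteDimensional F V]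

theorem rat_cyc (F₀ : Subfield F) (T : V →ₗ[F] V) (h : Polynomial ↥F₀)
    (hirr : Irreducible (h.map F₀.subtype)) (hT : aeval T (h.map F₀.subtype) = 0) :
    IsRat F₀ T := by
  classical
  have hd0 : 0 < (h.map F₀.subtype).natDegree := hirr.natDegree_pos
  obtain ⟨s, b, hb⟩ := Cfsg.Agent.Helper20.cyc_basis T (h.map F₀.subtype) hirr hT _ rfl hd0
  have hcoef : ∀ i : ℕ, (h.map F₀.subtype).coeff i ∈ F₀ := by
    intro i
    rw [coeff_map]
    exact (h.coeff i).2
  have hlc : (h.map F₀.subtype).coeff (h.map F₀.subtype).natDegree ≠ 0 := by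
    rw [coeff_natDegree]
    exact leadingCoeff_ne_zero.mpr hirr.ne_zero
  refine ⟨Fin s × Fin (h.map F₀.subtype).natDegree, inferInstance, b, ?_⟩
  rintro ⟨j₀, i₀⟩ j
  have h1 : T (b (j₀, i₀)) = (T ^ ((i₀ : ℕ) + 1)) (b (j₀, ⟨0, hd0⟩)) := by
    rw [hb j₀ i₀, pow_succ', Module.End.mul_apply]
  by_cases hi : (i₀ : ℕ) + 1 < (h.map F₀.subtype).natDegree
  · have h2 : T (b (j₀, i₀)) = b (j₀, ⟨(i₀ : ℕ) + 1, hi⟩) := by
      rw [h1, hb j₀ ⟨(i₀ : ℕ) + 1, hi⟩]
    rw [h2, Basis.repr_self, Finsupp.single_apply]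
    split_ifs
    · exact F₀.one_mem
    · exact F₀.zero_mem
  · have hi' : (i₀ : ℕ) + 1 = (h.map F₀.subtype).natDegree := by have := i₀.2; omega
    have h3 : (aeval T (h.map F₀.subtype)) (b (j₀, ⟨0, hd0⟩)) = 0 := by rw [hT]; rfl
    rw [aeval_eq_sum_range, LinearMap.sum_apply, Finset.sum_range_succ] at h3
    simp only [LinearMap.smul_apply] at h3
    have h4 : (T ^ (h.map F₀.subtype).natDegree) (b (j₀, ⟨0, hd0⟩))
        = ∑ l : Fin (h.map F₀.subtype).natDegree,
          (-((h.map F₀.subtype).coeff (h.map F₀.subtype).natDegree)⁻¹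
            * (h.map F₀.subtype).coeff l) • b (j₀, l) := by
      have h5 := eq_neg_of_add_eq_zero_right h3
      have h6 : (T ^ (h.map F₀.subtype).natDegree) (b (j₀, ⟨0, hd0⟩))
          = ((h.map F₀.subtype).coeff (h.map F₀.subtype).natDegree)⁻¹ •
            ((h.map F₀.subtype).coeff (h.map F₀.subtype).natDegree
              • (T ^ (h.map F₀.subtype).natDegree) (b (j₀, ⟨0, hd0⟩))) := by
        rw [smul_smul, inv_mul_cancel₀ hlc, one_smul]
      rw [h6, h5,
        Finset.sum_range (fun l => (h.map F₀.subtype).coeff l • (T ^ l) (b (j₀, ⟨0, hd0⟩))),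
        smul_neg, ← neg_smul, Finset.smul_sum]
      refine Finset.sum_congr rfl (fun l _ => ?_)
      rw [smul_smul, hb j₀ l]
    rw [h1, hi', h4, map_sum, Finsupp.finsetSum_apply]
    refine F₀.sum_mem (fun l _ => ?_)
    rw [map_smul, Basis.repr_self, Finsupp.smul_apply, smul_eq_mul, Finsupp.single_apply]
    refine F₀.mul_mem (F₀.mul_mem (F₀.neg_mem (F₀.inv_mem (hcoef _))) (hcoef l)) ?_
    split_ifs
    · exact F₀.one_mem
    · exact F₀.zero_mem

end lin

end Cfsg.Agent.Helper66
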