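import Mathlib
import Cfsg.Agent.Helper71.SQDefs
import Cfsg.Agent.Helper11.SORT
import Cfsg.Agent.Helper11.SORP
import Cfsg.Agent.Helper96.T5Defs

/-!
# Helper66: PIECE CO4 of CALL S5666 (helper71): `quadric_lemma` (`n ≥ 4`, no field-size
hypothesis): a second difference in two orthogonal non-singular directions `e, f ⟂ u`.
-/

set_option autoImplicit false
set_option linter.unusedVariables false

namespace Cfsg.Agent.Helper66.SGCO4

open Matrix Cfsg.Agent.Helper71.T4 Cfsg.Agent.Helper71.SO Cfsg.Agent.Helper71.SQ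
open scoped Kronecker

variable {F : Type*} [Field F] {m n : ℕ}

section Aux

open Cfsg.Agent.Helper11.SORT Cfsg.Agent.Helper11.SORP

/-- The expansion of `(1 + X + cE) D (1 - X + cE)`. -/
theorem co4_qexp (X E D : Matrix (Fin n) (Fin n) F) (c : F) :
    (1 + X + c • E) * D * (1 - X + c • E)
      = D + (X * D - D * X) - X * D * X + c • (E * D + D * E)
        + c • (X * D * E - E * D * X) + (c * c) • (E * D * E) := by
  simp only [add_mul, mul_add, mul_sub, one_mul, mul_one, smul_mul_assoc,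
    mul_smul_comm, Matrix.mul_assoc, smul_add, smul_sub, smul_smul]
  module

/-- The double second difference kills everything except the `s²t²`-coefficient. -/
theorem co4_nine (A B E D : Matrix (Fin n) (Fin n) F) (α β : F) :
    (1 + (A + B) + (α + β) • E) * D * (1 - (A + B) + (α + β) • E)
    + (-2 : F) • ((1 + A + α • E) * D * (1 - A + α • E))
    + (1 + (A - B) + (α + β) • E) * D * (1 - (A - B) + (α + β) • E)
    + (-2 : F) • ((1 + B + β • E) * D * (1 - B + β • E))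
    + (4 : F) • D
    + (-2 : F) • ((1 + (-B) + β • E) * D * (1 - (-B) + β • E))
    + (1 + (-A + B) + (α + β) • E) * D * (1 - (-A + B) + (α + β) • E)
    + (-2 : F) • ((1 + (-A) + α • E) * D * (1 - (-A) + α • E))
    + (1 + (-A - B) + (α + β) • E) * D * (1 - (-A - B) + (α + β) • E)
    = (8 * α * β) • (E * D * E) := by
  simp only [co4_qexp]
  simp only [add_mul, mul_add, sub_mul, mul_sub, neg_mul, mul_neg, Matrix.mul_assoc]
  module

/-- In dimension at least 4 there is a non-zero vector orthogonal to three given ones. -/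
theorem co4_exists_perp3 (hn : 4 ≤ n) (v₁ v₂ v₃ : Fin n → F) :
    ∃ β : Fin n → F, β ≠ 0 ∧ β ⬝ᵥ v₁ = 0 ∧ β ⬝ᵥ v₂ = 0 ∧ β ⬝ᵥ v₃ = 0 := by
  let f : (Fin n → F) →ₗ[F] (Fin 3 → F) :=
    { toFun := fun β => ![β ⬝ᵥ v₁, β ⬝ᵥ v₂, β ⬝ᵥ v₃]
      map_add' := by
        intro x y
        ext i
        fin_cases i <;> simp [add_dotProduct]
      map_smul' := by
        intro c x
        ext i
        fin_cases i <;> simp [smul_dotProduct] }
  have hk : LinearMap.ker f ≠ ⊥ := by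
    apply LinearMap.ker_ne_bot_of_finrank_lt
    simp only [Module.finrank_pi, Fintype.card_fin]
    omega
  obtain ⟨β, hβ, hβ0⟩ := (Submodule.ne_bot_iff _).1 hk
  refine ⟨β, hβ0, ?_, ?_, ?_⟩
  · have := congrFun (LinearMap.mem_ker.1 hβ) 0
    simpa [f] using this
  · have := congrFun (LinearMap.mem_ker.1 hβ) 1
    simpa [f] using this
  · have := congrFun (LinearMap.mem_ker.1 hβ) 2
    simpa [f] using this

/-- A non-singular vector in `u^⊥` (`n ≥ 3`, `u` singular). -/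
theorem co4_exists_e (hn : 3 ≤ n) (h2 : (2 : F) ≠ 0) (S : Matrix (Fin n) (Fin n) F)
    (hS : Sᵀ = S) (hdet : S.det ≠ 0) (u : Fin n → F) (hu : u ≠ 0) (huu : bl S u u = 0) :
    ∃ w : Fin n → F, bl S u w = 0 ∧ bl S w w ≠ 0 := by
  by_contra hcon
  push Not at hcon
  obtain ⟨x₁, hx₁'⟩ := Cfsg.Agent.Helper96.T5.exists_bf_eq_one S hdet u hu
  have hx₁ : bl S u x₁ = 1 := hx₁'
  obtain ⟨z, hz, hz1, hz2⟩ := exists_perp2 hn (S *ᵥ u) (S *ᵥ x₁)
  have hzu : bl S z u = 0 := hz1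
  have hzx : bl S z x₁ = 0 := hz2
  have huz : bl S u z = 0 := by rw [bl_comm S hS, hzu]
  obtain ⟨y, hy'⟩ := Cfsg.Agent.Helper96.T5.exists_bf_eq_one S hdet z hz
  have hy : bl S z y = 1 := hy'
  have hv' : bl S u (y - bl S u y • x₁) = 0 := by
    rw [bl_sub_right, bl_smul_right, hx₁, mul_one, sub_self]
  have hq1 := hcon z huz
  have hq2 := hcon _ hv'
  have hq3 := hcon (z + (y - bl S u y • x₁)) (by rw [bl_add_right, huz, hv', add_zero])
  rw [bl_add_left, bl_add_right, bl_add_right, hq1, hq2,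
    bl_comm S hS (y - bl S u y • x₁) z] at hq3
  have h3 : bl S z (y - bl S u y • x₁) = 0 := by
    have h4 : (2 : F) * bl S z (y - bl S u y • x₁) = 0 := by linear_combination hq3
    rcases mul_eq_zero.mp h4 with h | h
    · exact absurd h h2
    · exact h
  rw [bl_sub_right, bl_smul_right, hzx, mul_zero, sub_zero, hy] at h3
  exact one_ne_zero h3

/-- A second non-singular vector in `⟨u, e⟩^⊥` (`n ≥ 4`). -/
theorem co4_exists_f (hn : 4 ≤ n) (h2 : (2 : F) ≠ 0) (S : Matrix (Fin n) (Fin n) F)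
    (hS : Sᵀ = S) (hdet : S.det ≠ 0) (u : Fin n → F) (hu : u ≠ 0) (huu : bl S u u = 0)
    (e : Fin n → F) (hue : bl S u e = 0) (hee : bl S e e ≠ 0) :
    ∃ w : Fin n → F, bl S u w = 0 ∧ bl S e w = 0 ∧ bl S w w ≠ 0 := by
  by_contra hcon
  push Not at hcon
  obtain ⟨x₁, hx₁'⟩ := Cfsg.Agent.Helper96.T5.exists_bf_eq_one S hdet u hu
  have hx₁ : bl S u x₁ = 1 := hx₁'
  obtain ⟨z, hz, hz1, hz2, hz3⟩ := co4_exists_perp3 hn (S *ᵥ u) (S *ᵥ x₁) (S *ᵥ e)
  have hzu : bl S z u = 0 := hz1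
  have hzx : bl S z x₁ = 0 := hz2
  have hze : bl S z e = 0 := hz3
  have huz : bl S u z = 0 := by rw [bl_comm S hS, hzu]
  have hez : bl S e z = 0 := by rw [bl_comm S hS, hze]
  obtain ⟨y, hy'⟩ := Cfsg.Agent.Helper96.T5.exists_bf_eq_one S hdet z hz
  have hy : bl S z y = 1 := hy'
  obtain ⟨a, ha⟩ : ∃ a : F, a = bl S u y := ⟨_, rfl⟩
  obtain ⟨b, hb⟩ : ∃ b : F, b = (bl S e y - a * bl S e x₁) / bl S e e := ⟨_, rfl⟩
  obtain ⟨y', hy'def⟩ : ∃ y' : Fin n → F, y' = y - a • x₁ - b • e := ⟨_, rfl⟩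
  have h1 : bl S u y' = 0 := by
    rw [hy'def, bl_sub_right, bl_sub_right, bl_smul_right, bl_smul_right, hx₁, hue, ← ha]
    ring
  have h2' : bl S e y' = 0 := by
    rw [hy'def, bl_sub_right, bl_sub_right, bl_smul_right, bl_smul_right, hb]
    field_simp
    ring
  have h3 : bl S z y' = 1 := by
    rw [hy'def, bl_sub_right, bl_sub_right, bl_smul_right, bl_smul_right, hzx, hze, hy]
    ring
  have hq1 := hcon z huz hez
  have hq2 := hcon y' h1 h2'
  have hq3 := hcon (z + y') (by rw [bl_add_right, huz, h1, add_zero])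
    (by rw [bl_add_right, hez, h2', add_zero])
  rw [bl_add_left, bl_add_right, bl_add_right, hq1, hq2, bl_comm S hS y' z, h3] at hq3
  have h4 : (2 : F) = 0 := by linear_combination hq3
  exact h2 h4

end Aux

/-! ## Piece CO4 -/
theorem quadric_lemma (hn : 4 ≤ n) (h2 : (2 : F) ≠ 0)
    (S : Matrix (Fin n) (Fin n) F) (hS : Sᵀ = S) (hdet : S.det ≠ 0)
    (U : Set (Matrix (Fin n) (Fin n) F))
    (hadd : ∀ D D' : Matrix (Fin n) (Fin n) F, D ∈ U → D' ∈ U → D + D' ∈ U)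
    (hsmul : ∀ (c : F) (D : Matrix (Fin n) (Fin n) F), D ∈ U → c • D ∈ U)
    (hconj : ∀ B B' D : Matrix (Fin n) (Fin n) F, Bᵀ * S * B = S → B * B' = 1 → D ∈ U →
      B * D * B' ∈ U)
    (D : Matrix (Fin n) (Fin n) F) (hD : D ∈ U) (u : Fin n → F) (hu : u ≠ 0)
    (huu : bl S u u = 0) (huD : bl S u (D *ᵥ u) ≠ 0) :
    vecMulVec u (S *ᵥ u) ∈ U := by
  obtain ⟨e, hue, hee⟩ := co4_exists_e (by omega) h2 S hS hdet u hu huu
  obtain ⟨f, huf, hef, hff⟩ := co4_exists_f hn h2 S hS hdet u hu huu e hue hee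
  have hfe : bl S f e = 0 := by rw [Cfsg.Agent.Helper11.SORT.bl_comm S hS, hef]
  obtain ⟨A, hA⟩ : ∃ A : Matrix (Fin n) (Fin n) F, A = Nuw S u e := ⟨_, rfl⟩
  obtain ⟨B, hB⟩ : ∃ B : Matrix (Fin n) (Fin n) F, B = Nuw S u f := ⟨_, rfl⟩
  obtain ⟨E, hE⟩ : ∃ E : Matrix (Fin n) (Fin n) F, E = vecMulVec u (S *ᵥ u) := ⟨_, rfl⟩
  obtain ⟨α, hα⟩ : ∃ α : F, α = -(2⁻¹ * bl S e e) := ⟨_, rfl⟩
  obtain ⟨β, hβ⟩ : ∃ β : F, β = -(2⁻¹ * bl S f f) := ⟨_, rfl⟩
  -- `N_w ^ 2 = - Q(w) E`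
  have hNN : ∀ w : Fin n → F, bl S u w = 0 →
      Nuw S u w * Nuw S u w = (-(bl S w w)) • E := by
    intro w huw
    have hwu : bl S w u = 0 := by rw [Cfsg.Agent.Helper11.SORT.bl_comm S hS, huw]
    rw [hE]
    apply Cfsg.Agent.Helper11.SORT.mv_ext
    intro x
    rw [← Matrix.mulVec_mulVec, Cfsg.Agent.Helper11.SORT.Nuw_mulVec,
      Cfsg.Agent.Helper11.SORT.Nuw_mulVec, Matrix.smul_mulVec,
      Cfsg.Agent.Helper11.SORT.vmvS_mulVec]
    simp only [Cfsg.Agent.Helper11.SORT.bl_sub_left, Cfsg.Agent.Helper11.SORT.bl_smul_left, huu,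
      huw, hwu]
    module
  have hEDE : E * D * E = bl S u (D *ᵥ u) • E := by
    rw [hE]
    apply Cfsg.Agent.Helper11.SORT.mv_ext
    intro x
    rw [Matrix.mul_assoc, ← Matrix.mulVec_mulVec, ← Matrix.mulVec_mulVec, Matrix.smul_mulVec,
      Cfsg.Agent.Helper11.SORT.vmvS_mulVec S u u x, Matrix.mulVec_smul, Matrix.mulVec_smul,
      Cfsg.Agent.Helper11.SORT.vmvS_mulVec S u u (D *ᵥ u),
      Cfsg.Agent.Helper11.SORT.bl_comm S hS (D *ᵥ u) u, smul_smul, smul_smul, mul_comm]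
  -- the root elements in the plane `⟨e, f⟩`
  have hperp : ∀ s t : F, bl S u (s • e + t • f) = 0 := by
    intro s t
    rw [Cfsg.Agent.Helper11.SORT.bl_add_right, Cfsg.Agent.Helper11.SORT.bl_smul_right,
      Cfsg.Agent.Helper11.SORT.bl_smul_right, hue, huf, mul_zero, mul_zero, add_zero]
  have hr : ∀ s t : F, ruw S u (s • e + t • f)
      = 1 + (s • A + t • B) + (s * s * α + t * t * β) • E := by
    intro s t
    have h1 : Nuw S u (s • e + t • f) = s • A + t • B := by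
      rw [hA, hB]
      apply Cfsg.Agent.Helper11.SORT.mv_ext
      intro x
      rw [Cfsg.Agent.Helper11.SORT.Nuw_mulVec, Matrix.add_mulVec, Matrix.smul_mulVec,
        Matrix.smul_mulVec, Cfsg.Agent.Helper11.SORT.Nuw_mulVec,
        Cfsg.Agent.Helper11.SORT.Nuw_mulVec, Cfsg.Agent.Helper11.SORT.bl_add_right,
        Cfsg.Agent.Helper11.SORT.bl_smul_right, Cfsg.Agent.Helper11.SORT.bl_smul_right]
      module
    have h3 : bl S (s • e + t • f) (s • e + t • f) = s * s * bl S e e + t * t * bl S f f := by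
      simp only [Cfsg.Agent.Helper11.SORT.bl_add_left, Cfsg.Agent.Helper11.SORT.bl_add_right,
        Cfsg.Agent.Helper11.SORT.bl_smul_left, Cfsg.Agent.Helper11.SORT.bl_smul_right, hef, hfe]
      ring
    unfold ruw
    rw [hNN _ (hperp s t), h1, h3, smul_smul, hα, hβ]
    congr 2
    ring
  have hr' : ∀ s t : F, ruw S u ((-s) • e + (-t) • f)
      = 1 - (s • A + t • B) + (s * s * α + t * t * β) • E := by
    intro s t
    rw [hr (-s) (-t)]
    module
  -- the nine conjugates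
  obtain ⟨T, hT⟩ : ∃ T : F → F → Matrix (Fin n) (Fin n) F,
      T = fun s t => ruw S u (s • e + t • f) * D * ruw S u ((-s) • e + (-t) • f) := ⟨_, rfl⟩
  have hTU : ∀ s t : F, T s t ∈ U := by
    intro s t
    rw [hT]
    have hB1 : (ruw S u (s • e + t • f))ᵀ * S * ruw S u (s • e + t • f) = S :=
      Cfsg.Agent.Helper11.SORT.ruw_isom h2 S hS u _ huu (hperp s t)
    have hBB : ruw S u (s • e + t • f) * ruw S u ((-s) • e + (-t) • f) = 1 := by
      rw [Cfsg.Agent.Helper11.SORP.ruw_add h2 S hS u _ _ huu (hperp s t) (hperp (-s) (-t))]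
      have h0 : s • e + t • f + ((-s) • e + (-t) • f) = 0 := by module
      rw [h0, Cfsg.Agent.Helper11.SORP.ruw_zero]
    exact hconj _ _ D hB1 hBB hD
  have hTe : ∀ s t : F, T s t
      = (1 + (s • A + t • B) + (s * s * α + t * t * β) • E) * D
        * (1 - (s • A + t • B) + (s * s * α + t * t * β) • E) := by
    intro s t
    rw [hT]
    show ruw S u (s • e + t • f) * D * ruw S u ((-s) • e + (-t) • f) = _
    rw [hr s t, hr' s t]
  have hsum : T 1 1 + (-2 : F) • T 1 0 + T 1 (-1) + (-2 : F) • T 0 1 + (4 : F) • T 0 0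
      + (-2 : F) • T 0 (-1) + T (-1) 1 + (-2 : F) • T (-1) 0 + T (-1) (-1)
      = (8 * α * β) • (E * D * E) := by
    rw [← co4_nine A B E D α β]
    have e11 : T 1 1 = (1 + (A + B) + (α + β) • E) * D * (1 - (A + B) + (α + β) • E) := by
      rw [hTe]; simp only [one_smul, one_mul]
    have e10 : T 1 0 = (1 + A + α • E) * D * (1 - A + α • E) := by
      rw [hTe]; simp only [one_smul, one_mul, zero_smul, zero_mul, add_zero]
    have e1m : T 1 (-1) = (1 + (A - B) + (α + β) • E) * D * (1 - (A - B) + (α + β) • E) := by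
      rw [hTe]
      simp only [one_smul, one_mul, neg_smul, neg_mul, mul_neg, neg_neg, ← sub_eq_add_neg]
    have e01 : T 0 1 = (1 + B + β • E) * D * (1 - B + β • E) := by
      rw [hTe]; simp only [one_smul, one_mul, zero_smul, zero_mul, zero_add]
    have e00 : T 0 0 = D := by
      rw [hTe]
      simp only [zero_smul, zero_mul, add_zero, sub_zero, Matrix.one_mul, Matrix.mul_one]
    have e0m : T 0 (-1) = (1 + (-B) + β • E) * D * (1 - (-B) + β • E) := by
      rw [hTe]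
      simp only [one_smul, one_mul, zero_smul, zero_mul, zero_add, neg_smul, neg_mul, mul_neg,
        neg_neg]
    have em1 : T (-1) 1 = (1 + (-A + B) + (α + β) • E) * D * (1 - (-A + B) + (α + β) • E) := by
      rw [hTe]
      simp only [one_smul, one_mul, neg_smul, neg_mul, mul_neg, neg_neg]
    have em0 : T (-1) 0 = (1 + (-A) + α • E) * D * (1 - (-A) + α • E) := by
      rw [hTe]
      simp only [one_smul, one_mul, zero_smul, zero_mul, add_zero, neg_smul, neg_mul, mul_neg,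
        neg_neg]
    have emm : T (-1) (-1)
        = (1 + (-A - B) + (α + β) • E) * D * (1 - (-A - B) + (α + β) • E) := by
      rw [hTe]
      simp only [one_smul, one_mul, neg_smul, neg_mul, mul_neg, neg_neg, ← sub_eq_add_neg]
    rw [e11, e10, e1m, e01, e00, e0m, em1, em0, emm]
  have hmem : (8 * α * β) • (E * D * E) ∈ U := by
    rw [← hsum]
    exact hadd _ _ (hadd _ _ (hadd _ _ (hadd _ _ (hadd _ _ (hadd _ _ (hadd _ _ (hadd _ _
      (hTU 1 1) (hsmul _ _ (hTU 1 0))) (hTU 1 (-1))) (hsmul _ _ (hTU 0 1)))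
      (hsmul _ _ (hTU 0 0))) (hsmul _ _ (hTU 0 (-1)))) (hTU (-1) 1)) (hsmul _ _ (hTU (-1) 0)))
      (hTU (-1) (-1))
  rw [hEDE, smul_smul] at hmem
  have h2i : (2⁻¹ : F) ≠ 0 := inv_ne_zero h2
  have hα0 : α ≠ 0 := by rw [hα]; exact neg_ne_zero.mpr (mul_ne_zero h2i hee)
  have hβ0 : β ≠ 0 := by rw [hβ]; exact neg_ne_zero.mpr (mul_ne_zero h2i hff)
  have h8 : (8 : F) ≠ 0 := by
    have : (8 : F) = 2 * 2 * 2 := by norm_num
    rw [this]
    exact mul_ne_zero (mul_ne_zero h2 h2) h2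
  have hc : 8 * α * β * bl S u (D *ᵥ u) ≠ 0 :=
    mul_ne_zero (mul_ne_zero (mul_ne_zero h8 hα0) hβ0) huD
  have h7 := hsmul (8 * α * β * bl S u (D *ᵥ u))⁻¹ _ hmem
  rw [smul_smul, inv_mul_cancel₀ hc, one_smul] at h7
  rw [← hE]
  exact h7

end Cfsg.Agent.Helper66.SGCO4
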