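import Mathlib
import Cfsg.Agent.Helper66.ZassPSL

set_option autoImplicit false

/-!
# Sharply 3-transitive groups of degree `p ^ f + 1`, `p` and `f` odd, are `PGL₂` (helper66)

* `ringHom_invol_eq_id`: an involutory ring endomorphism of a field with `p ^ f` elements, `f` odd,
  is the identity.
* `inv_of_kt'`: variant of `inv_of_kt` without `-1 ∈ S`, assuming `j (-x) = -j x`.
* `sharp3_pgl`: the recognition theorem in abstract form.
-/

namespace Cfsg.Agent.Helper66

open OnePoint Matrix MulAction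

theorem ringHom_invol_eq_id {K : Type*} [Field K] [Fintype K] {p f : ℕ} (hp : p.Prime)
    (hf : Odd f) (hK : Fintype.card K = p ^ f) (h2 : (2 : K) ≠ 0) (θ : K →+* K)
    (hθ : ∀ x, θ (θ x) = x) : ∀ x, θ x = x := by
  classical
  by_contra hcon
  push Not at hcon
  obtain ⟨x₀, hx₀⟩ := hcon
  obtain ⟨u, hu⟩ : ∃ u : K, u = x₀ - θ x₀ := ⟨_, rfl⟩
  have hu0 : u ≠ 0 := by rw [hu]; exact sub_ne_zero.mpr (Ne.symm hx₀)
  have hθu : θ u = -u := by rw [hu, map_sub, hθ]; ring
  obtain ⟨K0, hK0⟩ : ∃ K0 : Finset K, ∀ x, x ∈ K0 ↔ θ x = x :=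
    ⟨Finset.univ.filter (fun x => θ x = x), fun x => by simp⟩
  obtain ⟨K1, hK1⟩ : ∃ K1 : Finset K, ∀ x, x ∈ K1 ↔ θ x = -x :=
    ⟨Finset.univ.filter (fun x => θ x = -x), fun x => by simp⟩
  have h01 : K0.card = K1.card := by
    apply Finset.card_bij (fun x _ => u * x)
    · intro x hx
      rw [hK0] at hx
      rw [hK1, map_mul, hθu, hx]
      ring
    · intro x _ y _ h
      exact mul_left_cancel₀ hu0 h
    · intro y hy
      rw [hK1] at hy
      refine ⟨u⁻¹ * y, ?_, ?_⟩
      · rw [hK0, map_mul, map_inv₀, hθu, hy]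
        field_simp
      · field_simp
  have hprod : Fintype.card K = K0.card * K1.card := by
    rw [← Finset.card_product, ← Finset.card_univ]
    symm
    apply Finset.card_bij (fun (pr : K × K) _ => pr.1 + pr.2)
    · intro pr _
      exact Finset.mem_univ _
    · rintro ⟨a, b⟩ hab ⟨a', b'⟩ hab' h
      rw [Finset.mem_product, hK0, hK1] at hab hab'
      have h' : a + b = a' + b' := h
      have h'' : a - b = a' - b' := by
        have := congrArg θ h'
        rw [map_add, map_add, hab.1, hab.2, hab'.1, hab'.2] at this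
        linear_combination this
      have ha : a = a' := by
        have : (2 : K) * (a - a') = 0 := by linear_combination h' + h''
        rcases mul_eq_zero.mp this with h | h
        · exact absurd h h2
        · exact sub_eq_zero.mp h
      have hb : b = b' := by
        rw [ha] at h'
        exact add_left_cancel h'
      rw [ha, hb]
    · intro x _
      refine ⟨((x + θ x) / 2, (x - θ x) / 2), ?_, ?_⟩
      · rw [Finset.mem_product, hK0, hK1]
        constructor
        · show θ ((x + θ x) / 2) = (x + θ x) / 2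
          rw [map_div₀, map_add, hθ, map_ofNat]
          ring
        · show θ ((x - θ x) / 2) = -((x - θ x) / 2)
          rw [map_div₀, map_sub, hθ, map_ofNat]
          ring
      · show (x + θ x) / 2 + (x - θ x) / 2 = x
        field_simp
        ring
  rw [hK, ← h01] at hprod
  obtain ⟨j, hj⟩ := hf
  have hdvd : K0.card ∣ p ^ f := ⟨K0.card, hprod⟩
  obtain ⟨i, hi, hKi⟩ := (Nat.dvd_prime_pow hp).mp hdvd
  rw [hKi, ← pow_add] at hprod
  have := Nat.pow_right_injective hp.two_le hprod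
  omega

theorem inv_of_kt' {K : Type*} [Field K] (h2 : (2 : K) ≠ 0) (S : Subgroup Kˣ) (hS : S.index = 2)
    (j : K → K) (hj0 : ∀ x, x ≠ 0 → j x ≠ 0) (hjj : ∀ x, x ≠ 0 → j (j x) = x)
    (hjS : ∀ u : Kˣ, u ∈ S → ∀ x : K, x ≠ 0 → j ((u : K) * x) = (u : K)⁻¹ * j x)
    (hj1 : j 1 = 1) (hjneg : ∀ x, x ≠ 0 → j (-x) = -j x)
    (hω : ∀ x, x ≠ 0 → x ≠ 1 → 1 - j (1 - j (1 - j x)) = x) :
    ∀ x, x ≠ 0 → j x = x⁻¹ := by
  by_cases hneg : (-1 : Kˣ) ∈ S
  · exact inv_of_kt h2 S hS hneg j hj0 hjj hjS hj1 hω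
  · intro x hx
    have hS1 : ∀ u : Kˣ, u ∈ S → j (u : K) = (u : K)⁻¹ := by
      intro u hu
      have := hjS u hu 1 one_ne_zero
      rwa [mul_one, hj1, mul_one] at this
    by_cases hxS : Units.mk0 x hx ∈ S
    · exact hS1 _ hxS
    · have h1 : (-1 : Kˣ) * Units.mk0 x hx ∈ S := by
        rw [Subgroup.mul_mem_iff_of_index_two hS]
        exact ⟨fun h => absurd h hneg, fun h => absurd h hxS⟩
      have h3 := hS1 _ h1
      have h4 : (((-1 : Kˣ) * Units.mk0 x hx : Kˣ) : K) = -x := by simp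
      rw [h4, hjneg x hx, inv_neg] at h3
      exact neg_injective h3

/-- **Zassenhaus.** Recognition of `PGL₂(K)`, `|K| = p ^ f` with `p`, `f` odd, from a sharply
3-transitive action (abstract form: `T` the regular normal abelian subgroup of `G_a`, `N` an
`s`-invariant subgroup of index two in `G_{a,b}`). -/
theorem sharp3_pgl {G Ω : Type*} [Group G] [MulAction G Ω] [Finite G] [Fintype Ω]
    [FaithfulSMul G Ω] {p f : ℕ} (hp : p.Prime) (hp2 : p ≠ 2) (hfo : Odd f)
    (hΩ : Fintype.card Ω = p ^ f + 1)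
    (h3s : ∀ g : G, ∀ x y z : Ω, x ≠ y → y ≠ z → x ≠ z → g • x = x → g • y = y → g • z = z →
      g = 1)
    {a b c : Ω} (hab : a ≠ b) (hca : c ≠ a) (hcb : c ≠ b)
    (T : Subgroup G) (hT1 : ∀ t ∈ T, t • a = a)
    (hT2 : ∀ g : G, g • a = a → ∀ t ∈ T, g * t * g⁻¹ ∈ T)
    (hT3 : ∀ t ∈ T, t ≠ 1 → ∀ x : Ω, x ≠ a → t • x ≠ x)
    (hT4 : ∀ x y : Ω, x ≠ a → y ≠ a → ∃ t ∈ T, t • x = y)
    (hTc : ∀ t ∈ T, ∀ t' ∈ T, t * t' = t' * t)
    (htr : ∀ x : Ω, x ≠ a → x ≠ b → ∃ k : G, k • a = a ∧ k • b = b ∧ k • c = x)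
    (s : G) (hsa : s • a = b) (hsb : s • b = a) (hsc : s • c = c)
    (N : Subgroup G) (hNle : N ≤ stabilizer G a ⊓ stabilizer G b)
    (hNn : (N.subgroupOf (stabilizer G a ⊓ stabilizer G b)).Normal)
    (hNidx : N.relIndex (stabilizer G a ⊓ stabilizer G b) = 2)
    (hNs : ∀ n ∈ N, s * n * s⁻¹ ∈ N) :
    ∃ (K : Type) (_ : Field K) (_ : Fintype K), Fintype.card K = p ^ f ∧
      Nonempty (G ≃* Matrix.ProjGenLinGroup (Fin 2) K) := by
  classical
  have hss : s * s = 1 := h3s _ a b c hab (Ne.symm hcb) (Ne.symm hca)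
    (by rw [mul_smul, hsa, hsb]) (by rw [mul_smul, hsb, hsa]) (by rw [mul_smul, hsc, hsc])
  have hsinv : s⁻¹ = s := inv_eq_of_mul_eq_one_left hss
  have hs1 : s ≠ 1 := by
    rintro rfl
    rw [one_smul] at hsa
    exact hab hsa
  obtain ⟨H, hH⟩ : ∃ H : Subgroup G, H = stabilizer G a ⊓ stabilizer G b := ⟨_, rfl⟩
  rw [← hH] at hNle hNn hNidx
  have hHmem : ∀ x : G, x ∈ H ↔ x • a = a ∧ x • b = b := by
    intro x
    rw [hH, Subgroup.mem_inf, mem_stabilizer_iff, mem_stabilizer_iff]
  have hHinj : ∀ u ∈ H, ∀ v ∈ H, u • c = v • c → u = v := by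
    intro u hu v hv h
    have h1 : v⁻¹ * u = 1 := by
      apply h3s _ a b c hab (Ne.symm hcb) (Ne.symm hca)
      · rw [mul_smul, ((hHmem u).mp hu).1, inv_smul_eq_iff, ((hHmem v).mp hv).1]
      · rw [mul_smul, ((hHmem u).mp hu).2, inv_smul_eq_iff, ((hHmem v).mp hv).2]
      · rw [mul_smul, h, inv_smul_smul]
    exact (inv_mul_eq_one.mp h1).symm
  have hΩ2 : 2 ≤ Fintype.card Ω := by
    have : ({a, b} : Finset Ω).card ≤ Fintype.card Ω := Finset.card_le_univ _
    rwa [Finset.card_pair hab] at this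
  -- `|T| = |Ω| - 1`
  have hTeq : ∀ t ∈ T, ∀ t' ∈ T, ∀ x : Ω, x ≠ a → t • x = t' • x → t = t' := by
    intro t ht t' ht' x hx h
    by_contra hne
    have h1 : t'⁻¹ * t ≠ 1 := fun h' => hne (inv_mul_eq_one.mp h').symm
    exact hT3 _ (T.mul_mem (T.inv_mem ht') ht) h1 x hx (by rw [mul_smul, h, inv_smul_smul])
  have hcardT : Nat.card T = Fintype.card Ω - 1 := by
    have hub_ne_a : ∀ u : T, (u : G) • b ≠ a := by
      intro u h
      have : (u : G) • b = (u : G) • a := by rw [hT1 u u.2]; exact h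
      exact hab ((MulAction.injective (u : G)) this).symm
    have h1 : Nat.card T = Nat.card {y : Ω // y ≠ a} := by
      apply Nat.card_congr
      refine Equiv.ofBijective (fun u => ⟨(u : G) • b, hub_ne_a u⟩) ⟨?_, ?_⟩
      · intro u u' h
        have h' : (u : G) • b = (u' : G) • b := congrArg Subtype.val h
        exact Subtype.ext (hTeq _ u.2 _ u'.2 b hab.symm h')
      · rintro ⟨z, hz⟩
        obtain ⟨w, hw, hwz⟩ := hT4 b z hab.symm hz
        exact ⟨⟨w, hw⟩, Subtype.ext hwz⟩
    rw [h1, Nat.card_eq_fintype_card, Fintype.card_subtype_compl, Fintype.card_subtype_eq]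
  -- `|H| = |Ω| - 2`
  have hcardH : Nat.card H = Fintype.card Ω - 2 := by
    have hmem : ∀ k : H, (k : G) • c ≠ a ∧ (k : G) • c ≠ b := by
      intro k
      obtain ⟨hka, hkb⟩ := (hHmem _).mp k.2
      constructor
      · intro h
        have : (k : G) • c = (k : G) • a := by rw [hka]; exact h
        exact hca (MulAction.injective (k : G) this)
      · intro h
        have : (k : G) • c = (k : G) • b := by rw [hkb]; exact h
        exact hcb (MulAction.injective (k : G) this)
    have h1 : Nat.card H = Nat.card {x : Ω // x ≠ a ∧ x ≠ b} := by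
      apply Nat.card_congr
      refine Equiv.ofBijective (fun k => ⟨(k : G) • c, hmem k⟩) ⟨?_, ?_⟩
      · intro k k' hkk
        exact Subtype.ext (hHinj _ k.2 _ k'.2 (congrArg Subtype.val hkk))
      · rintro ⟨x, hxa, hxb⟩
        obtain ⟨k, hka, hkb, hkc⟩ := htr x hxa hxb
        exact ⟨⟨k, (hHmem k).mpr ⟨hka, hkb⟩⟩, Subtype.ext hkc⟩
    rw [h1, Nat.card_eq_fintype_card, Fintype.card_subtype]
    have : (Finset.univ.filter (fun x : Ω => x ≠ a ∧ x ≠ b)) = Finset.univ \ {a, b} := by
      ext x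
      simp [not_or]
    rw [this, Finset.card_univ_sdiff, Finset.card_pair hab]
  have hcardN : Nat.card H = 2 * Nat.card N := by
    have h1 := Subgroup.index_mul_card (N.subgroupOf H)
    rw [show (N.subgroupOf H).index = 2 from hNidx] at h1
    rw [← h1, Nat.card_congr (Subgroup.subgroupOfEquivOfLe hNle).toEquiv]
  -- `N` is inverted by `s`
  have hmulN : ∀ x y : G, x ∈ H → y ∈ H → (x * y ∈ N ↔ (x ∈ N ↔ y ∈ N)) := by
    intro x y hx hy
    have := Subgroup.mul_mem_iff_of_index_two (H := N.subgroupOf H) hNidx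
      (a := ⟨x, hx⟩) (b := ⟨y, hy⟩)
    simpa [Subgroup.mem_subgroupOf] using this
  have hNs' : ∀ x : G, (s * x * s⁻¹ ∈ N ↔ x ∈ N) := by
    intro x
    constructor
    · intro h
      have h' := hNs _ h
      have e : s * (s * x * s⁻¹) * s⁻¹ = x := by
        rw [hsinv]
        calc s * (s * x * s) * s = (s * s) * x * (s * s) := by group
          _ = x := by rw [hss, one_mul, mul_one]
      rwa [e] at h'
    · exact hNs x
  have hconjH : ∀ x ∈ H, s * x * s⁻¹ ∈ H := by
    intro x hx
    obtain ⟨hxa, hxb⟩ := (hHmem x).mp hx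
    rw [hsinv]
    exact (hHmem _).mpr ⟨by rw [mul_smul, mul_smul, hsa, hxb, hsb],
      by rw [mul_smul, mul_smul, hsb, hxa, hsa]⟩
  have hNinv : ∀ n ∈ N, s * n * s⁻¹ = n⁻¹ := by
    have := Fintype.ofFinite G
    obtain ⟨F, hF⟩ : ∃ F : G → G, ∀ k, F k = s * k * s⁻¹ * k⁻¹ := ⟨_, fun _ => rfl⟩
    have hFN : ∀ k ∈ H, F k ∈ N := by
      intro k hk
      rw [hF, hmulN _ _ (hconjH k hk) (H.inv_mem hk), hNs' k, inv_mem_iff]
    have hcent : ∀ u ∈ H, s * u * s⁻¹ = u → s • (u • c) = u • c := by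
      intro u _ hu
      have : s * u = u * s := by
        calc s * u = s * u * s⁻¹ * s := by group
          _ = u * s := by rw [hu]
      rw [← mul_smul, this, mul_smul, hsc]
    have key : ∀ k₁ k₂ : G, F k₁ = F k₂ → s * (k₁⁻¹ * k₂) * s⁻¹ = k₁⁻¹ * k₂ := by
      intro k₁ k₂ h
      rw [hF, hF] at h
      calc s * (k₁⁻¹ * k₂) * s⁻¹ = (s * k₁ * s⁻¹)⁻¹ * ((s * k₂ * s⁻¹ * k₂⁻¹) * k₂) := by group
        _ = (s * k₁ * s⁻¹)⁻¹ * ((s * k₁ * s⁻¹ * k₁⁻¹) * k₂) := by rw [h]
        _ = k₁⁻¹ * k₂ := by group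
    have hfib : ∀ n ∈ (Finset.univ.filter (fun k : G => k ∈ H)).image F,
        ((Finset.univ.filter (fun k : G => k ∈ H)).filter (fun k => F k = n)).card ≤ 2 := by
      intro n _
      by_contra hcon
      push Not at hcon
      rw [Finset.two_lt_card] at hcon
      obtain ⟨k, hk, k', hk', k'', hk'', h1, h2, h3⟩ := hcon
      simp only [Finset.mem_filter, Finset.mem_univ, true_and] at hk hk' hk''
      have hu := key k k' (hk.2.trans hk'.2.symm)
      have hv := key k k'' (hk.2.trans hk''.2.symm)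
      have huH : k⁻¹ * k' ∈ H := H.mul_mem (H.inv_mem hk.1) hk'.1
      have hvH : k⁻¹ * k'' ∈ H := H.mul_mem (H.inv_mem hk.1) hk''.1
      have e1 : c ≠ (k⁻¹ * k') • c := by
        intro h
        have := hHinj 1 H.one_mem _ huH (by rw [one_smul]; exact h)
        exact h1 (inv_mul_eq_one.mp this.symm)
      have e2 : c ≠ (k⁻¹ * k'') • c := by
        intro h
        have := hHinj 1 H.one_mem _ hvH (by rw [one_smul]; exact h)
        exact h2 (inv_mul_eq_one.mp this.symm)
      have e3 : (k⁻¹ * k') • c ≠ (k⁻¹ * k'') • c := by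
        intro h
        have := hHinj _ huH _ hvH h
        exact h3 (mul_left_cancel this)
      exact hs1 (h3s s c _ _ e1 e3 e2 hsc (hcent _ huH hu) (hcent _ hvH hv))
    have hcardle := Finset.card_le_mul_card_image (Finset.univ.filter (fun k : G => k ∈ H)) 2 hfib
    have hsub : (Finset.univ.filter (fun k : G => k ∈ H)).image F ⊆
        Finset.univ.filter (fun k : G => k ∈ N) := by
      intro n hn
      rw [Finset.mem_image] at hn
      obtain ⟨k, hk, rfl⟩ := hn
      simp only [Finset.mem_filter, Finset.mem_univ, true_and] at hk ⊢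
      exact hFN k hk
    have hHf : (Finset.univ.filter (fun k : G => k ∈ H)).card = Nat.card H := by
      rw [Nat.card_eq_fintype_card]
      exact (Fintype.card_of_subtype _ (fun x => by simp)).symm
    have hNf : (Finset.univ.filter (fun k : G => k ∈ N)).card = Nat.card N := by
      rw [Nat.card_eq_fintype_card]
      exact (Fintype.card_of_subtype _ (fun x => by simp)).symm
    have himg : (Finset.univ.filter (fun k : G => k ∈ H)).image F =
        Finset.univ.filter (fun k : G => k ∈ N) := by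
      apply Finset.eq_of_subset_of_card_le hsub
      omega
    intro n hn
    have hmem : n ∈ (Finset.univ.filter (fun k : G => k ∈ H)).image F := by
      rw [himg]
      simp [hn]
    rw [Finset.mem_image] at hmem
    obtain ⟨k, _, rfl⟩ := hmem
    rw [hF, hsinv]
    have e : (s * k * s * k⁻¹)⁻¹ = k * s⁻¹ * k⁻¹ * s⁻¹ := by group
    rw [e, hsinv]
    calc s * (s * k * s * k⁻¹) * s = (s * s) * k * s * k⁻¹ * s := by group
      _ = k * s * k⁻¹ * s := by rw [hss, one_mul]
  have hNc : ∀ h ∈ N, ∀ h' ∈ N, h * h' = h' * h := by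
    intro h hh h' hh'
    have e1 := hNinv h hh
    have e2 := hNinv h' hh'
    have e3 := hNinv (h * h') (N.mul_mem hh hh')
    have e4 : s * (h * h') * s⁻¹ = (s * h * s⁻¹) * (s * h' * s⁻¹) := by group
    rw [e3, e1, e2] at e4
    have := congrArg (fun x => x⁻¹) e4
    simpa [_root_.mul_inv_rev] using this
  -- coordinates from `N`
  have hNb : ∀ h ∈ N, h • b = b := fun h hh => ((hHmem h).mp (hNle hh)).2
  have hNn' : ∀ h ∈ N, ∀ t ∈ T, h * t * h⁻¹ ∈ T :=
    fun h hh t ht => hT2 h ((hHmem h).mp (hNle hh)).1 t ht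
  have hNfix : ∀ h ∈ N, ∀ x : Ω, x ≠ a → x ≠ b → h • x = x → h = 1 := by
    intro h hh x hxa hxb hx
    obtain ⟨hha, hhb⟩ := (hHmem h).mp (hNle hh)
    exact h3s h a b x hab (Ne.symm hxb) (Ne.symm hxa) hha hhb hx
  have hcard0 : Nat.card T = 2 * Nat.card N + 1 := by omega
  obtain ⟨K, instF, instFt, instD, ι, μ, hιinf, hι0, hι1, hTm, hμact, hμmul, hμ1, hμ0, hμinj, hKT,
    h2K⟩ := exists_coord a b c hab hca hcb T hT1 hT3 hT4 hTc N hNb hNn' hNc hNfix (le_of_eq hcard0)
  have hKcard : Fintype.card K = p ^ f := by rw [hKT, hcardT, hΩ]; omega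
  have hKN : Fintype.card K = 2 * Nat.card N + 1 := by rw [hKT, hcard0]
  have h2K' : (2 : K) ≠ 0 := by
    intro h
    obtain ⟨t, ht, ht1, htt⟩ := h2K h
    have ho : orderOf (⟨t, ht⟩ : T) = 2 := by
      apply orderOf_eq_prime
      · apply Subtype.ext
        show t ^ 2 = 1
        rw [pow_two]; exact htt
      · intro h'
        exact ht1 (congrArg Subtype.val h')
    have := orderOf_dvd_natCard (⟨t, ht⟩ : T)
    rw [ho, hcard0] at this
    omega
  have hιinj := ι.injective
  have hcoe_ne_a : ∀ x : K, ι (x : OnePoint K) ≠ a := by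
    intro x h
    rw [← hιinf] at h
    exact OnePoint.coe_ne_infty x (hιinj h)
  have hcoe_eq_b : ∀ x : K, ι (x : OnePoint K) = b → x = 0 := by
    intro x h
    rw [← hι0] at h
    exact OnePoint.coe_injective (hιinj h)
  have hcoe_inj : ∀ x y : K, ι (x : OnePoint K) = ι (y : OnePoint K) → x = y :=
    fun x y h => OnePoint.coe_injective (hιinj h)
  have htrans : ∀ r : K, ∃ t ∈ T, ∀ x : K,
      t • ι (x : OnePoint K) = ι ((x + r : K) : OnePoint K) := by
    intro r
    obtain ⟨t, ht, hm⟩ := hTm r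
    exact ⟨t, ht, fun x => by rw [hm (x : OnePoint K), mbT_smul_coe]⟩
  -- every element of `H` acts as a multiplication
  have hL : ∀ y ∈ H, ∃ cy : K, cy ≠ 0 ∧
      ∀ x : K, y • ι (x : OnePoint K) = ι ((cy * x : K) : OnePoint K) := by
    intro y hy
    obtain ⟨hya, hyb⟩ := (hHmem y).mp hy
    have hφex : ∀ x : K, ∃ x' : K, y • ι (x : OnePoint K) = ι (x' : OnePoint K) := by
      intro x
      obtain ⟨w, hw⟩ := ι.surjective (y • ι (x : OnePoint K))
      cases w with
      | infty =>
        exfalso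
        rw [hιinf] at hw
        apply hcoe_ne_a x
        have : y • ι (x : OnePoint K) = y • a := by rw [hya]; exact hw.symm
        exact MulAction.injective y this
      | coe x' => exact ⟨x', hw.symm⟩
    choose φ hφ using hφex
    have hφ0 : φ 0 = 0 := by
      apply hcoe_inj
      rw [← hφ 0, hι0, hyb]
    have hφinj : Function.Injective φ := by
      intro x x' h
      apply hcoe_inj
      apply MulAction.injective y
      show y • ι (x : OnePoint K) = y • ι (x' : OnePoint K)
      rw [hφ, hφ, h]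
    have hφadd : ∀ x r : K, φ (x + r) = φ x + φ r := by
      intro x r
      obtain ⟨t, ht, htx⟩ := htrans r
      obtain ⟨t', ht', htx'⟩ := htrans (φ r)
      have hconj : y * t * y⁻¹ = t' := by
        apply hTeq _ (hT2 y hya t ht) _ ht' b hab.symm
        rw [mul_smul, mul_smul, inv_smul_eq_iff.mpr hyb.symm, ← hι0, htx, htx', hφ, zero_add,
          zero_add]
      apply hcoe_inj
      rw [← hφ, ← htx x, ← mul_smul]
      have : y * t = t' * y := by rw [← hconj]; group
      rw [this, mul_smul, hφ, htx']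
    have hφN : ∀ n : N, ∃ n' : N, ∀ x : K, φ (μ n * x) = μ n' * φ x := by
      intro n
      have hn' : y * (n : G) * y⁻¹ ∈ N := by
        have := hNn.conj_mem ⟨(n : G), hNle n.2⟩ (Subgroup.mem_subgroupOf.mpr n.2) ⟨y, hy⟩
        exact Subgroup.mem_subgroupOf.mp this
      obtain ⟨n', hn'eq⟩ : ∃ n' : N, (n' : G) = y * (n : G) * y⁻¹ := ⟨⟨_, hn'⟩, rfl⟩
      refine ⟨n', fun x => ?_⟩
      apply hcoe_inj
      rw [← hφ, ← hμact n x, ← mul_smul]
      have : y * (n : G) = (n' : G) * y := by rw [hn'eq]; group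
      rw [this, mul_smul, hφ, hμact n' (φ x)]
    obtain ⟨cy, hcy⟩ : ∃ cy : K, cy = φ 1 := ⟨_, rfl⟩
    have hcy0 : cy ≠ 0 := by
      rw [hcy]
      intro h
      rw [← hφ0] at h
      exact one_ne_zero (hφinj h)
    obtain ⟨θ, hθ⟩ : ∃ θ : K → K, ∀ x, θ x = cy⁻¹ * φ x := ⟨_, fun _ => rfl⟩
    have hθadd : ∀ x r : K, θ (x + r) = θ x + θ r := by
      intro x r
      rw [hθ, hθ, hθ, hφadd]
      ring
    have hθ0 : θ 0 = 0 := by rw [hθ, hφ0, mul_zero]
    have hθ1 : θ 1 = 1 := by rw [hθ, ← hcy, inv_mul_cancel₀ hcy0]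
    have hθneg : ∀ w : K, θ (-w) = -θ w := by
      intro w
      have := hθadd w (-w)
      rw [add_neg_cancel, hθ0] at this
      exact eq_neg_of_add_eq_zero_right this.symm
    have hθS : ∀ n : N, ∀ x : K, θ (μ n * x) = θ (μ n) * θ x := by
      intro n x
      obtain ⟨n', hn'⟩ := hφN n
      have h1 := hn' x
      have h2 := hn' 1
      rw [mul_one, ← hcy] at h2
      rw [hθ, hθ, hθ, h1, h2]
      field_simp
    let A : AddSubgroup K :=
      { carrier := {u | ∀ x, θ (u * x) = θ u * θ x}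
        zero_mem' := fun x => by rw [zero_mul, hθ0, zero_mul]
        add_mem' := fun {u v} hu hv x => by
          rw [add_mul, hθadd, hθadd, hu x, hv x, add_mul]
        neg_mem' := fun {u} hu x => by
          rw [neg_mul, hθneg, hθneg, hu x, neg_mul] }
    have hAtop : A = ⊤ := by
      let g : Option N → A := fun o => o.elim 0 (fun n => ⟨μ n, fun x => hθS n x⟩)
      have hg : Function.Injective g := by
        intro o o' h
        cases o with
        | none =>
          cases o' with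
          | none => rfl
          | some n' =>
            exfalso
            have h1 : (0 : K) = μ n' := congrArg Subtype.val h
            exact hμ0 n' h1.symm
        | some n =>
          cases o' with
          | none =>
            exfalso
            have h1 : μ n = (0 : K) := congrArg Subtype.val h
            exact hμ0 n h1
          | some n' =>
            have h1 : μ n = μ n' := congrArg Subtype.val h
            rw [hμinj h1]
      have h1 : Nat.card N + 1 ≤ Nat.card A := by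
        rw [← Finite.card_option]
        exact Nat.card_le_card_of_injective g hg
      obtain ⟨k, hk⟩ := AddSubgroup.card_addSubgroup_dvd_card A
      rw [Nat.card_eq_fintype_card (α := K), hKN] at hk
      have hk1 : k = 1 := by
        rcases Nat.lt_or_ge k 2 with h | h
        · interval_cases k
          · omega
          · rfl
        · exfalso
          have : Nat.card A * 2 ≤ Nat.card A * k := Nat.mul_le_mul_left _ h
          omega
      rw [hk1, mul_one] at hk
      apply (AddSubgroup.card_eq_iff_eq_top A).mp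
      rw [Nat.card_eq_fintype_card (α := K), hKN]
      exact hk.symm
    have hθmul : ∀ u x : K, θ (u * x) = θ u * θ x := by
      intro u x
      have : u ∈ A := by rw [hAtop]; exact AddSubgroup.mem_top u
      exact this x
    let θ' : K →+* K :=
      { toFun := θ
        map_one' := hθ1
        map_mul' := hθmul
        map_zero' := hθ0
        map_add' := hθadd }
    have hyy : y * y ∈ N := (hmulN y y hy hy).mpr Iff.rfl
    have hφφ : ∀ x : K, φ (φ x) = μ ⟨y * y, hyy⟩ * x := by
      intro x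
      apply hcoe_inj
      rw [← hφ, ← hφ, ← mul_smul]
      exact hμact ⟨y * y, hyy⟩ x
    have hφθ : ∀ x : K, φ x = cy * θ x := by
      intro x
      rw [hθ, ← mul_assoc, mul_inv_cancel₀ hcy0, one_mul]
    have hm : cy * θ cy = μ ⟨y * y, hyy⟩ := by
      have := hφφ 1
      rw [mul_one, ← hcy, hφθ cy] at this
      exact this
    have hθθ : ∀ x : K, θ (θ x) = x := by
      intro x
      have h1 := hφφ x
      rw [hφθ x, hφθ (cy * θ x), hθmul, ← hm] at h1
      have h0 : cy * θ cy ≠ 0 := by rw [hm]; exact hμ0 _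
      have : cy * θ cy * (θ (θ x) - x) = 0 := by linear_combination h1
      rcases mul_eq_zero.mp this with h | h
      · exact absurd h h0
      · exact sub_eq_zero.mp h
    have hθid := ringHom_invol_eq_id hp hfo hKcard h2K' θ' hθθ
    refine ⟨cy, hcy0, fun x => ?_⟩
    rw [hφ, hφθ, show θ x = x from hθid x]
  -- all multiplications are realised
  have hDex : ∀ u : K, u ≠ 0 → ∃ g ∈ H, ∀ x : K,
      g • ι (x : OnePoint K) = ι ((u * x : K) : OnePoint K) := by
    intro u hu
    have h1 : ι (u : OnePoint K) ≠ a := hcoe_ne_a u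
    have h2 : ι (u : OnePoint K) ≠ b := fun h => hu (hcoe_eq_b u h)
    obtain ⟨k, hka, hkb, hkc⟩ := htr _ h1 h2
    have hkH : k ∈ H := (hHmem k).mpr ⟨hka, hkb⟩
    obtain ⟨ck, hck0, hck⟩ := hL k hkH
    have : ck = u := by
      apply hcoe_inj
      rw [← hkc, ← hι1, hck 1, mul_one]
    rw [this] at hck
    exact ⟨k, hkH, hck⟩
  obtain ⟨z, hzH, hzact'⟩ := hDex (-1) (neg_ne_zero.mpr one_ne_zero)
  have hzact : ∀ x : K, z • ι (x : OnePoint K) = ι ((-x : K) : OnePoint K) := by
    intro x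
    rw [hzact' x, neg_one_mul]
  obtain ⟨hza, hzb⟩ := (hHmem z).mp hzH
  have hzz : z * z = 1 := by
    apply h3s _ a b c hab (Ne.symm hcb) (Ne.symm hca)
    · rw [mul_smul, hza, hza]
    · rw [mul_smul, hzb, hzb]
    · rw [mul_smul, ← hι1, hzact, hzact, neg_neg]
  have hsz : s * z = z * s := by
    have hH' := hconjH z hzH
    obtain ⟨c', hc'0, hc'⟩ := hL _ hH'
    have hsq : (s * z * s⁻¹) * (s * z * s⁻¹) = 1 := by
      calc (s * z * s⁻¹) * (s * z * s⁻¹) = s * (z * z) * s⁻¹ := by group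
        _ = 1 := by rw [hzz, mul_one, mul_inv_cancel]
    have hc'2 : c' * c' = 1 := by
      have e1 : (s * z * s⁻¹) • ((s * z * s⁻¹) • ι ((1 : K) : OnePoint K)) =
          ι ((1 : K) : OnePoint K) := by rw [← mul_smul, hsq, one_smul]
      rw [hc' 1, hc' (c' * 1), mul_one] at e1
      exact hcoe_inj _ _ e1
    have h7 : s * z * s⁻¹ = z := by
      rcases mul_self_eq_one_iff.mp hc'2 with h | h
      · exfalso
        have h8 : s * z * s⁻¹ = 1 := h3s _ a b c hab (Ne.symm hcb) (Ne.symm hca)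
          ((hHmem _).mp hH').1 ((hHmem _).mp hH').2 (by rw [← hι1, hc' 1, h, mul_one])
        have hz1 : z = 1 := by
          have := congrArg (fun g => s⁻¹ * g * s) h8
          simpa [mul_assoc] using this
        have h5 := hzact 1
        rw [hz1, one_smul] at h5
        have h6 := hcoe_inj _ _ h5
        apply h2K'
        linear_combination h6
      · have h8 : z⁻¹ * (s * z * s⁻¹) = 1 := by
          apply h3s _ a b c hab (Ne.symm hcb) (Ne.symm hca)
          · rw [mul_smul, ((hHmem _).mp hH').1, inv_smul_eq_iff, hza]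
          · rw [mul_smul, ((hHmem _).mp hH').2, inv_smul_eq_iff, hzb]
          · rw [mul_smul, inv_smul_eq_iff, ← hι1, hc' 1, h, hzact, mul_one]
        exact (inv_mul_eq_one.mp h8).symm
    calc s * z = s * z * s⁻¹ * s := by group
      _ = z * s := by rw [h7]
  -- the map `j`
  have hj : ∀ x : K, ∃ y : K, x ≠ 0 →
      (s • ι (x : OnePoint K) = ι (y : OnePoint K) ∧ y ≠ 0) := by
    intro x
    by_cases hx : x = 0
    · exact ⟨0, fun h => absurd hx h⟩
    · obtain ⟨w, hw⟩ := ι.surjective (s • ι (x : OnePoint K))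
      cases w with
      | infty =>
        exfalso
        apply hx
        apply hcoe_eq_b
        rw [hιinf] at hw
        rw [← hsa, hw, ← mul_smul, hss, one_smul]
      | coe y =>
        refine ⟨y, fun _ => ⟨hw.symm, ?_⟩⟩
        intro hy
        rw [hy, hι0] at hw
        apply hcoe_ne_a x
        rw [← hsb, hw, ← mul_smul, hss, one_smul]
  choose j hj using hj
  have hjact : ∀ x : K, x ≠ 0 → s • ι (x : OnePoint K) = ι ((j x : K) : OnePoint K) :=
    fun x hx => (hj x hx).1
  have hj0 : ∀ x : K, x ≠ 0 → j x ≠ 0 := fun x hx => (hj x hx).2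
  have hjj : ∀ x : K, x ≠ 0 → j (j x) = x := by
    intro x hx
    apply hcoe_inj
    rw [← hjact (j x) (hj0 x hx), ← hjact x hx, ← mul_smul, hss, one_smul]
  have hj1 : j 1 = 1 := by
    apply hcoe_inj
    rw [← hjact 1 one_ne_zero, hι1, hsc]
  have hjneg : ∀ x : K, x ≠ 0 → j (-x) = -j x := by
    intro x hx
    apply hcoe_inj
    rw [← hjact (-x) (neg_ne_zero.mpr hx), ← hzact x, ← mul_smul, hsz, mul_smul, hjact x hx,
      hzact]
  have hμinv : ∀ h : N, μ h⁻¹ = (μ h)⁻¹ := by
    intro h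
    exact eq_inv_of_mul_eq_one_left (by rw [← hμmul, inv_mul_cancel, hμ1])
  let μ' : N →* Kˣ :=
    { toFun := fun h => Units.mk0 (μ h) (hμ0 h)
      map_one' := Units.ext hμ1
      map_mul' := fun h h' => Units.ext (hμmul h h') }
  have hμ'inj : Function.Injective μ' := by
    intro h h' e
    apply hμinj
    exact congrArg Units.val e
  have hSidx : μ'.range.index = 2 := by
    have h1 : Nat.card μ'.range = Nat.card N :=
      (Nat.card_congr (MonoidHom.ofInjective hμ'inj).toEquiv).symm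
    have h2 := Subgroup.index_mul_card μ'.range
    rw [h1, Nat.card_units, Nat.card_eq_fintype_card (α := K), hKN] at h2
    have hpos : 0 < Nat.card N := Nat.card_pos
    have h3 : μ'.range.index * Nat.card N = 2 * Nat.card N := by omega
    exact Nat.eq_of_mul_eq_mul_right hpos h3
  have hjS : ∀ u : Kˣ, u ∈ μ'.range → ∀ x : K, x ≠ 0 → j ((u : K) * x) = (u : K)⁻¹ * j x := by
    rintro u ⟨h, rfl⟩ x hx
    show j (μ h * x) = (μ h)⁻¹ * j x
    have hne : μ h * x ≠ 0 := mul_ne_zero (hμ0 h) hx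
    apply hcoe_inj
    rw [← hjact _ hne, ← hμact h x, ← mul_smul, ← hμinv, ← hμact h⁻¹ (j x), ← hjact x hx,
      ← mul_smul]
    congr 1
    have := hNinv (h : G) h.2
    rw [hsinv] at this
    show s * (h : G) = (h : G)⁻¹ * s
    rw [← this, mul_assoc (s * (h : G)), hss, mul_one]
  -- the element of order three
  obtain ⟨t₁, ht₁T, ht₁act⟩ := htrans 1
  obtain ⟨w, hw⟩ : ∃ w : G, w = t₁ * z * s := ⟨_, rfl⟩
  have hwact : ∀ x : K, x ≠ 0 → w • ι (x : OnePoint K) = ι ((1 - j x : K) : OnePoint K) := by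
    intro x hx
    rw [hw, mul_smul, mul_smul, hjact x hx, hzact, ht₁act, show (-j x + 1 : K) = 1 - j x by ring]
  have hwa : w • a = c := by
    rw [hw, mul_smul, mul_smul, hsa, hzb, ← hι0, ht₁act, zero_add, hι1]
  have hwc : w • c = b := by
    rw [hw, mul_smul, mul_smul, hsc, ← hι1, hzact, ht₁act, neg_add_cancel, hι0]
  have hwb : w • b = a := by
    rw [hw, mul_smul, mul_smul, hsb, hza, hT1 t₁ ht₁T]
  have hwww : w * w * w = 1 := by
    apply h3s _ a b c hab (Ne.symm hcb) (Ne.symm hca)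
    · rw [mul_smul, mul_smul, hwa, hwc, hwb]
    · rw [mul_smul, mul_smul, hwb, hwa, hwc]
    · rw [mul_smul, mul_smul, hwc, hwb, hwa]
  have hω : ∀ x : K, x ≠ 0 → x ≠ 1 → 1 - j (1 - j (1 - j x)) = x := by
    intro x hx0 hx1
    have hy0 : 1 - j x ≠ 0 := by
      intro h
      have h1 : j x = 1 := by linear_combination -h
      have h2 := hjj x hx0
      rw [h1, hj1] at h2
      exact hx1 h2.symm
    have hz0 : 1 - j (1 - j x) ≠ 0 := by
      intro h
      have h1 : j (1 - j x) = 1 := by linear_combination -h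
      have h2 := hjj _ hy0
      rw [h1, hj1] at h2
      have h3 : j x = 0 := by linear_combination h2
      exact hj0 x hx0 h3
    apply hcoe_inj
    rw [← hwact _ hz0, ← hwact _ hy0, ← hwact x hx0, ← mul_smul, ← mul_smul, hwww, one_smul]
  have hjinv := inv_of_kt' h2K' μ'.range hSidx j hj0 hjj hjS hj1 hjneg hω
  -- the Moebius generators
  have hW : ∃ g : G, MoebMatch ι g (mbW : GL (Fin 2) K) := by
    refine ⟨z * s, ?_⟩
    intro y
    cases y with
    | infty =>
      rw [mbW_smul_infty, hιinf, mul_smul, hsa, hzb, hι0]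
    | coe x =>
      by_cases hx : x = 0
      · subst hx
        rw [mbW_smul_zero, hι0, mul_smul, hsb, hza, hιinf]
      · rw [mbW_smul_coe hx, mul_smul, hjact x hx, hzact, hjinv x hx]
  have hT : ∀ r : K, ∃ g : G, MoebMatch ι g (mbT r) := fun r => by
    obtain ⟨t, _, ht⟩ := hTm r
    exact ⟨t, ht⟩
  have hD : ∀ (u : K) (hu : u ≠ 0), ∃ g : G, MoebMatch ι g (mbD u hu) := by
    intro u hu
    obtain ⟨g, hgH, hg⟩ := hDex u hu
    refine ⟨g, ?_⟩
    intro y
    cases y with
    | infty => rw [mbD_smul_infty, hιinf, ((hHmem g).mp hgH).1]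
    | coe x => rw [mbD_smul_coe, hg x]
  -- the order of `G`
  have hGa : Nat.card (stabilizer G a) ≤ Nat.card T * Nat.card H := by
    rw [← Nat.card_prod]
    let φ : T × H → stabilizer G a := fun q => ⟨(q.1 : G) * (q.2 : G), by
      rw [mem_stabilizer_iff, mul_smul, ((hHmem _).mp q.2.2).1, hT1 _ q.1.2]⟩
    apply Nat.card_le_card_of_surjective φ
    rintro ⟨g, hg⟩
    rw [mem_stabilizer_iff] at hg
    have hgb : g • b ≠ a := by
      intro h
      have : g • b = g • a := by rw [hg]; exact h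
      exact hab (MulAction.injective g this).symm
    obtain ⟨t, ht, htb⟩ := hT4 b (g • b) hab.symm hgb
    refine ⟨(⟨t, ht⟩, ⟨t⁻¹ * g, (hHmem _).mpr ⟨?_, ?_⟩⟩), ?_⟩
    · rw [mul_smul, hg, inv_smul_eq_iff, hT1 t ht]
    · rw [mul_smul, ← htb, inv_smul_smul]
    · apply Subtype.ext
      show t * (t⁻¹ * g) = g
      rw [mul_inv_cancel_left]
  have hpre : IsPretransitive G Ω := by
    have key : ∀ x : Ω, ∃ g : G, g • a = x := by
      intro x
      by_cases hx : x = a
      · exact ⟨1, by rw [one_smul, hx]⟩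
      · obtain ⟨t, _, ht⟩ := hT4 b x hab.symm hx
        exact ⟨t * s, by rw [mul_smul, hsa, ht]⟩
    refine ⟨fun x y => ?_⟩
    obtain ⟨g, hg⟩ := key x
    obtain ⟨g', hg'⟩ := key y
    exact ⟨g' * g⁻¹, by rw [mul_smul, ← hg, inv_smul_smul, hg']⟩
  have hGcard : Nat.card G = Fintype.card Ω * Nat.card (stabilizer G a) := by
    rw [← Subgroup.index_mul_card (stabilizer G a), MulAction.index_stabilizer_of_transitive,
      Nat.card_eq_fintype_card]
  have hcard : Nat.card G ≤ Fintype.card K * (Fintype.card K ^ 2 - 1) := by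
    rw [hKcard, hGcard, hΩ]
    obtain ⟨r, hr⟩ : ∃ r, p ^ f = r + 1 := ⟨p ^ f - 1, by omega⟩
    rw [hr]
    have e1 : (r + 1) ^ 2 - 1 = r * (r + 2) := by
      have : (r + 1) ^ 2 = r * (r + 2) + 1 := by ring
      omega
    rw [e1]
    have hGa' : Nat.card (stabilizer G a) ≤ (r + 1) * r := by
      have h1 : Nat.card T = r + 1 := by omega
      have h2 : Nat.card H = r := by omega
      rw [h1, h2] at hGa
      exact hGa
    calc (r + 1 + 1) * Nat.card (stabilizer G a) ≤ (r + 1 + 1) * ((r + 1) * r) :=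
          Nat.mul_le_mul_left _ hGa'
      _ = (r + 1) * (r * (r + 2)) := by ring
  exact ⟨K, instF, instFt, hKcard, pgl2_of_moebius (G := G) ι hT hW hD hcard⟩

/-- The two point stabiliser of a sharply 3-transitive group has `|Ω| - 2` elements. -/
theorem sharp3_card_stab2 {G Ω : Type*} [Group G] [MulAction G Ω] [Fintype Ω]
    (h3s : ∀ g : G, ∀ x y z : Ω, x ≠ y → y ≠ z → x ≠ z → g • x = x → g • y = y → g • z = z →
      g = 1)
    {a b c : Ω} (hab : a ≠ b) (hca : c ≠ a) (hcb : c ≠ b)
    (htr : ∀ x : Ω, x ≠ a → x ≠ b → ∃ k : G, k • a = a ∧ k • b = b ∧ k • c = x) :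
    Nat.card ↥(stabilizer G a ⊓ stabilizer G b) = Fintype.card Ω - 2 := by
  classical
  obtain ⟨H, hH⟩ : ∃ H : Subgroup G, H = stabilizer G a ⊓ stabilizer G b := ⟨_, rfl⟩
  rw [← hH]
  have hHmem : ∀ x : G, x ∈ H ↔ x • a = a ∧ x • b = b := by
    intro x
    rw [hH, Subgroup.mem_inf, mem_stabilizer_iff, mem_stabilizer_iff]
  have hHinj : ∀ u ∈ H, ∀ v ∈ H, u • c = v • c → u = v := by
    intro u hu v hv h
    have h1 : v⁻¹ * u = 1 := by
      apply h3s _ a b c hab (Ne.symm hcb) (Ne.symm hca)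
      · rw [mul_smul, ((hHmem u).mp hu).1, inv_smul_eq_iff, ((hHmem v).mp hv).1]
      · rw [mul_smul, ((hHmem u).mp hu).2, inv_smul_eq_iff, ((hHmem v).mp hv).2]
      · rw [mul_smul, h, inv_smul_smul]
    exact (inv_mul_eq_one.mp h1).symm
  have hmem : ∀ k : H, (k : G) • c ≠ a ∧ (k : G) • c ≠ b := by
    intro k
    obtain ⟨hka, hkb⟩ := (hHmem _).mp k.2
    constructor
    · intro h
      have : (k : G) • c = (k : G) • a := by rw [hka]; exact h
      exact hca (MulAction.injective (k : G) this)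
    · intro h
      have : (k : G) • c = (k : G) • b := by rw [hkb]; exact h
      exact hcb (MulAction.injective (k : G) this)
  have h1 : Nat.card H = Nat.card {x : Ω // x ≠ a ∧ x ≠ b} := by
    apply Nat.card_congr
    refine Equiv.ofBijective (fun k => ⟨(k : G) • c, hmem k⟩) ⟨?_, ?_⟩
    · intro k k' hkk
      exact Subtype.ext (hHinj _ k.2 _ k'.2 (congrArg Subtype.val hkk))
    · rintro ⟨x, hxa, hxb⟩
      obtain ⟨k, hka, hkb, hkc⟩ := htr x hxa hxb
      exact ⟨⟨k, (hHmem k).mpr ⟨hka, hkb⟩⟩, Subtype.ext hkc⟩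
  rw [h1, Nat.card_eq_fintype_card, Fintype.card_subtype]
  have : (Finset.univ.filter (fun x : Ω => x ≠ a ∧ x ≠ b)) = Finset.univ \ {a, b} := by
    ext x
    simp [not_or]
  rw [this, Finset.card_univ_sdiff, Finset.card_pair hab]

end Cfsg.Agent.Helper66
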