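import Mathlib

set_option autoImplicit false

/-!
# Extending characters of the two point stabiliser of a sharply 3-transitive group (helper66)

* `transfer_eq_self_of`: the transfer of `h ∈ M` is `ψ h` as soon as every conjugate
  `g⁻¹ h ^ k g ∈ M` with `g ∉ M` is killed by `ψ`.
* `sharp3_char_extends`: in a group in which only the identity fixes three points and the two
  point stabiliser `H = G_{a,b}` is transitive on the remaining points, every map `φ : G → ℤˣ`
  which is multiplicative on `H` and invariant under the involution `s` (interchanging `a`, `b`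
  and fixing `c`) is the restriction of a homomorphism `G →* ℤˣ` (the transfer from `H ⟨s⟩`).
-/

namespace Cfsg.Agent.Helper66

open MulAction

/-- Transfer of an element `h ∈ M` all of whose other contributions vanish. -/
theorem transfer_eq_self_of {G : Type*} [Group G] {A : Type*} [CommGroup A] (M : Subgroup G)
    [M.FiniteIndex] (ψ : M →* A) (h : G) (hh : h ∈ M)
    (key : ∀ (k : ℕ) (g : G), g ∉ M → ∀ hx : g⁻¹ * h ^ k * g ∈ M,
      ψ ⟨g⁻¹ * h ^ k * g, hx⟩ = 1) :
    MonoidHom.transfer ψ h = ψ ⟨h, hh⟩ := by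
  classical
  let _ := M.fintypeQuotientOfFiniteIndex
  rw [MonoidHom.transfer_eq_prod_quotient_orbitRel_zpowers_quot]
  obtain ⟨q₀, hq₀⟩ : ∃ q₀ : Quotient (orbitRel (Subgroup.zpowers h) (G ⧸ M)),
      q₀ = Quotient.mk'' ((1 : G) : G ⧸ M) := ⟨_, rfl⟩
  have hfix : ∀ y ∈ Subgroup.zpowers h, y • (((1 : G) : G ⧸ M)) = ((1 : G) : G ⧸ M) := by
    intro y hy
    have hyM : y ∈ M := by
      obtain ⟨i, rfl⟩ := Subgroup.mem_zpowers_iff.mp hy
      exact M.zpow_mem hh i
    rw [MulAction.Quotient.smul_coe, QuotientGroup.eq]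
    simpa using M.inv_mem hyM
  have hout : q₀.out = ((1 : G) : G ⧸ M) := by
    have h1 : (Quotient.mk'' q₀.out : Quotient (orbitRel (Subgroup.zpowers h) (G ⧸ M))) =
        Quotient.mk'' ((1 : G) : G ⧸ M) := by
      rw [Quotient.out_eq', hq₀]
    have h2 := Quotient.exact' h1
    obtain ⟨⟨y, hy⟩, hy'⟩ := h2
    rw [← hy']
    exact hfix y hy
  have hgM : q₀.out.out ∈ M := by
    have h1 : ((q₀.out.out : G) : G ⧸ M) = ((1 : G) : G ⧸ M) := by
      rw [QuotientGroup.out_eq', hout]
    rw [QuotientGroup.eq] at h1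
    simpa using h1
  have hper : Function.minimalPeriod (h • ·) q₀.out = 1 := by
    rw [Function.minimalPeriod_eq_one_iff_isFixedPt]
    show h • q₀.out = q₀.out
    rw [hout]
    exact hfix h (Subgroup.mem_zpowers h)
  rw [Finset.prod_eq_single q₀]
  · have aux : ∀ (k : ℕ) (_ : k = 1) (g : G) (hg : g ∈ M) (hx : g⁻¹ * h ^ k * g ∈ M),
        ψ ⟨g⁻¹ * h ^ k * g, hx⟩ = ψ ⟨h, hh⟩ := by
      intro k hk g hg hx
      subst hk
      have : (⟨g⁻¹ * h ^ 1 * g, hx⟩ : M) = (⟨g, hg⟩ : M)⁻¹ * ⟨h, hh⟩ * ⟨g, hg⟩ := by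
        apply Subtype.ext
        simp
      rw [this, map_mul, map_mul, map_inv, mul_comm, mul_inv_cancel_left]
    exact aux _ hper _ hgM _
  · intro q _ hq
    apply key
    intro hmem
    apply hq
    have h1 : q.out = ((1 : G) : G ⧸ M) := by
      rw [← QuotientGroup.out_eq' q.out, QuotientGroup.eq]
      simpa using M.inv_mem hmem
    rw [hq₀, ← h1, Quotient.out_eq']
  · intro hnot
    exact absurd (Finset.mem_univ _) hnot

section Sharp3

variable {G Ω : Type*} [Group G] [MulAction G Ω]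

/-- The setwise stabiliser of the pair `{a, b}`. -/
def swapStab (a b : Ω) : Subgroup G where
  carrier := {g | (g • a = a ∧ g • b = b) ∨ (g • a = b ∧ g • b = a)}
  one_mem' := Or.inl ⟨one_smul _ _, one_smul _ _⟩
  mul_mem' := by
    rintro x y (⟨hxa, hxb⟩ | ⟨hxa, hxb⟩) (⟨hya, hyb⟩ | ⟨hya, hyb⟩)
    · exact Or.inl ⟨by rw [mul_smul, hya, hxa], by rw [mul_smul, hyb, hxb]⟩
    · exact Or.inr ⟨by rw [mul_smul, hya, hxb], by rw [mul_smul, hyb, hxa]⟩
    · exact Or.inr ⟨by rw [mul_smul, hya, hxa], by rw [mul_smul, hyb, hxb]⟩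
    · exact Or.inl ⟨by rw [mul_smul, hya, hxb], by rw [mul_smul, hyb, hxa]⟩
  inv_mem' := by
    rintro x (⟨hxa, hxb⟩ | ⟨hxa, hxb⟩)
    · exact Or.inl ⟨by rw [inv_smul_eq_iff, hxa], by rw [inv_smul_eq_iff, hxb]⟩
    · exact Or.inr ⟨by rw [inv_smul_eq_iff, hxb], by rw [inv_smul_eq_iff, hxa]⟩

theorem mem_swapStab {a b : Ω} {g : G} :
    g ∈ swapStab (G := G) a b ↔ (g • a = a ∧ g • b = b) ∨ (g • a = b ∧ g • b = a) := Iff.rfl

open Classical in
/-- The extension of `φ` from `G_{a,b}` to the stabiliser of `{a, b}`, trivial on `s`. -/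
noncomputable def extChar (a : Ω) (s : G) (φ : G → ℤˣ) (g : G) : ℤˣ :=
  if g • a = a then φ g else φ (s * g)

theorem extChar_pos (a : Ω) (s : G) (φ : G → ℤˣ) {g : G} (h : g • a = a) :
    extChar a s φ g = φ g := by
  unfold extChar
  exact if_pos h

theorem extChar_neg (a : Ω) (s : G) (φ : G → ℤˣ) {g : G} (h : g • a ≠ a) :
    extChar a s φ g = φ (s * g) := by
  unfold extChar
  exact if_neg h

/-- Characters of `G_{a,b}` invariant under `s` extend to `G`. -/
theorem sharp3_char_extends [Finite G]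
    (h3 : ∀ g : G, ∀ x y z : Ω, x ≠ y → y ≠ z → x ≠ z → g • x = x → g • y = y → g • z = z →
      g = 1)
    {a b c : Ω} (hab : a ≠ b) (hac : a ≠ c) (hbc : b ≠ c)
    (htr : ∀ x : Ω, x ≠ a → x ≠ b → ∃ k : G, k • a = a ∧ k • b = b ∧ k • c = x)
    (s : G) (hsa : s • a = b) (hsb : s • b = a) (hsc : s • c = c)
    (φ : G → ℤˣ)
    (hφmul : ∀ x y : G, x • a = a → x • b = b → y • a = a → y • b = b → φ (x * y) = φ x * φ y)
    (hφs : ∀ x : G, x • a = a → x • b = b → φ (s * x * s⁻¹) = φ x) :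
    ∃ χ : G →* ℤˣ, ∀ h : G, h • a = a → h • b = b → χ h = φ h := by
  classical
  have hss : s * s = 1 := h3 _ a b c hab hbc hac (by rw [mul_smul, hsa, hsb])
    (by rw [mul_smul, hsb, hsa]) (by rw [mul_smul, hsc, hsc])
  have hsinv : s⁻¹ = s := inv_eq_of_mul_eq_one_left hss
  have hφ1 : φ 1 = 1 := by
    have := hφmul 1 1 (one_smul _ _) (one_smul _ _) (one_smul _ _) (one_smul _ _)
    rw [mul_one] at this
    have h' := congrArg (fun u => (φ 1)⁻¹ * u) this
    simpa using h'.symm
  have hconj : ∀ x : G, x • a = a → x • b = b →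
      (s * x * s⁻¹) • a = a ∧ (s * x * s⁻¹) • b = b := by
    intro x hxa hxb
    rw [hsinv]
    exact ⟨by rw [mul_smul, mul_smul, hsa, hxb, hsb], by rw [mul_smul, mul_smul, hsb, hxa, hsa]⟩
  have hsx : ∀ x : G, x • a = b → x • b = a → (s * x) • a = a ∧ (s * x) • b = b := by
    intro x hxa hxb
    exact ⟨by rw [mul_smul, hxa, hsb], by rw [mul_smul, hxb, hsa]⟩
  have hinvH : ∀ x : G, x • a = a → x • b = b → x⁻¹ • a = a ∧ x⁻¹ • b = b := by
    intro x hxa hxb
    exact ⟨by rw [inv_smul_eq_iff, hxa], by rw [inv_smul_eq_iff, hxb]⟩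
  let ψ : swapStab (G := G) a b →* ℤˣ :=
    { toFun := fun m => extChar a s φ (m : G)
      map_one' := by
        show extChar a s φ (1 : G) = 1
        rw [extChar_pos _ _ _ (one_smul _ _), hφ1]
      map_mul' := by
        rintro ⟨x, hx⟩ ⟨y, hy⟩
        show extChar a s φ (x * y) = extChar a s φ x * extChar a s φ y
        rcases hx with ⟨hxa, hxb⟩ | ⟨hxa, hxb⟩ <;> rcases hy with ⟨hya, hyb⟩ | ⟨hya, hyb⟩
        · have e1 : (x * y) • a = a := by rw [mul_smul, hya, hxa]
          rw [extChar_pos _ _ _ e1, extChar_pos _ _ _ hxa, extChar_pos _ _ _ hya]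
          exact hφmul x y hxa hxb hya hyb
        · have e1 : (x * y) • a ≠ a := by rw [mul_smul, hya, hxb]; exact hab.symm
          have e2 : y • a ≠ a := by rw [hya]; exact hab.symm
          rw [extChar_neg _ _ _ e1, extChar_pos _ _ _ hxa, extChar_neg _ _ _ e2]
          have e3 : s * (x * y) = (s * x * s⁻¹) * (s * y) := by group
          rw [e3, hφmul _ _ (hconj x hxa hxb).1 (hconj x hxa hxb).2 (hsx y hya hyb).1
            (hsx y hya hyb).2, hφs x hxa hxb]
        · have e1 : (x * y) • a ≠ a := by rw [mul_smul, hya, hxa]; exact hab.symm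
          have e2 : x • a ≠ a := by rw [hxa]; exact hab.symm
          rw [extChar_neg _ _ _ e1, extChar_neg _ _ _ e2, extChar_pos _ _ _ hya]
          have e3 : s * (x * y) = (s * x) * y := by group
          rw [e3, hφmul _ _ (hsx x hxa hxb).1 (hsx x hxa hxb).2 hya hyb]
        · have e1 : (x * y) • a = a := by rw [mul_smul, hya, hxb]
          have e2 : x • a ≠ a := by rw [hxa]; exact hab.symm
          have e2' : y • a ≠ a := by rw [hya]; exact hab.symm
          rw [extChar_pos _ _ _ e1, extChar_neg _ _ _ e2, extChar_neg _ _ _ e2']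
          have e3 : x * y = (s * (s * x) * s⁻¹) * (s * y) := by
            rw [hsinv]
            calc x * y = (s * s) * x * ((s * s) * y) := by rw [hss, one_mul, one_mul]
              _ = s * (s * x) * s * (s * y) := by group
          rw [e3, hφmul _ _ (hconj _ (hsx x hxa hxb).1 (hsx x hxa hxb).2).1
            (hconj _ (hsx x hxa hxb).1 (hsx x hxa hxb).2).2 (hsx y hya hyb).1 (hsx y hya hyb).2,
            hφs _ (hsx x hxa hxb).1 (hsx x hxa hxb).2] }
  have hkey : ∀ h : G, h • a = a → h • b = b → ∀ (k : ℕ) (g : G), g ∉ swapStab (G := G) a b →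
      ∀ hx : g⁻¹ * h ^ k * g ∈ swapStab (G := G) a b, ψ ⟨g⁻¹ * h ^ k * g, hx⟩ = 1 := by
    intro h hha hhb
    have hpow : ∀ n : ℕ, h ^ n • a = a ∧ h ^ n • b = b := by
      intro n
      induction n with
      | zero => exact ⟨by rw [pow_zero, one_smul], by rw [pow_zero, one_smul]⟩
      | succ n ih => exact ⟨by rw [pow_succ, mul_smul, hha, ih.1], by rw [pow_succ, mul_smul, hhb, ih.2]⟩
    intro k g hg hx
    show extChar a s φ (g⁻¹ * h ^ k * g) = 1
    have hka : h ^ k • a = a := (hpow k).1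
    have hkb : h ^ k • b = b := (hpow k).2
    obtain ⟨x, hxdef⟩ : ∃ x : G, x = g⁻¹ * h ^ k * g := ⟨_, rfl⟩
    rw [← hxdef] at hx ⊢
    have hgx : ∀ y : Ω, h ^ k • (g • y) = g • (x • y) := by
      intro y
      rw [hxdef, mul_smul, mul_smul, smul_inv_smul]
    rcases hx with ⟨hxa, hxb⟩ | ⟨hxa, hxb⟩
    · have e1 : h ^ k • (g • a) = g • a := by rw [hgx, hxa]
      have e2 : h ^ k • (g • b) = g • b := by rw [hgx, hxb]
      have hk1 : h ^ k = 1 := by
        by_cases hga : g • a = a
        · have hgb : g • b ≠ b := fun h' => hg (Or.inl ⟨hga, h'⟩)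
          have hgb' : g • b ≠ a := by
            intro h'
            have : g • b = g • a := by rw [h', hga]
            exact hab (MulAction.injective g this).symm
          exact h3 _ a b (g • b) hab (Ne.symm hgb) (Ne.symm hgb') hka hkb e2
        · by_cases hgab : g • a = b
          · have hgb : g • b ≠ a := fun h' => hg (Or.inr ⟨hgab, h'⟩)
            have hgb' : g • b ≠ b := by
              intro h'
              have : g • b = g • a := by rw [h', hgab]
              exact hab (MulAction.injective g this).symm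
            exact h3 _ a b (g • b) hab (Ne.symm hgb') (Ne.symm hgb) hka hkb e2
          · exact h3 _ a b (g • a) hab (Ne.symm hgab) (Ne.symm hga) hka hkb e1
      have hx1 : x = 1 := by rw [hxdef, hk1, mul_one, inv_mul_cancel]
      rw [hx1, extChar_pos _ _ _ (one_smul _ _), hφ1]
    · have hxne : x • a ≠ a := by rw [hxa]; exact hab.symm
      rw [extChar_neg _ _ _ hxne]
      have hfixc : x • (g⁻¹ • a) = g⁻¹ • a := by
        rw [hxdef, mul_smul, mul_smul, smul_inv_smul, hka]
      have hc'a : g⁻¹ • a ≠ a := by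
        intro h'
        rw [h'] at hfixc
        exact hxne hfixc
      have hc'b : g⁻¹ • a ≠ b := by
        intro h'
        rw [h', hxb] at hfixc
        exact hab hfixc
      obtain ⟨k', hk'a, hk'b, hk'c⟩ := htr _ hc'a hc'b
      have hk'ia : k'⁻¹ • a = a := by rw [inv_smul_eq_iff, hk'a]
      have hk'ib : k'⁻¹ • b = b := by rw [inv_smul_eq_iff, hk'b]
      have hk'ic : k'⁻¹ • (g⁻¹ • a) = c := by rw [inv_smul_eq_iff, hk'c]
      have hwa : (k' * s * k'⁻¹) • a = b := by
        rw [mul_smul, mul_smul, hk'ia, hsa, hk'b]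
      have hwb : (k' * s * k'⁻¹) • b = a := by
        rw [mul_smul, mul_smul, hk'ib, hsb, hk'a]
      have hwc : (k' * s * k'⁻¹) • (g⁻¹ • a) = g⁻¹ • a := by
        rw [mul_smul, mul_smul, hk'ic, hsc, hk'c]
      have hx_eq : x = k' * s * k'⁻¹ := by
        have : (k' * s * k'⁻¹)⁻¹ * x = 1 := by
          apply h3 _ a b (g⁻¹ • a) hab (Ne.symm hc'b) (Ne.symm hc'a)
          · rw [mul_smul, hxa, inv_smul_eq_iff, hwa]
          · rw [mul_smul, hxb, inv_smul_eq_iff, hwb]
          · rw [mul_smul, hfixc, inv_smul_eq_iff, hwc]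
        exact (inv_mul_eq_one.mp this).symm
      have e3 : s * (k' * s * k'⁻¹) = (s * k' * s⁻¹) * k'⁻¹ := by rw [hsinv]; group
      rw [hx_eq, e3, hφmul _ _ (hconj k' hk'a hk'b).1 (hconj k' hk'a hk'b).2 hk'ia hk'ib,
        hφs k' hk'a hk'b, ← hφmul k' k'⁻¹ hk'a hk'b hk'ia hk'ib, mul_inv_cancel, hφ1]
  refine ⟨MonoidHom.transfer ψ, fun h hha hhb => ?_⟩
  rw [transfer_eq_self_of (swapStab (G := G) a b) ψ h (Or.inl ⟨hha, hhb⟩) (hkey h hha hhb)]
  exact extChar_pos _ _ _ hha

end Sharp3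

end Cfsg.Agent.Helper66
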