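import Mathlib
import Cfsg.Agent.Helper66.Sharp3Transfer
import Cfsg.Agent.Helper15.Zassenhaus
import Cfsg.Agent.S0728

set_option autoImplicit false

/-!
# Sharply 3-transitive groups whose two point stabiliser has an invariant subgroup of index two
are not simple (helper66)

* `sharp3_not_simple`: abstract form (via `sharp3_char_extends`).
* `sharp3_perm_not_simple`: the same for subgroups of `Equiv.Perm α`, in the shape of the
  conclusion of statement S0729.
* `zass_sharp3_trans`, `zass_sharp3_perm`: a Zassenhaus group with `|G_{a,b}| = |Ω| - 2` is sharply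
  3-transitive; transport to its image in `Equiv.Perm Ω`.
-/

namespace Cfsg.Agent.Helper66

open MulAction

theorem sharp3_not_simple {G Ω : Type*} [Group G] [Finite G] [MulAction G Ω] [IsSimpleGroup G]
    (h3 : ∀ g : G, ∀ x y z : Ω, x ≠ y → y ≠ z → x ≠ z → g • x = x → g • y = y → g • z = z →
      g = 1)
    {a b c : Ω} (hab : a ≠ b) (hac : a ≠ c) (hbc : b ≠ c)
    (htr : ∀ x : Ω, x ≠ a → x ≠ b → ∃ k : G, k • a = a ∧ k • b = b ∧ k • c = x)
    (s : G) (hsa : s • a = b) (hsb : s • b = a) (hsc : s • c = c)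
    (N : Subgroup G) (hNidx : N.relIndex (stabilizer G a ⊓ stabilizer G b) = 2)
    (hNs : ∀ n ∈ N, s * n * s⁻¹ ∈ N) : False := by
  classical
  have hss : s * s = 1 := h3 _ a b c hab hbc hac (by rw [mul_smul, hsa, hsb])
    (by rw [mul_smul, hsb, hsa]) (by rw [mul_smul, hsc, hsc])
  have hsinv : s⁻¹ = s := inv_eq_of_mul_eq_one_left hss
  obtain ⟨H, hH⟩ : ∃ H : Subgroup G, H = stabilizer G a ⊓ stabilizer G b := ⟨_, rfl⟩
  rw [← hH] at hNidx
  have hHmem : ∀ x : G, x ∈ H ↔ x • a = a ∧ x • b = b := by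
    intro x
    rw [hH, Subgroup.mem_inf, mem_stabilizer_iff, mem_stabilizer_iff]
  have hmul : ∀ x y : G, x ∈ H → y ∈ H → (x * y ∈ N ↔ (x ∈ N ↔ y ∈ N)) := by
    intro x y hx hy
    have := Subgroup.mul_mem_iff_of_index_two (H := N.subgroupOf H) hNidx
      (a := ⟨x, hx⟩) (b := ⟨y, hy⟩)
    simpa [Subgroup.mem_subgroupOf] using this
  obtain ⟨φ, hφ⟩ : ∃ φ : G → ℤˣ, ∀ g, φ g = if g ∈ N then 1 else -1 := ⟨_, fun _ => rfl⟩
  have hφmul : ∀ x y : G, x • a = a → x • b = b → y • a = a → y • b = b →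
      φ (x * y) = φ x * φ y := by
    intro x y hxa hxb hya hyb
    have := hmul x y ((hHmem x).mpr ⟨hxa, hxb⟩) ((hHmem y).mpr ⟨hya, hyb⟩)
    rw [hφ, hφ, hφ]
    by_cases hx : x ∈ N <;> by_cases hy : y ∈ N <;> simp [hx, hy, this]
  have hφs : ∀ x : G, x • a = a → x • b = b → φ (s * x * s⁻¹) = φ x := by
    intro x hxa hxb
    have : s * x * s⁻¹ ∈ N ↔ x ∈ N := by
      constructor
      · intro h
        have h' := hNs _ h
        have e : s * (s * x * s⁻¹) * s⁻¹ = x := by
          rw [hsinv]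
          calc s * (s * x * s) * s = (s * s) * x * (s * s) := by group
            _ = x := by rw [hss, one_mul, mul_one]
        rwa [e] at h'
      · exact hNs x
    rw [hφ, hφ]
    simp [this]
  obtain ⟨χ, hχ⟩ := sharp3_char_extends h3 hab hac hbc htr s hsa hsb hsc φ hφmul hφs
  obtain ⟨h, hhH, hhN⟩ : ∃ h ∈ H, h ∉ N := by
    by_contra hcon
    push Not at hcon
    have : N.subgroupOf H = ⊤ := by
      rw [Subgroup.eq_top_iff']
      intro x
      exact Subgroup.mem_subgroupOf.mpr (hcon x x.2)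
    rw [Subgroup.relIndex, this, Subgroup.index_top] at hNidx
    omega
  have hχh : χ h = -1 := by
    rw [hχ h ((hHmem h).mp hhH).1 ((hHmem h).mp hhH).2, hφ]
    simp [hhN]
  rcases (MonoidHom.normal_ker χ).eq_bot_or_eq_top with hker | hker
  · have hinj : Function.Injective χ := (MonoidHom.ker_eq_bot_iff χ).mp hker
    have hs1 : s ≠ 1 := by
      rintro rfl
      rw [one_smul] at hsa
      exact hab hsa
    have hsh : s ≠ h := by
      rintro rfl
      have := ((hHmem _).mp hhH).1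
      rw [hsa] at this
      exact hab this.symm
    rcases Int.units_eq_one_or (χ s) with h1 | h1
    · exact hs1 (hinj (by rw [h1, map_one]))
    · exact hsh (hinj (by rw [h1, hχh]))
  · have : h ∈ χ.ker := by rw [hker]; exact Subgroup.mem_top _
    rw [MonoidHom.mem_ker, hχh] at this
    exact absurd this (by decide)

/-- Permutation group form, matching the conclusion of statement S0729. -/
theorem sharp3_perm_not_simple {α : Type*} [Fintype α] [DecidableEq α]
    (G : Subgroup (Equiv.Perm α)) [IsSimpleGroup G]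
    (h3 : MulAction.IsMultiplyPretransitive G α 3)
    (hsharp : ∀ x : Fin 3 ↪ α, MulAction.stabilizer G x = ⊥)
    {a b c : α} (hab : a ≠ b) (hac : a ≠ c) (hbc : b ≠ c)
    (s : G) (hsa : s • a = b) (hsb : s • b = a) (hsc : s • c = c)
    (N : Subgroup G) (hNidx : N.relIndex (stabilizer G a ⊓ stabilizer G b) = 2)
    (hNs : ∀ n ∈ N, s * n * s⁻¹ ∈ N) : False := by
  refine sharp3_not_simple (G := G) (Ω := α) ?_ hab hac hbc ?_ s hsa hsb hsc N hNidx hNs
  · intro g x y z hxy hyz hxz hx hy hz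
    exact Cfsg.Agent.S0728.sharp3 G hsharp hxy hxz hyz hx hy hz
  · intro x hxa hxb
    obtain ⟨k, h1, h2, h3'⟩ := Cfsg.Agent.S0728.trans3 G h3 hab hac hbc hab (Ne.symm hxa)
      (Ne.symm hxb)
    exact ⟨k, h1, h2, h3'⟩

section Zass

variable {G Ω : Type*} [Group G] [MulAction G Ω]

/-- A Zassenhaus group with `|G_{a,b}| = |Ω| - 2`: the two point stabiliser is transitive on the
remaining points. -/
theorem zass_sharp3_trans [Finite G] [Fintype Ω] (hZ : Cfsg.IsZassenhausGroup G Ω) {a b : Ω}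
    (hab : a ≠ b)
    (hd : Nat.card ↥(stabilizer G a ⊓ stabilizer G b) + 2 = Fintype.card Ω) {c : Ω}
    (hca : c ≠ a) (hcb : c ≠ b) :
    ∀ x : Ω, x ≠ a → x ≠ b → ∃ k : G, k • a = a ∧ k • b = b ∧ k • c = x := by
  classical
  obtain ⟨H, hH⟩ : ∃ H : Subgroup G, H = stabilizer G a ⊓ stabilizer G b := ⟨_, rfl⟩
  rw [← hH] at hd
  have hHmem : ∀ x : G, x ∈ H ↔ x • a = a ∧ x • b = b := by
    intro x
    rw [hH, Subgroup.mem_inf, mem_stabilizer_iff, mem_stabilizer_iff]
  have hmem : ∀ k : H, (k : G) • c ≠ a ∧ (k : G) • c ≠ b := by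
    intro k
    obtain ⟨hka, hkb⟩ := (hHmem _).mp k.2
    constructor
    · intro h
      have : (k : G) • c = (k : G) • a := by rw [hka]; exact h
      exact hca (MulAction.injective (k : G) this)
    · intro h
      have : (k : G) • c = (k : G) • b := by rw [hkb]; exact h
      exact hcb (MulAction.injective (k : G) this)
  let f : H → {x : Ω // x ≠ a ∧ x ≠ b} := fun k => ⟨(k : G) • c, hmem k⟩
  have hf : Function.Injective f := by
    intro k k' hkk
    have h1 : (k : G) • c = (k' : G) • c := congrArg Subtype.val hkk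
    obtain ⟨hka, hkb⟩ := (hHmem _).mp k.2
    obtain ⟨hka', hkb'⟩ := (hHmem _).mp k'.2
    have h2 : ((k' : G)⁻¹ * k) = 1 := by
      apply Cfsg.Agent.Helper15.zass_eq_one_of_fix_three hZ hab (Ne.symm hcb) (Ne.symm hca)
      · rw [mul_smul, hka, inv_smul_eq_iff, hka']
      · rw [mul_smul, hkb, inv_smul_eq_iff, hkb']
      · rw [mul_smul, h1, inv_smul_smul]
    apply Subtype.ext
    exact (inv_mul_eq_one.mp h2).symm
  have hcard : Nat.card {x : Ω // x ≠ a ∧ x ≠ b} ≤ Nat.card H := by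
    rw [Nat.card_eq_fintype_card, Fintype.card_subtype]
    have : (Finset.univ.filter (fun x : Ω => x ≠ a ∧ x ≠ b)) = Finset.univ \ {a, b} := by
      ext x
      simp [not_or]
    rw [this, Finset.card_univ_sdiff, Finset.card_pair hab]
    omega
  have hbij := hf.bijective_of_nat_card_le hcard
  intro x hxa hxb
  obtain ⟨k, hk⟩ := hbij.2 ⟨x, hxa, hxb⟩
  exact ⟨k, ((hHmem _).mp k.2).1, ((hHmem _).mp k.2).2, congrArg Subtype.val hk⟩

/-- Transport of a simple Zassenhaus group with `|G_{a,b}| = |Ω| - 2` to a sharply 3-transitive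
simple permutation group. -/
theorem zass_sharp3_perm [Finite G] [Fintype Ω] (hZ : Cfsg.IsZassenhausGroup G Ω)
    [IsSimpleGroup G] {a b : Ω} (hab : a ≠ b)
    (hd : Nat.card ↥(stabilizer G a ⊓ stabilizer G b) + 2 = Fintype.card Ω) :
    ∃ G' : Subgroup (Equiv.Perm Ω), IsSimpleGroup G' ∧ IsMultiplyPretransitive G' Ω 3 ∧
      (∀ x : Fin 3 ↪ Ω, stabilizer G' x = ⊥) := by
  classical
  have hfaith := hZ.1
  have hinj : Function.Injective (MulAction.toPermHom G Ω) := MulAction.toPerm_injective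
  have hne : ∀ (x : Fin 3 ↪ Ω) (i j : Fin 3), i ≠ j → x i ≠ x j :=
    fun x i j hij h => hij (x.injective h)
  refine ⟨(MulAction.toPermHom G Ω).range, ?_, ?_, ?_⟩
  · have e : G ≃* (MulAction.toPermHom G Ω).range := MonoidHom.ofInjective hinj
    exact e.symm.isSimpleGroup
  · refine ⟨fun x y => ?_⟩
    have hx01 := hne x 0 1 (by decide)
    have hx02 := hne x 0 2 (by decide)
    have hx12 := hne x 1 2 (by decide)
    have hy01 := hne y 0 1 (by decide)
    have hy02 := hne y 0 2 (by decide)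
    have hy12 := hne y 1 2 (by decide)
    obtain ⟨g₁, hg₁0, hg₁1⟩ := Cfsg.Agent.Helper15.zass_two_trans hZ hx01 hy01
    have hw0 : g₁ • x 2 ≠ y 0 := by
      rw [← hg₁0]
      exact fun h => hx02 (MulAction.injective g₁ h).symm
    have hw1 : g₁ • x 2 ≠ y 1 := by
      rw [← hg₁1]
      exact fun h => hx12 (MulAction.injective g₁ h).symm
    have hd' : Nat.card ↥(stabilizer G (y 0) ⊓ stabilizer G (y 1)) + 2 = Fintype.card Ω := by
      rw [Cfsg.Agent.Helper15.zass_card_stab_inf hZ hab hy01]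
      exact hd
    obtain ⟨k, hk0, hk1, hk2⟩ := zass_sharp3_trans hZ hy01 hd' hw0 hw1 (y 2) (Ne.symm hy02)
      (Ne.symm hy12)
    refine ⟨⟨MulAction.toPermHom G Ω (k * g₁), ⟨_, rfl⟩⟩, ?_⟩
    ext i
    rw [Function.Embedding.smul_apply]
    show (k * g₁) • x i = y i
    have h0 : (k * g₁) • x 0 = y 0 := by rw [mul_smul, hg₁0, hk0]
    have h1 : (k * g₁) • x 1 = y 1 := by rw [mul_smul, hg₁1, hk1]
    have h2 : (k * g₁) • x 2 = y 2 := by rw [mul_smul, hk2]
    fin_cases i
    · exact h0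
    · exact h1
    · exact h2
  · intro x
    rw [Subgroup.eq_bot_iff_forall]
    rintro ⟨σ, g, rfl⟩ hσ
    rw [mem_stabilizer_iff] at hσ
    have hfix : ∀ i, g • x i = x i := by
      intro i
      have := congrArg (fun e : Fin 3 ↪ Ω => e i) hσ
      exact this
    have hg1 : g = 1 := Cfsg.Agent.Helper15.zass_eq_one_of_fix_three hZ (hne x 0 1 (by decide))
      (hne x 1 2 (by decide)) (hne x 0 2 (by decide)) (hfix 0) (hfix 1) (hfix 2)
    apply Subtype.ext
    show MulAction.toPermHom G Ω g = 1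
    rw [hg1, map_one]

end Zass

end Cfsg.Agent.Helper66
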