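import Mathlib

/-!
# Piece P7 of CALL S3797 (Thompson/Shaw): the abstract endgame

`shaw_end`: a `2`-group `T`, an abelian group `U` of odd order normalised by `T`, and a group `B`
normalising both act on an elementary abelian `2`-group `V`; if `B` is transitive on the
nonidentity fixed points of `T`, `|V| ≤ |C_V(T)|²` and `U` moves no fixed point of `T` to another
one, then the image of `T` has a unique involution (which is then `B`-invariant).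
-/

set_option autoImplicit false

namespace Cfsg.Agent.Helper66

section ShawEnd

variable {Γ : Type*} [Group Γ] {V : Type*} [CommGroup V]

/-- The stabiliser of `v` in the image of `U`. -/
def shawStab (ρ : Γ →* MulAut V) (U : Subgroup Γ) (v : V) : Subgroup (MulAut V) where
  carrier := {g | (∃ u ∈ U, ρ u = g) ∧ g v = v}
  mul_mem' := by
    rintro g h ⟨⟨u, hu, rfl⟩, hg⟩ ⟨⟨u', hu', rfl⟩, hh⟩
    exact ⟨⟨u * u', U.mul_mem hu hu', map_mul _ _ _⟩, by rw [MulAut.mul_apply, hh, hg]⟩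
  one_mem' := ⟨⟨1, U.one_mem, map_one _⟩, rfl⟩
  inv_mem' := by
    rintro g ⟨⟨u, hu, rfl⟩, hg⟩
    refine ⟨⟨u⁻¹, U.inv_mem hu, map_inv _ _⟩, ?_⟩
    conv_lhs => rw [← hg]
    exact MulAut.inv_apply_self _ _ _

theorem mem_shawStab (ρ : Γ →* MulAut V) (U : Subgroup Γ) (v : V) (g : MulAut V) :
    g ∈ shawStab ρ U v ↔ (∃ u ∈ U, ρ u = g) ∧ g v = v := Iff.rfl

theorem shawStab_card_le [Finite V] (ρ : Γ →* MulAut V) (B U : Subgroup Γ)
    (hBU : ∀ b ∈ B, ∀ u ∈ U, b * u * b⁻¹ ∈ U) (b : Γ) (hb : b ∈ B) (v w : V) (h : ρ b v = w) :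
    Nat.card ↥(shawStab ρ U v) ≤ Nat.card ↥(shawStab ρ U w) := by
  have hmem : ∀ g : ↥(shawStab ρ U v), ρ b * g.1 * (ρ b)⁻¹ ∈ shawStab ρ U w := by
    rintro ⟨g, ⟨u, hu, rfl⟩, hg⟩
    refine ⟨⟨b * u * b⁻¹, hBU b hb u hu, by simp⟩, ?_⟩
    show ρ b (ρ u ((ρ b)⁻¹ w)) = w
    rw [← h, MulAut.inv_apply_self, hg]
  refine Nat.card_le_card_of_injective (fun g => ⟨ρ b * g.1 * (ρ b)⁻¹, hmem g⟩) ?_
  intro g g' hgg
  have h1 : ρ b * g.1 * (ρ b)⁻¹ = ρ b * g'.1 * (ρ b)⁻¹ := congrArg Subtype.val hgg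
  exact Subtype.ext (mul_left_cancel (mul_right_cancel h1))

theorem shawEnd_caseA [Finite V] (ρ : Γ →* MulAut V) (T B U : Subgroup Γ)
    (hV2 : ∀ v : V, v * v = 1)
    (hT : ∀ t ∈ T, ∃ k : ℕ, (ρ t) ^ 2 ^ k = 1)
    (hUc : ∀ a ∈ U, ∀ b ∈ U, ρ a * ρ b = ρ b * ρ a)
    (hUodd : ∀ u ∈ U, ρ u * ρ u = 1 → ρ u = 1)
    (hTU : ∀ t ∈ T, ∀ u ∈ U, t * u * t⁻¹ ∈ U)
    (hBU : ∀ b ∈ B, ∀ u ∈ U, b * u * b⁻¹ ∈ U)
    (htr : ∀ v w : V, (∀ t ∈ T, ρ t v = v) → (∀ t ∈ T, ρ t w = w) → v ≠ 1 → w ≠ 1 →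
      ∃ b ∈ B, ρ b v = w)
    (v : V) (hv : ∀ t ∈ T, ρ t v = v) (hv1 : v ≠ 1) (u₀ : Γ) (hu₀ : u₀ ∈ U) (hu₀1 : ρ u₀ ≠ 1)
    (hu₀v : ρ u₀ v = v) : False := by
  classical
  have : Fact (Nat.Prime 2) := ⟨Nat.prime_two⟩
  have hinvV : ∀ x : V, x⁻¹ = x := fun x => inv_eq_of_mul_eq_one_left (hV2 x)
  obtain ⟨Y, hY⟩ : ∃ Y, Y = shawStab ρ U v := ⟨_, rfl⟩
  haveI : Fintype ↥Y := Fintype.ofFinite _
  have hYmem : ∀ g : MulAut V, g ∈ Y ↔ (∃ u ∈ U, ρ u = g) ∧ g v = v := by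
    intro g; rw [hY]; rfl
  have hu₀Y : ρ u₀ ∈ Y := (hYmem _).2 ⟨⟨u₀, hu₀, rfl⟩, hu₀v⟩
  -- `Y` has odd order
  have hYodd : Odd (Fintype.card ↥Y) := by
    rw [← Nat.not_even_iff_odd]
    intro heven
    have h2 : 2 ∣ Nat.card ↥Y := by rw [Nat.card_eq_fintype_card]; exact heven.two_dvd
    obtain ⟨g, hg⟩ := exists_prime_orderOf_dvd_card' 2 h2
    obtain ⟨⟨u, hu, hgu⟩, -⟩ := (hYmem g.1).1 g.2
    have hgg : g * g = 1 := by
      have := pow_orderOf_eq_one g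
      rwa [hg, pow_two] at this
    have h3 : ρ u * ρ u = 1 := by
      rw [hgu]; exact congrArg Subtype.val hgg
    have h4 : g = 1 := Subtype.ext (by rw [← hgu]; exact hUodd u hu h3)
    rw [h4, orderOf_one] at hg
    omega
  -- the averaging map
  obtain ⟨e, he⟩ : ∃ e : V → V, e = fun x => ∏ y : ↥Y, (y : MulAut V) x := ⟨_, rfl⟩
  have he_apply : ∀ x, e x = ∏ y : ↥Y, (y : MulAut V) x := fun x => by rw [he]
  have he_mul : ∀ x x', e (x * x') = e x * e x' := by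
    intro x x'
    rw [he_apply, he_apply, he_apply, ← Finset.prod_mul_distrib]
    exact Finset.prod_congr rfl (fun y _ => map_mul _ _ _)
  have he_one : e 1 = 1 := by
    rw [he_apply]
    exact Finset.prod_eq_one (fun y _ => map_one _)
  have he_fix : ∀ x, (∀ y ∈ Y, y x = x) → e x = x := by
    intro x hx
    rw [he_apply, Finset.prod_congr rfl (fun y _ => hx y.1 y.2), Finset.prod_const,
      Finset.card_univ]
    obtain ⟨k, hk⟩ := hYodd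
    rw [hk, pow_succ, pow_mul, pow_two, hV2, one_pow, one_mul]
  have he_img : ∀ x, ∀ y ∈ Y, y (e x) = e x := by
    intro x y hy
    rw [he_apply, map_prod]
    exact Equiv.prod_comp (Equiv.mulLeft (⟨y, hy⟩ : ↥Y)) (fun z : ↥Y => (z : MulAut V) x)
  have he_T : ∀ t ∈ T, ∀ x, ρ t (e x) = e (ρ t x) := by
    intro t ht x
    rw [he_apply, he_apply, map_prod]
    have hmem : ∀ z : ↥Y, ρ t * z.1 * (ρ t)⁻¹ ∈ Y := by
      rintro ⟨z, hz⟩
      obtain ⟨⟨u, hu, rfl⟩, hzv⟩ := (hYmem z).1 hz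
      refine (hYmem _).2 ⟨⟨t * u * t⁻¹, hTU t ht u hu, by simp⟩, ?_⟩
      show ρ t (ρ u ((ρ t)⁻¹ v)) = v
      have h1 : (ρ t)⁻¹ v = v := by
        conv_lhs => rw [← hv t ht]
        exact MulAut.inv_apply_self _ _ _
      rw [h1, hzv, hv t ht]
    have hc : Function.Bijective (fun z : ↥Y => (⟨ρ t * z.1 * (ρ t)⁻¹, hmem z⟩ : ↥Y)) := by
      apply (Finite.injective_iff_bijective).1
      intro z z' hzz
      have h1 : ρ t * z.1 * (ρ t)⁻¹ = ρ t * z'.1 * (ρ t)⁻¹ := congrArg Subtype.val hzz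
      exact Subtype.ext (mul_left_cancel (mul_right_cancel h1))
    rw [← Equiv.prod_comp (Equiv.ofBijective _ hc) (fun z : ↥Y => (z : MulAut V) (ρ t x))]
    apply Finset.prod_congr rfl
    intro z _
    show ρ t (z.1 x) = ρ t (z.1 ((ρ t)⁻¹ (ρ t x)))
    rw [MulAut.inv_apply_self]
  have he_U : ∀ u ∈ U, ∀ x, ρ u (e x) = e (ρ u x) := by
    intro u hu x
    rw [he_apply, he_apply, map_prod]
    apply Finset.prod_congr rfl
    intro z _
    obtain ⟨⟨u', hu', hz⟩, -⟩ := (hYmem z.1).1 z.2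
    rw [← hz]
    exact DFunLike.congr_fun (hUc u hu u' hu') x
  have hFK : ∀ x, (∀ y ∈ Y, y x = x) → e x = 1 → x = 1 := by
    intro x hx hex
    rw [← he_fix x hx, hex]
  -- the kernel of `e` is nontrivial
  have hKnt : ∃ x, e x = 1 ∧ x ≠ 1 := by
    by_contra hcon
    push Not at hcon
    have hinj : Function.Injective e := by
      intro x x' hxx
      have h1 : e (x * x') = 1 := by rw [he_mul, hxx, hV2]
      have h2 := hcon _ h1
      rw [← hinvV x']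
      exact eq_inv_of_mul_eq_one_left h2
    have hsurj := Finite.surjective_of_injective hinj
    apply hu₀1
    ext x
    obtain ⟨x', rfl⟩ := hsurj x
    exact he_img x' (ρ u₀) hu₀Y
  obtain ⟨x₁, hx₁e, hx₁1⟩ := hKnt
  let K : Subgroup V :=
    { carrier := {x | e x = 1}
      mul_mem' := by
        intro x y hx hy
        show e (x * y) = 1
        rw [he_mul, hx, hy, one_mul]
      one_mem' := he_one
      inv_mem' := by
        intro x hx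
        show e x⁻¹ = 1
        rw [hinvV]; exact hx }
  have hKp : IsPGroup 2 ↥K := by
    intro g
    refine ⟨1, Subtype.ext ?_⟩
    show (g : V) ^ 2 ^ 1 = 1
    rw [pow_one, pow_two, hV2]
  obtain ⟨k, hk⟩ := IsPGroup.iff_card.1 hKp
  have hk0 : k ≠ 0 := by
    rintro rfl
    rw [pow_zero, Subgroup.card_eq_one] at hk
    have : x₁ ∈ K := hx₁e
    rw [hk, Subgroup.mem_bot] at this
    exact hx₁1 this
  -- a nontrivial fixed point of `T` in the kernel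
  have hT2 : IsPGroup 2 ↥(T.map ρ) := by
    rintro ⟨g, hg⟩
    obtain ⟨t, ht, rfl⟩ := Subgroup.mem_map.1 hg
    obtain ⟨j, hj⟩ := hT t ht
    exact ⟨j, Subtype.ext (by simpa using hj)⟩
  have hw : ∃ w, e w = 1 ∧ w ≠ 1 ∧ ∀ t ∈ T, ρ t w = w := by
    by_contra hcon
    push Not at hcon
    let F : SubMulAction ↥(T.map ρ) V :=
      { carrier := {x | e x = 1}
        smul_mem' := by
          rintro ⟨g, hg⟩ x hx
          obtain ⟨t, ht, rfl⟩ := Subgroup.mem_map.1 hg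
          show e (ρ t x) = 1
          rw [← he_T t ht, hx, map_one] }
    have hFcard : Nat.card ↥F = 2 ^ k := hk
    have hmod := hT2.card_modEq_card_fixedPoints ↥F
    rw [hFcard] at hmod
    have hone : Nat.card ↥(MulAction.fixedPoints ↥(T.map ρ) ↥F) = 1 := by
      rw [Nat.card_eq_one_iff_unique]
      refine ⟨⟨?_⟩, ⟨⟨⟨1, he_one⟩, fun g => Subtype.ext (map_one _)⟩⟩⟩
      rintro ⟨⟨x, hx⟩, hxfix⟩ ⟨⟨x', hx'⟩, hx'fix⟩
      have h1 : x = 1 := by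
        by_contra hne
        obtain ⟨t, ht, hne'⟩ := hcon x hx hne
        exact hne' (congrArg Subtype.val (hxfix ⟨ρ t, Subgroup.mem_map.2 ⟨t, ht, rfl⟩⟩))
      have h2 : x' = 1 := by
        by_contra hne
        obtain ⟨t, ht, hne'⟩ := hcon x' hx' hne
        exact hne' (congrArg Subtype.val (hx'fix ⟨ρ t, Subgroup.mem_map.2 ⟨t, ht, rfl⟩⟩))
      subst h1; subst h2; rfl
    rw [hone] at hmod
    obtain ⟨k', rfl⟩ := Nat.exists_eq_succ_of_ne_zero hk0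
    have h3 : 2 ^ (k' + 1) % 2 = 1 % 2 := hmod
    rw [pow_succ] at h3
    omega
  obtain ⟨w, hwe, hw1, hwT⟩ := hw
  -- `v` is fixed by `Y`, `w` is in the kernel
  have hvY : ∀ y ∈ Y, y v = v := fun y hy => ((hYmem y).1 hy).2
  have hvw1 : v * w ≠ 1 := by
    intro h
    have h1 : w = v := by
      rw [← hinvV v]; exact eq_inv_of_mul_eq_one_right h
    rw [h1] at hwe
    exact hv1 (hFK v hvY hwe)
  have hvwT : ∀ t ∈ T, ρ t (v * w) = v * w := by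
    intro t ht
    rw [map_mul, hv t ht, hwT t ht]
  -- the stabiliser of `v * w`
  have hsub : ∀ g ∈ shawStab ρ U (v * w), g ∈ shawStab ρ U v ∧ g ∈ shawStab ρ U w := by
    rintro g ⟨⟨u, hu, rfl⟩, hg⟩
    have hz1 : ∀ y ∈ Y, y (ρ u v * v) = ρ u v * v := by
      intro y hy
      obtain ⟨⟨u', hu', rfl⟩, hy2⟩ := (hYmem y).1 hy
      rw [map_mul, hy2]
      have := DFunLike.congr_fun (hUc u' hu' u hu) v
      have h5 : ρ u' (ρ u v) = ρ u (ρ u' v) := this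
      rw [h5, hy2]
    have hz2 : e (ρ u w * w) = 1 := by
      rw [he_mul, ← he_U u hu, hwe, map_one, one_mul]
    have hprod : (ρ u v * v) * (ρ u w * w) = 1 := by
      have h5 : ρ u v * ρ u w = v * w := by rw [← map_mul]; exact hg
      calc (ρ u v * v) * (ρ u w * w) = (ρ u v * ρ u w) * (v * w) := by
            rw [mul_mul_mul_comm]
        _ = 1 := by rw [h5, hV2]
    have heq : ρ u v * v = ρ u w * w := by
      rw [← hinvV (ρ u w * w)]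
      exact eq_inv_of_mul_eq_one_left hprod
    have h6 : ρ u v * v = 1 := hFK _ hz1 (by rw [heq]; exact hz2)
    have h7 : ρ u w * w = 1 := by rw [← heq]; exact h6
    refine ⟨⟨⟨u, hu, rfl⟩, ?_⟩, ⟨⟨u, hu, rfl⟩, ?_⟩⟩
    · have h8 := eq_inv_of_mul_eq_one_left h6
      rw [hinvV] at h8
      exact h8
    · have h8 := eq_inv_of_mul_eq_one_left h7
      rw [hinvV] at h8
      exact h8
  -- equal cardinalities
  have hcardeq : Nat.card ↥(shawStab ρ U v) ≤ Nat.card ↥(shawStab ρ U (v * w)) := by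
    obtain ⟨b, hb, hbv⟩ := htr v (v * w) hv hvwT hv1 hvw1
    exact shawStab_card_le ρ B U hBU b hb v (v * w) hbv
  have hle : shawStab ρ U (v * w) ≤ shawStab ρ U v := fun g hg => (hsub g hg).1
  have heqS : shawStab ρ U (v * w) = shawStab ρ U v :=
    Subgroup.eq_of_le_of_card_ge hle hcardeq
  have hYw : ∀ y ∈ Y, y w = w := by
    intro y hy
    rw [hY, ← heqS] at hy
    exact ((hsub y hy).2).2
  exact hw1 (hFK w hYw hwe)

theorem shawEnd_aux_comm {G : Type*} [Group G] (a c : G) (ha : a * a = 1)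
    (hc : c * (a * c * a) = a * c * a * c) : a * (c * (a * c * a)) = c * (a * c * a) * a := by
  have h1 : a * (c * (a * c * a)) = c * a * c := by
    rw [hc]
    calc a * (a * c * a * c) = (a * a) * c * a * c := by simp only [mul_assoc]
      _ = c * a * c := by rw [ha, one_mul]
  have h2 : c * (a * c * a) * a = c * a * c := by
    calc c * (a * c * a) * a = c * a * c * (a * a) := by simp only [mul_assoc]
      _ = c * a * c := by rw [ha, mul_one]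
  rw [h1, h2]

theorem shawEnd_aux_inv {G : Type*} [Group G] (a b c : G) (ha : a * c * a⁻¹ = c⁻¹)
    (hb : b * c * b⁻¹ = c⁻¹) : a * b * c = c * (a * b) := by
  have e2 : b * c = c⁻¹ * b := by rw [← hb]; group
  have e1 : a * c⁻¹ = c * a := by
    have h : a * c = c⁻¹ * a := by rw [← ha]; group
    calc a * c⁻¹ = c * (c⁻¹ * a) * c⁻¹ := by group
      _ = c * (a * c) * c⁻¹ := by rw [h]
      _ = c * a := by group
  calc a * b * c = a * (b * c) := by rw [mul_assoc]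
    _ = a * (c⁻¹ * b) := by rw [e2]
    _ = (a * c⁻¹) * b := by rw [mul_assoc]
    _ = c * a * b := by rw [e1]
    _ = c * (a * b) := by rw [mul_assoc]

theorem shawEnd_aux_invol {G : Type*} [Group G] (P : G → Prop)
    (hP : ∀ a, P a → P (a * a)) :
    ∀ k : ℕ, ∀ a : G, P a → a ≠ 1 → a ^ 2 ^ k = 1 → ∃ b, P b ∧ b ≠ 1 ∧ b * b = 1 := by
  intro k
  induction k with
  | zero =>
    intro a _ ha1 ha
    rw [pow_zero, pow_one] at ha
    exact (ha1 ha).elim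
  | succ k ih =>
    intro a hPa ha1 ha
    by_cases h : a * a = 1
    · exact ⟨a, hPa, ha1, h⟩
    · apply ih (a * a) (hP a hPa) h
      rw [← pow_two, ← pow_mul, ← pow_succ']
      exact ha

theorem shawEnd_caseB [Finite V] (ρ : Γ →* MulAut V) (T B U : Subgroup Γ)
    (hV2 : ∀ v : V, v * v = 1)
    (hT : ∀ t ∈ T, ∃ k : ℕ, (ρ t) ^ 2 ^ k = 1)
    (hTnt : ∃ t ∈ T, ρ t ≠ 1)
    (hUc : ∀ a ∈ U, ∀ b ∈ U, ρ a * ρ b = ρ b * ρ a)
    (hUnt : ∃ u ∈ U, ρ u ≠ 1)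
    (hTU : ∀ t ∈ T, ∀ u ∈ U, t * u * t⁻¹ ∈ U)
    (hBT : ∀ b ∈ B, ∀ t ∈ T, b * t * b⁻¹ ∈ T)
    (hinj : ∀ u ∈ U, ∀ v : V, (∀ t ∈ T, ρ t v = v) → (∀ t ∈ T, ρ t (ρ u v) = ρ u v) → ρ u v = v)
    (hcard : Nat.card V ≤ Nat.card {v : V // ∀ t ∈ T, ρ t v = v} ^ 2)
    (hB : ∀ v : V, (∀ t ∈ T, ρ t v = v) → v ≠ 1 → ∀ u ∈ U, ρ u v = v → ρ u = 1) :
    ∃ t ∈ T, ρ t ≠ 1 ∧ ρ t * ρ t = 1 ∧ ∀ b ∈ B, ρ (b * t * b⁻¹) = ρ t := by
  classical
  have hinvV : ∀ x : V, x⁻¹ = x := fun x => inv_eq_of_mul_eq_one_left (hV2 x)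
  -- the decomposition `V = V₊ × u V₊`
  have hdec : ∀ u ∈ U, ρ u ≠ 1 → ∀ x : V, ∃ v w : V, (∀ t ∈ T, ρ t v = v) ∧
      (∀ t ∈ T, ρ t w = w) ∧ x = v * ρ u w := by
    intro u hu hu1 x
    obtain ⟨φ, hφdef⟩ : ∃ φ : {v : V // ∀ t ∈ T, ρ t v = v} × {v : V // ∀ t ∈ T, ρ t v = v} → V,
        φ = fun p => p.1.1 * ρ u p.2.1 := ⟨_, rfl⟩
    have hφ : Function.Injective φ := by
      rintro ⟨⟨v, hv⟩, ⟨w, hw⟩⟩ ⟨⟨v', hv'⟩, ⟨w', hw'⟩⟩ h
      have h1 : v * ρ u w = v' * ρ u w' := by rw [hφdef] at h; exact h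
      have h2 : ρ u (w * w') = v * v' := by
        rw [map_mul]
        have h3 : (v * ρ u w) * (v * ρ u w') = (v' * ρ u w') * (v * ρ u w') := by rw [h1]
        have h4 : (v * ρ u w) * (v * ρ u w') = ρ u w * ρ u w' := by
          rw [mul_mul_mul_comm, hV2, one_mul]
        have h5 : (v' * ρ u w') * (v * ρ u w') = v * v' := by
          rw [mul_mul_mul_comm, hV2, mul_one, mul_comm]
        rw [← h4, h3, h5]
      have hx : ∀ t ∈ T, ρ t (w * w') = w * w' := fun t ht => by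
        rw [map_mul, hw t ht, hw' t ht]
      have hx' : ∀ t ∈ T, ρ t (ρ u (w * w')) = ρ u (w * w') := fun t ht => by
        rw [h2, map_mul, hv t ht, hv' t ht]
      have h6 : ρ u (w * w') = w * w' := hinj u hu _ hx hx'
      have h7 : w * w' = 1 := by
        by_contra hne
        exact hu1 (hB _ hx hne u hu h6)
      have h8 : w = w' := by
        have := eq_inv_of_mul_eq_one_left h7
        rwa [hinvV] at this
      have h9 : v * v' = 1 := by rw [← h2, h7, map_one]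
      have h10 : v = v' := by
        have := eq_inv_of_mul_eq_one_left h9
        rwa [hinvV] at this
      subst h8; subst h10; rfl
    have hbij : Function.Bijective φ := by
      apply hφ.bijective_of_nat_card_le
      rw [Nat.card_prod, ← pow_two]
      exact hcard
    obtain ⟨⟨⟨v, hv⟩, ⟨w, hw⟩⟩, hvw⟩ := hbij.2 x
    refine ⟨v, w, hv, hw, ?_⟩
    rw [← hvw, hφdef]
  -- (B1): an element of `T` commuting with a nontrivial element of `U` is trivial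
  have hB1 : ∀ t ∈ T, ∀ u ∈ U, ρ u ≠ 1 → ρ t * ρ u = ρ u * ρ t → ρ t = 1 := by
    intro t ht u hu hu1 hcomm
    ext x
    obtain ⟨v, w, hv, hw, rfl⟩ := hdec u hu hu1 x
    have h1 : ρ t (ρ u w) = ρ u (ρ t w) := DFunLike.congr_fun hcomm w
    rw [MulAut.one_apply, map_mul, hv t ht, h1, hw t ht]
  -- an involution
  have hinvol : ∃ t ∈ T, ρ t ≠ 1 ∧ ρ t * ρ t = 1 := by
    obtain ⟨t, ht, ht1⟩ := hTnt
    obtain ⟨k, hk⟩ := hT t ht
    obtain ⟨b, ⟨t', ht', rfl⟩, hb1, hb2⟩ :=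
      shawEnd_aux_invol (fun a : MulAut V => ∃ t ∈ T, ρ t = a)
        (by rintro a ⟨s, hs, rfl⟩; exact ⟨s * s, T.mul_mem hs hs, map_mul _ _ _⟩)
        k (ρ t) ⟨t, ht, rfl⟩ ht1 hk
    exact ⟨t', ht', hb1, hb2⟩
  -- involutions invert `U`
  have hinv : ∀ t ∈ T, ρ t ≠ 1 → ρ t * ρ t = 1 → ∀ u ∈ U, ρ t * ρ u * (ρ t)⁻¹ = (ρ u)⁻¹ := by
    intro t ht ht1 ht2 u hu
    have hu' : t * u * t⁻¹ ∈ U := hTU t ht u hu
    have htinv : (ρ t)⁻¹ = ρ t := inv_eq_of_mul_eq_one_left ht2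
    have hh : ρ (u * (t * u * t⁻¹)) = 1 := by
      by_contra hne
      apply ht1
      apply hB1 t ht (u * (t * u * t⁻¹)) (U.mul_mem hu hu') hne
      have hc := hUc u hu (t * u * t⁻¹) hu'
      simp only [map_mul, map_inv, htinv] at hc ⊢
      exact shawEnd_aux_comm (ρ t) (ρ u) ht2 hc
    rw [map_mul] at hh
    have h2 := eq_inv_of_mul_eq_one_right hh
    rw [← h2]
    simp only [map_mul, map_inv]
  -- uniqueness of the involution
  have huniq : ∀ t₁ ∈ T, ∀ t₂ ∈ T, ρ t₁ ≠ 1 → ρ t₁ * ρ t₁ = 1 → ρ t₂ ≠ 1 → ρ t₂ * ρ t₂ = 1 →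
      ρ t₁ = ρ t₂ := by
    intro t₁ h₁ t₂ h₂ h11 h12 h21 h22
    obtain ⟨u₀, hu₀, hu₀1⟩ := hUnt
    have e1 := hinv t₁ h₁ h11 h12 u₀ hu₀
    have e2 := hinv t₂ h₂ h21 h22 u₀ hu₀
    have h3 : ρ (t₁ * t₂) = 1 := by
      apply hB1 (t₁ * t₂) (T.mul_mem h₁ h₂) u₀ hu₀ hu₀1
      rw [map_mul]
      exact shawEnd_aux_inv _ _ _ e1 e2
    rw [map_mul] at h3
    have h4 := eq_inv_of_mul_eq_one_left h3
    rw [inv_eq_of_mul_eq_one_left h22] at h4
    exact h4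
  obtain ⟨t₀, ht₀, ht₀1, ht₀2⟩ := hinvol
  refine ⟨t₀, ht₀, ht₀1, ht₀2, ?_⟩
  intro b hb
  have hmem : b * t₀ * b⁻¹ ∈ T := hBT b hb t₀ ht₀
  have hconj : ρ (b * t₀ * b⁻¹) = ρ b * ρ t₀ * (ρ b)⁻¹ := by simp only [map_mul, map_inv]
  apply huniq _ hmem _ ht₀
  · rw [hconj]
    intro h
    apply ht₀1
    have h5 : ρ t₀ = (ρ b)⁻¹ * (ρ b * ρ t₀ * (ρ b)⁻¹) * ρ b := by group
    rw [h5, h, mul_one, inv_mul_cancel]
  · rw [hconj]
    calc ρ b * ρ t₀ * (ρ b)⁻¹ * (ρ b * ρ t₀ * (ρ b)⁻¹) = ρ b * (ρ t₀ * ρ t₀) * (ρ b)⁻¹ := by group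
      _ = 1 := by rw [ht₀2, mul_one, mul_inv_cancel]
  · exact ht₀1
  · exact ht₀2

end ShawEnd

/-- **Piece P7 of CALL S3797** (`shaw_end`). -/
theorem shaw_end {Γ : Type*} [Group Γ] {V : Type*} [Group V] [Finite V]
    (hVc : ∀ a b : V, a * b = b * a) (hV2 : ∀ v : V, v * v = 1)
    (ρ : Γ →* MulAut V) (T B U : Subgroup Γ)
    (hT : ∀ t ∈ T, ∃ k : ℕ, (ρ t) ^ 2 ^ k = 1)
    (hTnt : ∃ t ∈ T, ρ t ≠ 1)
    (hUc : ∀ a ∈ U, ∀ b ∈ U, ρ a * ρ b = ρ b * ρ a)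
    (hUodd : ∀ u ∈ U, ρ u * ρ u = 1 → ρ u = 1)
    (hUnt : ∃ u ∈ U, ρ u ≠ 1)
    (hTU : ∀ t ∈ T, ∀ u ∈ U, t * u * t⁻¹ ∈ U)
    (hBU : ∀ b ∈ B, ∀ u ∈ U, b * u * b⁻¹ ∈ U)
    (hBT : ∀ b ∈ B, ∀ t ∈ T, b * t * b⁻¹ ∈ T)
    (hinj : ∀ u ∈ U, ∀ v : V, (∀ t ∈ T, ρ t v = v) → (∀ t ∈ T, ρ t (ρ u v) = ρ u v) → ρ u v = v)
    (htr : ∀ v w : V, (∀ t ∈ T, ρ t v = v) → (∀ t ∈ T, ρ t w = w) → v ≠ 1 → w ≠ 1 →
      ∃ b ∈ B, ρ b v = w)
    (hcard : Nat.card V ≤ Nat.card {v : V // ∀ t ∈ T, ρ t v = v} ^ 2) :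
    ∃ t ∈ T, ρ t ≠ 1 ∧ ρ t * ρ t = 1 ∧ ∀ b ∈ B, ρ (b * t * b⁻¹) = ρ t := by
  letI : CommGroup V := { ‹Group V› with mul_comm := hVc }
  by_cases hA : ∃ v : V, (∀ t ∈ T, ρ t v = v) ∧ v ≠ 1 ∧ ∃ u ∈ U, ρ u ≠ 1 ∧ ρ u v = v
  · obtain ⟨v, hv, hv1, u, hu, hu1, huv⟩ := hA
    exact (shawEnd_caseA ρ T B U hV2 hT hUc hUodd hTU hBU htr v hv hv1 u hu hu1 huv).elim
  · have hB : ∀ v : V, (∀ t ∈ T, ρ t v = v) → v ≠ 1 → ∀ u ∈ U, ρ u v = v → ρ u = 1 := by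
      intro v hv hv1 u hu huv
      by_contra hne
      exact hA ⟨v, hv, hv1, u, hu, hne, huv⟩
    exact shawEnd_caseB ρ T B U hV2 hT hTnt hUc hUnt hTU hBT hinj hcard hB

end Cfsg.Agent.Helper66
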