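import Mathlib

/-!
# Piece P13 of CALL S3797 (Thompson/Shaw): an abstract fixed-point count

`shaw_fix`: a `2`-group `T` and a group `B` normalising it act on a group `V` of order `q ^ 2`
(`q = 2 ^ n`), compatibly with a map `Q` having `q` values whose fibres over the values
`≠ Q 1` are permuted transitively by `B` and preserved by `T`.  Then `T` has exactly `q` fixed
points and `Q` is injective on them.
-/

set_option autoImplicit false

namespace Cfsg.Agent.Helper66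

section ShawFix

variable {Γ : Type*} [Group Γ] {V : Type*} [Group V] {Ω : Type*}

theorem shawFix_fibre_le [DecidableEq V] [DecidableEq Ω] (Q : V → Ω) (ρ : Γ →* MulAut V)
    (B : Subgroup Γ)
    (hQB : ∀ b ∈ B, ∀ v w, Q v = Q w → Q (ρ b v) = Q (ρ b w))
    (S : Finset V) (hS : ∀ b ∈ B, ∀ v ∈ S, ρ b v ∈ S)
    (b : Γ) (hb : b ∈ B) (v w : V) (h : Q (ρ b v) = Q w) :
    (S.filter (fun x => Q x = Q v)).card ≤ (S.filter (fun x => Q x = Q w)).card := by
  apply Finset.card_le_card_of_injOn (fun x => ρ b x)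
  · intro x hx
    have hx' := Finset.mem_filter.1 hx
    exact Finset.mem_filter.2 ⟨hS b hb x hx'.1, (hQB b hb x v hx'.2).trans h⟩
  · intro x _ y _ hxy
    exact (ρ b).injective hxy

theorem shawFix_fibre_eq [DecidableEq V] [DecidableEq Ω] (Q : V → Ω) (ρ : Γ →* MulAut V)
    (B : Subgroup Γ)
    (hQB : ∀ b ∈ B, ∀ v w, Q v = Q w → Q (ρ b v) = Q (ρ b w))
    (hBtr : ∀ v w : V, v ≠ 1 → w ≠ 1 → ∃ b ∈ B, Q (ρ b v) = Q w)
    (S : Finset V) (hS : ∀ b ∈ B, ∀ v ∈ S, ρ b v ∈ S) (h1 : (1 : V) ∉ S)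
    (v w : V) (hv : v ∈ S) (hw : w ∈ S) :
    (S.filter (fun x => Q x = Q v)).card = (S.filter (fun x => Q x = Q w)).card := by
  have hv1 : v ≠ 1 := fun h => h1 (h ▸ hv)
  have hw1 : w ≠ 1 := fun h => h1 (h ▸ hw)
  obtain ⟨b, hb, h⟩ := hBtr v w hv1 hw1
  refine le_antisymm (shawFix_fibre_le Q ρ B hQB S hS b hb v w h) ?_
  refine shawFix_fibre_le Q ρ B hQB S hS b⁻¹ (inv_mem hb) w v ?_
  have h2 := hQB b⁻¹ (inv_mem hb) w (ρ b v) h.symm
  rw [h2, map_inv, MulAut.inv_apply_self]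

omit [Group V] in
theorem shawFix_card_eq [DecidableEq V] [DecidableEq Ω] (Q : V → Ω) (S : Finset V) (c : ℕ)
    (hc : ∀ v ∈ S, (S.filter (fun x => Q x = Q v)).card = c) :
    S.card = (S.image Q).card * c := by
  rw [Finset.card_eq_sum_card_image Q S]
  apply Finset.sum_const_nat
  intro ω hω
  obtain ⟨v, hv, rfl⟩ := Finset.mem_image.1 hω
  exact hc v hv

theorem shawFix_arith (n m N : ℕ) (hn : 1 ≤ n) (hm : m < 2 * n) (hN : 1 ≤ N)
    (h : 2 ^ m = 1 + (2 ^ n - 1) * N) : m = n ∧ N = 1 := by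
  have hq2 : 2 ≤ 2 ^ n := by
    calc 2 = 2 ^ 1 := by norm_num
      _ ≤ 2 ^ n := Nat.pow_le_pow_right (by norm_num) hn
  have hnm : n ≤ m := by
    by_contra hcon
    have h1 : 2 ^ m < 2 ^ n := Nat.pow_lt_pow_right (by norm_num) (by omega)
    have h2 : (2 ^ n - 1) * 1 ≤ (2 ^ n - 1) * N := Nat.mul_le_mul_left _ hN
    omega
  obtain ⟨j, rfl⟩ : ∃ j, m = n + j := ⟨m - n, by omega⟩
  have hj : j < n := by omega
  have hjlt : 2 ^ j < 2 ^ n := Nat.pow_lt_pow_right (by norm_num) hj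
  have hjpos : 1 ≤ 2 ^ j := Nat.one_le_two_pow
  obtain ⟨a, ha⟩ : ∃ a, 2 ^ n = a + 1 := ⟨2 ^ n - 1, by omega⟩
  obtain ⟨c, hc⟩ : ∃ c, 2 ^ j = c + 1 := ⟨2 ^ j - 1, by omega⟩
  rw [pow_add, ha, hc] at h
  simp only [Nat.add_sub_cancel] at h
  -- (a+1)(c+1) = 1 + a N, c < a
  have hca : c < a := by omega
  have h3 : a * N = a * (c + 1) + c := by
    have : (a + 1) * (c + 1) = a * (c + 1) + c + 1 := by ring
    omega
  have hNc : N = c + 1 := by
    by_contra hne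
    rcases Nat.lt_or_ge N (c + 1) with h4 | h4
    · have : a * N ≤ a * (c + 1) := Nat.mul_le_mul_left _ (by omega)
      have h5 : N + 1 ≤ c + 1 := h4
      have h6 : a * (N + 1) ≤ a * (c + 1) := Nat.mul_le_mul_left _ h5
      have h7 : a * (N + 1) = a * N + a := by ring
      omega
    · have h5 : c + 2 ≤ N := by omega
      have h6 : a * (c + 2) ≤ a * N := Nat.mul_le_mul_left _ h5
      have h7 : a * (c + 2) = a * (c + 1) + a := by ring
      omega
  rw [hNc] at h3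
  have hc0 : c = 0 := by omega
  subst hc0
  have hj0 : j = 0 := by
    by_contra hne
    have : 2 ^ 1 ≤ 2 ^ j := Nat.pow_le_pow_right (by norm_num) (by omega)
    omega
  exact ⟨by omega, by omega⟩

/-- **P13 of CALL S3797.** -/
theorem shaw_fix {Γ : Type*} [Group Γ] {V : Type*} [Group V] [Finite V] {Ω : Type*} (Q : V → Ω)
    (n : ℕ) (hn : 1 ≤ n) (hcard : Nat.card V = (2 ^ n) ^ 2)
    (hrange : Nat.card (Set.range Q) = 2 ^ n) (hQ1 : ∀ v, Q v = Q 1 → v = 1)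
    (ρ : Γ →* MulAut V) (T B : Subgroup Γ)
    (hT : ∀ t ∈ T, ∃ k : ℕ, (ρ t) ^ 2 ^ k = 1) (hTnt : ∃ t ∈ T, ρ t ≠ 1)
    (hBT : ∀ b ∈ B, ∀ t ∈ T, b * t * b⁻¹ ∈ T)
    (hQT : ∀ t ∈ T, ∀ v, Q (ρ t v) = Q v)
    (hQB : ∀ b ∈ B, ∀ v w, Q v = Q w → Q (ρ b v) = Q (ρ b w))
    (hBtr : ∀ v w : V, v ≠ 1 → w ≠ 1 → ∃ b ∈ B, Q (ρ b v) = Q w) :
    Nat.card {v : V // ∀ t ∈ T, ρ t v = v} = 2 ^ n ∧
      ∀ v w : V, (∀ t ∈ T, ρ t v = v) → (∀ t ∈ T, ρ t w = w) → Q v = Q w → v = w := by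
  classical
  haveI : Fintype V := Fintype.ofFinite V
  have : Fact (Nat.Prime 2) := ⟨Nat.prime_two⟩
  have hq2 : 2 ≤ 2 ^ n := by
    calc 2 = 2 ^ 1 := by norm_num
      _ ≤ 2 ^ n := Nat.pow_le_pow_right (by norm_num) hn
  obtain ⟨a, ha⟩ : ∃ a, 2 ^ n = a + 1 := ⟨2 ^ n - 1, by omega⟩
  have ha1 : 1 ≤ a := by omega
  -- the nonidentity elements
  obtain ⟨S₀, hS₀⟩ : ∃ S₀ : Finset V, S₀ = Finset.univ.filter (fun v => v ≠ 1) := ⟨_, rfl⟩
  have hS₀mem : ∀ v, v ∈ S₀ ↔ v ≠ 1 := by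
    intro v; rw [hS₀]; simp
  have hS₀card : S₀.card = a * (a + 2) := by
    have h1 : S₀ = Finset.univ.erase (1 : V) := by
      ext v; rw [hS₀mem]; simp
    rw [h1, Finset.card_erase_of_mem (Finset.mem_univ _), Finset.card_univ,
      ← Nat.card_eq_fintype_card, hcard, ha]
    have : (a + 1) ^ 2 = a * (a + 2) + 1 := by ring
    omega
  have hS₀B : ∀ b ∈ B, ∀ v ∈ S₀, ρ b v ∈ S₀ := by
    intro b _ v hv
    rw [hS₀mem] at hv ⊢
    intro h
    exact hv ((MulEquiv.map_eq_one_iff (ρ b)).1 h)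
  have hS₀1 : (1 : V) ∉ S₀ := by rw [hS₀mem]; simp
  -- the image of Q
  have himg : (Finset.univ.image Q).card = a + 1 := by
    rw [← ha, ← hrange, Nat.card_coe_set_eq, ← Set.ncard_coe_finset]
    congr 1
    ext ω; simp
  have himg₀ : S₀.image Q = (Finset.univ.image Q).erase (Q 1) := by
    ext ω
    simp only [Finset.mem_image, Finset.mem_erase, Finset.mem_univ, true_and, hS₀mem]
    constructor
    · rintro ⟨v, hv, rfl⟩
      exact ⟨fun h => hv (hQ1 v h), v, rfl⟩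
    · rintro ⟨h1, v, rfl⟩
      exact ⟨v, fun h => h1 (by rw [h]), rfl⟩
  have himg₀card : (S₀.image Q).card = a := by
    rw [himg₀, Finset.card_erase_of_mem (Finset.mem_image_of_mem Q (Finset.mem_univ _)), himg]
    rfl
  -- all fibres off `1` have `q + 1` elements
  have hS₀ne : S₀.Nonempty := by
    rw [← Finset.card_pos, hS₀card]; positivity
  obtain ⟨v₀, hv₀⟩ := hS₀ne
  have hfib₀ : ∀ v ∈ S₀, (S₀.filter (fun x => Q x = Q v)).card = a + 2 := by
    intro v hv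
    have h1 := shawFix_card_eq Q S₀ (S₀.filter (fun x => Q x = Q v)).card
      (fun w hw => shawFix_fibre_eq Q ρ B hQB hBtr S₀ hS₀B hS₀1 w v hw hv)
    rw [hS₀card, himg₀card] at h1
    exact (Nat.eq_of_mul_eq_mul_left (by omega) h1).symm
  -- the image of `T` is a `2`-group
  have hT2 : IsPGroup 2 ↥(T.map ρ) := by
    rintro ⟨g, hg⟩
    obtain ⟨t, ht, rfl⟩ := Subgroup.mem_map.1 hg
    obtain ⟨k, hk⟩ := hT t ht
    exact ⟨k, Subtype.ext (by simpa using hk)⟩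
  -- a fixed point in every fibre
  have hfixpt : ∀ v ∈ S₀, ∃ x : V, Q x = Q v ∧ ∀ t ∈ T, ρ t x = x := by
    intro v hv
    let F : SubMulAction ↥(T.map ρ) V :=
      { carrier := {x | Q x = Q v}
        smul_mem' := by
          rintro ⟨g, hg⟩ x hx
          obtain ⟨t, ht, rfl⟩ := Subgroup.mem_map.1 hg
          show Q (ρ t x) = Q v
          rw [hQT t ht x]; exact hx }
    have hFcard : Nat.card ↥F = a + 2 := by
      rw [← hfib₀ v hv]
      have : (F : Set V) = ↑(S₀.filter (fun x => Q x = Q v)) := by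
        ext x
        simp only [Finset.coe_filter, Set.mem_ofPred_eq, hS₀mem]
        constructor
        · intro hx
          refine ⟨?_, hx⟩
          rintro rfl
          exact (hS₀mem v).1 hv (hQ1 v hx.symm)
        · exact fun hx => hx.2
      rw [← Set.ncard_coe_finset, ← this]
      exact Nat.card_coe_set_eq _
    have hmod := hT2.card_modEq_card_fixedPoints ↥F
    rw [hFcard] at hmod
    have hne : Nat.card ↥(MulAction.fixedPoints ↥(T.map ρ) ↥F) ≠ 0 := by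
      intro h0
      rw [h0] at hmod
      have h2 : (a + 2) % 2 = 0 := hmod
      have h3 : (a + 1) % 2 = 0 := by
        rw [← ha]
        obtain ⟨n', rfl⟩ : ∃ n', n = n' + 1 := ⟨n - 1, by omega⟩
        rw [pow_succ]; omega
      omega
    have hne' : Nonempty ↥(MulAction.fixedPoints ↥(T.map ρ) ↥F) := by
      by_contra hcon
      rw [not_nonempty_iff] at hcon
      exact hne Nat.card_of_isEmpty
    obtain ⟨⟨⟨x, hx⟩, hxfix⟩⟩ := hne'
    refine ⟨x, hx, fun t ht => ?_⟩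
    have := hxfix ⟨ρ t, Subgroup.mem_map.2 ⟨t, ht, rfl⟩⟩
    exact congrArg Subtype.val this
  -- the fixed points
  obtain ⟨Sp, hSp⟩ : ∃ Sp : Finset V,
      Sp = Finset.univ.filter (fun v => (∀ t ∈ T, ρ t v = v) ∧ v ≠ 1) := ⟨_, rfl⟩
  have hSpmem : ∀ v, v ∈ Sp ↔ (∀ t ∈ T, ρ t v = v) ∧ v ≠ 1 := by
    intro v; rw [hSp]; simp
  have hSpB : ∀ b ∈ B, ∀ v ∈ Sp, ρ b v ∈ Sp := by
    intro b hb v hv
    rw [hSpmem] at hv ⊢
    refine ⟨fun t ht => ?_, fun h => hv.2 ((MulEquiv.map_eq_one_iff (ρ b)).1 h)⟩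
    have h1 : b⁻¹ * t * b ∈ T := by
      have := hBT b⁻¹ (inv_mem hb) t ht
      rwa [inv_inv] at this
    have h2 : t * b = b * (b⁻¹ * t * b) := by group
    calc ρ t (ρ b v) = ρ (t * b) v := by rw [map_mul]; rfl
      _ = ρ (b * (b⁻¹ * t * b)) v := by rw [h2]
      _ = ρ b (ρ (b⁻¹ * t * b) v) := by rw [map_mul]; rfl
      _ = ρ b v := by rw [hv.1 _ h1]
  have hSp1 : (1 : V) ∉ Sp := by rw [hSpmem]; simp
  have himgp : Sp.image Q = S₀.image Q := by
    ext ω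
    simp only [Finset.mem_image]
    constructor
    · rintro ⟨v, hv, rfl⟩
      exact ⟨v, (hS₀mem v).2 ((hSpmem v).1 hv).2, rfl⟩
    · rintro ⟨v, hv, rfl⟩
      obtain ⟨x, hx, hxfix⟩ := hfixpt v hv
      refine ⟨x, (hSpmem x).2 ⟨hxfix, ?_⟩, hx⟩
      rintro rfl
      exact (hS₀mem v).1 hv (hQ1 v hx.symm)
  obtain ⟨x₀, hx₀, hx₀fix⟩ := hfixpt v₀ hv₀
  have hx₀S : x₀ ∈ Sp := by
    refine (hSpmem x₀).2 ⟨hx₀fix, ?_⟩
    rintro rfl
    exact (hS₀mem v₀).1 hv₀ (hQ1 v₀ hx₀.symm)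
  obtain ⟨N, hN⟩ : ∃ N, N = (Sp.filter (fun x => Q x = Q x₀)).card := ⟨_, rfl⟩
  have hN1 : 1 ≤ N := by
    rw [hN, Nat.succ_le_iff, Finset.card_pos]
    exact ⟨x₀, Finset.mem_filter.2 ⟨hx₀S, rfl⟩⟩
  have hfibp : ∀ v ∈ Sp, (Sp.filter (fun x => Q x = Q v)).card = N := by
    intro v hv
    rw [hN]
    exact shawFix_fibre_eq Q ρ B hQB hBtr Sp hSpB hSp1 v x₀ hv hx₀S
  have hSpcard : Sp.card = a * N := by
    rw [shawFix_card_eq Q Sp N hfibp, himgp, himg₀card]
  -- the subgroup of fixed points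
  let Vp : Subgroup V :=
    { carrier := {v | ∀ t ∈ T, ρ t v = v}
      mul_mem' := by
        intro x y hx hy t ht
        rw [map_mul, hx t ht, hy t ht]
      one_mem' := fun t _ => map_one _
      inv_mem' := by
        intro x hx t ht
        rw [map_inv, hx t ht] }
  have hVpcard : Nat.card ↥Vp = 1 + a * N := by
    rw [← hSpcard]
    have h1 : (Vp : Set V) = ↑(insert (1 : V) Sp) := by
      ext v
      simp only [Finset.coe_insert, Set.mem_insert_iff, Finset.mem_coe, hSpmem]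
      constructor
      · intro hv
        by_cases hv1 : v = 1
        · exact Or.inl hv1
        · exact Or.inr ⟨hv, hv1⟩
      · rintro (rfl | hv)
        · exact Vp.one_mem
        · exact hv.1
    have h2 : Nat.card ↥Vp = (Vp : Set V).ncard := (Nat.card_coe_set_eq _)
    rw [h2, h1, Set.ncard_coe_finset, Finset.card_insert_of_notMem hSp1]
    omega
  have hdvd : Nat.card ↥Vp ∣ 2 ^ (n * 2) := by
    have h3 := Subgroup.card_subgroup_dvd_card Vp
    rw [hcard, ← pow_mul] at h3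
    exact h3
  obtain ⟨m, hm2, hm⟩ := (Nat.dvd_prime_pow Nat.prime_two).1 hdvd
  have hmlt : m < n * 2 := by
    rcases Nat.lt_or_ge m (n * 2) with h | h
    · exact h
    · exfalso
      have hm' : m = n * 2 := le_antisymm hm2 h
      have htop : Vp = ⊤ := by
        apply Subgroup.eq_top_of_card_eq
        rw [hm, hm', hcard, ← pow_mul]
      obtain ⟨t, ht, hne⟩ := hTnt
      apply hne
      ext v
      have hv : v ∈ Vp := by rw [htop]; exact Subgroup.mem_top v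
      exact hv t ht
  have harith := shawFix_arith n m N hn (by omega) hN1 (by
    rw [← hm, hVpcard, ha]; simp)
  obtain ⟨rfl, rfl⟩ := harith
  refine ⟨?_, ?_⟩
  · have : Nat.card {v : V // ∀ t ∈ T, ρ t v = v} = Nat.card ↥Vp := rfl
    rw [this, hm]
  · intro v w hv hw hQ
    by_cases hv1 : v = 1
    · subst hv1
      exact (hQ1 w hQ.symm).symm
    · have hw1 : w ≠ 1 := by
        rintro rfl
        exact hv1 (hQ1 v hQ)
      have hvS : v ∈ Sp := (hSpmem v).2 ⟨hv, hv1⟩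
      have hwS : w ∈ Sp := (hSpmem w).2 ⟨hw, hw1⟩
      have h1 := hfibp v hvS
      exact Finset.card_le_one.1 h1.le v (Finset.mem_filter.2 ⟨hvS, rfl⟩) w
        (Finset.mem_filter.2 ⟨hwS, hQ.symm⟩)

end ShawFix

end Cfsg.Agent.Helper66
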