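import Mathlib
import Cfsg.Prelude.Def_GeometricClasses
import Cfsg.Prelude.Def_ClassicalGeometry
import Cfsg.Agent.Helper42.SpModels

/-!
# CALL S5980, piece ALT (helper66, second formalisation): an alternating nondegenerate
form on `AdjoinRoot Φ` invariant under multiplication by the root, when `r ∣ q ^ e + 1`
-/

set_option autoImplicit false

namespace Cfsg.Agent.Helper66.TFALT

open Matrix Polynomial
open scoped Kronecker
open Cfsg.Agent.Helper42

theorem exists_alt_form {F : Type*} [Field F] [Fintype F] (h2 : (2 : F) ≠ 0) (r : ℕ)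
    (hr : r.Prime) (hr2 : r ≠ 2) (Φ : F[X]) [Fact (Irreducible Φ)] (hm : Φ.Monic)
    (hdvd : Φ ∣ X ^ r - 1) (h1 : Φ.eval 1 ≠ 0) (e : ℕ) (he : 0 < e)
    (hre : r ∣ Fintype.card F ^ e + 1) :
    Even Φ.natDegree ∧ ∃ B : LinearMap.BilinForm F (AdjoinRoot Φ), (∀ v, B v v = 0) ∧
      (∀ v, (∀ w, B v w = 0) → v = 0) ∧
      ∀ u v, B (AdjoinRoot.root Φ * u) (AdjoinRoot.root Φ * v) = B u v := by
  classical
  have hirr : Irreducible Φ := Fact.out
  have hfinK : FiniteDimensional F (AdjoinRoot Φ) := (AdjoinRoot.powerBasis hirr.ne_zero).finite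
  have hdimK : Module.finrank F (AdjoinRoot Φ) = Φ.natDegree :=
    (AdjoinRoot.powerBasis hirr.ne_zero).finrank
  have hFinK : Finite (AdjoinRoot Φ) := Module.finite_of_finite F
  obtain ⟨w, hw⟩ : ∃ w : AdjoinRoot Φ, w = AdjoinRoot.root Φ := ⟨_, rfl⟩
  have hwr : w ^ r = 1 := by
    have h2' : AdjoinRoot.mk Φ (X ^ r - 1) = 0 := AdjoinRoot.mk_eq_zero.mpr hdvd
    rw [map_sub, map_pow, AdjoinRoot.mk_X, map_one] at h2'
    rw [hw]
    exact sub_eq_zero.mp h2'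
  have hw1 : w ≠ 1 := by
    intro h
    have h3 : aeval (AdjoinRoot.root Φ) Φ = 0 := by rw [AdjoinRoot.aeval_eq, AdjoinRoot.mk_self]
    rw [← hw, h, ← map_one (algebraMap F (AdjoinRoot Φ)),
      aeval_algebraMap_apply_eq_algebraMap_eval] at h3
    exact h1 ((map_eq_zero _).mp h3)
  have hw0 : w ≠ 0 := by
    intro h
    rw [h, zero_pow hr.ne_zero] at hwr
    exact zero_ne_one hwr
  -- the `q ^ e`-power Frobenius
  obtain ⟨τ, hτdef⟩ : ∃ τ : AdjoinRoot Φ →ₐ[F] AdjoinRoot Φ,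
      τ = (FiniteField.frobeniusAlgHom F (AdjoinRoot Φ)) ^ e := ⟨_, rfl⟩
  have hτ : ∀ x : AdjoinRoot Φ, τ x = x ^ (Fintype.card F ^ e) := by
    intro x
    rw [hτdef, AlgHom.coe_pow, FiniteField.coe_frobeniusAlgHom, pow_iterate]
  have hτw : τ w = w⁻¹ := by
    rw [hτ]
    obtain ⟨t, ht⟩ := hre
    have h3 : w ^ (Fintype.card F ^ e) * w = 1 := by
      rw [← pow_succ, ht, pow_mul, hwr, one_pow]
    exact eq_inv_of_mul_eq_one_left h3
  have hττ : τ.comp τ = AlgHom.id F (AdjoinRoot Φ) := by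
    apply AdjoinRoot.algHom_ext
    rw [AlgHom.comp_apply, ← hw, hτw, map_inv₀, hτw, inv_inv]
    rfl
  obtain ⟨σ, hσdef⟩ : ∃ σ : AdjoinRoot Φ ≃ₐ[F] AdjoinRoot Φ, ∀ x, σ x = τ x :=
    ⟨AlgEquiv.ofAlgHom τ τ hττ hττ, fun _ => rfl⟩
  have hσσ : ∀ x, σ (σ x) = x := by
    intro x
    rw [hσdef, hσdef]
    exact congrArg (fun f : AdjoinRoot Φ →ₐ[F] AdjoinRoot Φ => f x) hττ
  have hσw : σ w = w⁻¹ := by rw [hσdef, hτw]
  have hww : w ≠ w⁻¹ := by
    intro h
    have hsq : w ^ 2 = 1 := by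
      rw [pow_two]
      nth_rewrite 2 [h]
      exact mul_inv_cancel₀ hw0
    obtain ⟨t, ht⟩ := hr.odd_of_ne_two hr2
    apply hw1
    have h3 : w ^ r = w := by rw [ht, pow_succ, pow_mul, hsq, one_pow, one_mul]
    rw [← h3, hwr]
  obtain ⟨c, hc⟩ : ∃ c : AdjoinRoot Φ, c = w - w⁻¹ := ⟨_, rfl⟩
  have hc0 : c ≠ 0 := by rw [hc]; exact sub_ne_zero.mpr hww
  have hσc : σ c = -c := by
    rw [hc, map_sub, map_inv₀, hσw, inv_inv]
    ring
  refine ⟨?_, SpModels.unitForm F (AdjoinRoot Φ) σ c,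
    SpModels.unitForm_alt F _ σ c hσσ hσc h2, SpModels.unitForm_nondeg F _ σ c hσσ hc0, ?_⟩
  · rw [← hdimK, ← FiniteField.orderOf_frobeniusAlgHom F (AdjoinRoot Φ)]
    have h2e : (FiniteField.frobeniusAlgHom F (AdjoinRoot Φ)) ^ (e * 2) = 1 := by
      rw [pow_mul, ← hτdef, pow_two]
      exact hττ
    have hne : (FiniteField.frobeniusAlgHom F (AdjoinRoot Φ)) ^ e ≠ 1 := by
      rw [← hτdef]
      intro h
      apply hww
      have h3 := hτw
      rw [h] at h3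
      exact h3
    have hd2 := orderOf_dvd_of_pow_eq_one h2e
    have hnd : ¬ orderOf (FiniteField.frobeniusAlgHom F (AdjoinRoot Φ)) ∣ e :=
      fun h => hne (orderOf_dvd_iff_pow_eq_one.mp h)
    by_contra hnev
    rw [Nat.not_even_iff_odd] at hnev
    exact hnd ((Nat.coprime_two_right.mpr hnev).dvd_of_dvd_mul_right hd2)
  · intro u v
    rw [← hw]
    exact SpModels.preserves_mulLeft F (AdjoinRoot Φ) σ c w
      (by rw [hσw]; exact mul_inv_cancel₀ hw0) u v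

end Cfsg.Agent.Helper66.TFALT
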