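import Mathlib
import Cfsg.Prelude.Def_GeometricClasses
import Cfsg.Prelude.Def_ClassicalGeometry
import Cfsg.Agent.Helper42.SpModels

/-!
# CALL S5980, piece SPXA (helper66), core: a symplectic element of order `r` with an
irreducible block, when `r ∣ q ^ e + 1`; the pieces XCD, ALT, TRANS are hypotheses here
-/

set_option autoImplicit false

namespace Cfsg.Agent.Helper66.TFSPXA

open Matrix Polynomial
open scoped Kronecker
open Cfsg.Agent.Helper42

universe u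

theorem exists_sp_elt_even_core {F : Type u} [Field F] [Fintype F] (d : ℕ) (r : ℕ) (e : ℕ)
    (he : 0 < e) (hed : e ≤ d) (hre : r ∣ Fintype.card F ^ e + 1)
    (hXCD : ∃ Φ : F[X], Φ.Monic ∧ Irreducible Φ ∧ Φ.Separable ∧ Φ ∣ X ^ r - 1 ∧ Φ.eval 1 ≠ 0 ∧
      ∀ j' : ℕ, 0 < j' → r ∣ Fintype.card F ^ j' - 1 → Φ.natDegree ∣ j')
    (hALT : ∀ (Φ : F[X]) [Fact (Irreducible Φ)], Φ.Monic → Φ ∣ X ^ r - 1 → Φ.eval 1 ≠ 0 →
      Even Φ.natDegree ∧ ∃ B : LinearMap.BilinForm F (AdjoinRoot Φ), (∀ v, B v v = 0) ∧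
        (∀ v, (∀ w, B v w = 0) → v = 0) ∧
        ∀ u v, B (AdjoinRoot.root Φ * u) (AdjoinRoot.root Φ * v) = B u v)
    (hTRANS : ∀ (V : Type u) [AddCommGroup V] [Module F V] [FiniteDimensional F V]
      (B : LinearMap.BilinForm F V), (∀ v, B v v = 0) → (∀ v, (∀ w, B v w = 0) → v = 0) →
      Module.finrank F V = 2 * d → ∀ T : Module.End F V, (∀ u v, B (T u) (T v) = B u v) →
      ∃ x : Matrix (Fin d ⊕ Fin d) (Fin d ⊕ Fin d) F, x ∈ Matrix.symplecticGroup (Fin d) F ∧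
        x.charpoly = T.charpoly ∧ ∀ k : ℕ, T ^ k = 1 → x ^ k = 1) :
    ∃ (x : Matrix (Fin d ⊕ Fin d) (Fin d ⊕ Fin d) F) (Φ : F[X]),
      x ∈ Matrix.symplecticGroup (Fin d) F ∧ x ^ r = 1 ∧ Φ.Separable ∧ Φ.eval 1 ≠ 0 ∧
      1 ≤ Φ.natDegree ∧ Φ.natDegree ≤ 2 * d ∧
      x.charpoly = Φ * (X - 1) ^ (2 * d - Φ.natDegree) ∧
      ∀ j' : ℕ, 0 < j' → r ∣ Fintype.card F ^ j' - 1 → Φ.natDegree ≤ j' := by
  classical
  obtain ⟨Φ, hm, hirr, hsep, hdvd, h1, hdeg⟩ := hXCD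
  have hfact : Fact (Irreducible Φ) := ⟨hirr⟩
  obtain ⟨heven, B, halt, hnd, hinv⟩ := hALT Φ hm hdvd h1
  -- the degree divides `2 e`
  have hr2e : r ∣ Fintype.card F ^ (2 * e) - 1 := by
    have hq1 : 1 ≤ Fintype.card F ^ e := Nat.one_le_pow _ _ Fintype.card_pos
    obtain ⟨a, ha⟩ : ∃ a, Fintype.card F ^ e = a + 1 := ⟨_, (Nat.sub_add_cancel hq1).symm⟩
    have h3 : Fintype.card F ^ (2 * e) - 1 = a * (Fintype.card F ^ e + 1) := by
      rw [mul_comm 2 e, pow_mul, ha]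
      have : (a + 1) ^ 2 = a * (a + 1 + 1) + 1 := by ring
      rw [this, Nat.add_sub_cancel]
    rw [h3]
    exact Dvd.dvd.mul_left hre a
  have hk2e : Φ.natDegree ∣ 2 * e := hdeg (2 * e) (by omega) hr2e
  have hk1 : 1 ≤ Φ.natDegree := hirr.natDegree_pos
  have hk2d : Φ.natDegree ≤ 2 * d := le_trans (Nat.le_of_dvd (by omega) hk2e) (by omega)
  obtain ⟨m, hm2⟩ := heven
  -- the model
  have hfinK : FiniteDimensional F (AdjoinRoot Φ) := (AdjoinRoot.powerBasis hirr.ne_zero).finite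
  have hdimK : Module.finrank F (AdjoinRoot Φ) = Φ.natDegree :=
    (AdjoinRoot.powerBasis hirr.ne_zero).finrank
  have hdimW : Module.finrank F (Fin (d - m) ⊕ Fin (d - m) → F) = 2 * d - Φ.natDegree := by
    rw [Module.finrank_fintype_fun_eq_card, Fintype.card_sum, Fintype.card_fin]
    omega
  have hdim : Module.finrank F (AdjoinRoot Φ × (Fin (d - m) ⊕ Fin (d - m) → F)) = 2 * d := by
    rw [Module.finrank_prod, hdimK, hdimW]
    omega
  have hT : ∀ u v : AdjoinRoot Φ × (Fin (d - m) ⊕ Fin (d - m) → F),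
      SpModels.sumForm B (SpForm.stdForm (d - m))
        (((LinearMap.mulLeft F (AdjoinRoot.root Φ)).prodMap (1 : Module.End F _)) u)
        (((LinearMap.mulLeft F (AdjoinRoot.root Φ)).prodMap (1 : Module.End F _)) v)
      = SpModels.sumForm B (SpForm.stdForm (d - m)) u v := by
    intro u v
    rw [SpModels.sumForm_apply, SpModels.sumForm_apply]
    simp only [LinearMap.prodMap_apply, LinearMap.mulLeft_apply, Module.End.one_apply]
    rw [hinv]
  obtain ⟨x, hxS, hxc, hxk⟩ := hTRANS (AdjoinRoot Φ × (Fin (d - m) ⊕ Fin (d - m) → F))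
    (SpModels.sumForm B (SpForm.stdForm (d - m)))
    (SpModels.sumForm_alt B _ halt (SpForm.stdForm_self _))
    (SpModels.sumForm_nondeg B _ hnd (SpForm.stdForm_nondeg _)) hdim
    ((LinearMap.mulLeft F (AdjoinRoot.root Φ)).prodMap (1 : Module.End F _)) hT
  have hroot : AdjoinRoot.root Φ ^ r = 1 := by
    have h2 : AdjoinRoot.mk Φ (X ^ r - 1) = 0 := AdjoinRoot.mk_eq_zero.mpr hdvd
    rw [map_sub, map_pow, AdjoinRoot.mk_X, map_one] at h2
    exact sub_eq_zero.mp h2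
  have hTr : ((LinearMap.mulLeft F (AdjoinRoot.root Φ)).prodMap
      (1 : Module.End F (Fin (d - m) ⊕ Fin (d - m) → F))) ^ r = 1 := by
    rw [SpModels.prodMap_pow', SpModels.mulLeft_pow', hroot, one_pow]
    exact (SpModels.prodMap_eq_one_iff _ _).mpr ⟨(SpModels.mulLeft_eq_one_iff F _ _).mpr rfl, rfl⟩
  have hTc : ((LinearMap.mulLeft F (AdjoinRoot.root Φ)).prodMap
      (1 : Module.End F (Fin (d - m) ⊕ Fin (d - m) → F))).charpoly
      = Φ * (X - 1) ^ (2 * d - Φ.natDegree) := by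
    rw [LinearMap.charpoly_prodMap, LinearMap.charpoly_one, hdimW]
    congr 1
    rw [← LinearMap.charpoly_toMatrix _ (AdjoinRoot.powerBasis hirr.ne_zero).basis,
      Algebra.toMatrix_lmul_eq]
    have hgen : (AdjoinRoot.powerBasis hirr.ne_zero).gen = AdjoinRoot.root Φ := rfl
    rw [← hgen, charpoly_leftMulMatrix]
    exact AdjoinRoot.minpoly_powerBasis_gen_of_monic hm hirr.ne_zero
  refine ⟨x, Φ, hxS, hxk r hTr, hsep, h1, hk1, hk2d, by rw [hxc, hTc], ?_⟩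
  intro j' hj' hrj'
  exact Nat.le_of_dvd hj' (hdeg j' hj' hrj')

end Cfsg.Agent.Helper66.TFSPXA
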