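import Mathlib
import Cfsg.Prelude.Def_GeometricClasses
import Cfsg.Prelude.Def_ClassicalGeometry
import Cfsg.Agent.Helper66.TFSPXAcore
import Cfsg.Agent.Helper66.TFALT
import Cfsg.Agent.Helper98.TFGen
import Cfsg.Agent.Helper31.TFTRANS

/-!
# CALL S5980, piece SPXA (helper66): a symplectic element of order `r` with an
irreducible block, when `r ∣ q ^ e + 1` (assembly of the core with XCD, ALT, TRANS)
-/

set_option autoImplicit false

namespace Cfsg.Agent.Helper66.TFSPXA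

open Matrix Polynomial
open scoped Kronecker

theorem exists_sp_elt_even {F : Type*} [Field F] [Fintype F] (h2 : (2 : F) ≠ 0) (d : ℕ)
    (r : ℕ) (hr : r.Prime) (hr2 : r ≠ 2) (hrF : (r : F) ≠ 0) (e : ℕ) (he : 0 < e)
    (hed : e ≤ d) (hre : r ∣ Fintype.card F ^ e + 1) :
    ∃ (x : Matrix (Fin d ⊕ Fin d) (Fin d ⊕ Fin d) F) (Φ : F[X]),
      x ∈ Matrix.symplecticGroup (Fin d) F ∧ x ^ r = 1 ∧ Φ.Separable ∧ Φ.eval 1 ≠ 0 ∧
      1 ≤ Φ.natDegree ∧ Φ.natDegree ≤ 2 * d ∧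
      x.charpoly = Φ * (X - 1) ^ (2 * d - Φ.natDegree) ∧
      ∀ j' : ℕ, 0 < j' → r ∣ Fintype.card F ^ j' - 1 → Φ.natDegree ≤ j' :=
  exists_sp_elt_even_core d r e he hed hre
    (Cfsg.Agent.Helper98.TFGen.exists_irred_factor_dvd r hr hrF)
    (fun Φ _ hm hdvd h1 =>
      Cfsg.Agent.Helper66.TFALT.exists_alt_form h2 r hr hr2 Φ hm hdvd h1 e he hre)
    (fun V _ _ _ B halt hnd hdim T hT =>
      Cfsg.Agent.Helper31.TFTRANS.exists_symp_of_model d V B halt hnd hdim T hT)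

end Cfsg.Agent.Helper66.TFSPXA
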