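import Mathlib
import Cfsg.Agent.Helper97.TGDefs

set_option autoImplicit false

/-!
# CALL S2414, piece DS2 (helper66): the double swap `dS a b` fixes `e_c` for `c ≠ a, b`
-/

universe u

namespace Cfsg.Agent.Helper66

open Cfsg Matrix Cfsg.Agent.Helper45 Cfsg.Agent.Helper98 Cfsg.Agent.Helper97.TG

variable {m : ℕ} {F : Type u} [Field F]

/-- DS2 -/
theorem tg_dS_eV (a b c : Fin m) (hca : c ≠ a) (hcb : c ≠ b) :
    mv ⇑(QP m F) (dS a b) (eV m F c) = eV m F c := by
  have key : ∀ d : Fin m, c ≠ d →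
      mv ⇑(QP m F) (reflO (QP m F) (eV m F d - fV m F d) (QP_eV_sub_fV_ne d)) (eV m F c) =
        eV m F c := by
    intro d hcd
    rw [mv_reflO, polar_eV_right]
    simp [hcd]
  unfold dS
  rw [mv_mul, key b hcb, key a hca]

end Cfsg.Agent.Helper66
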