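import Mathlib
import Cfsg.Prelude.Def_GeometricClasses
import Cfsg.Prelude.Def_Classical
import Cfsg.Agent.Helper97.THCLASSO

/-! CALL S5981, piece EXISO: a diagonal isometry in the standard basis. -/

set_option autoImplicit false
open Matrix Polynomial

namespace Cfsg.Agent.Helper66.THEXISO

variable {F : Type*} [Field F] [Fintype F]

/-- rearrangement of the index type -/
def rearr (k : ℕ) : Fin k ⊕ (Fin k ⊕ Unit) ≃ Unit ⊕ (Fin k ⊕ Fin k) where
  toFun s := Sum.elim (fun i => Sum.inr (Sum.inl i))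
    (Sum.elim (fun i => Sum.inr (Sum.inr i)) (fun u => Sum.inl u)) s
  invFun s := Sum.elim (fun u => Sum.inr (Sum.inr u))
    (Sum.elim (fun i => Sum.inl i) (fun i => Sum.inr (Sum.inl i))) s
  left_inv := by rintro (i | i | u) <;> rfl
  right_inv := by rintro (u | i | i) <;> rfl

/-- EXISO (level 2: uses CLASSO) -/
theorem exc_iso (h2 : (2 : F) ≠ 0) (k : ℕ) (Q : (Fin (2 * k + 1) → F) → F)
    (hQ : Cfsg.Geo.IsNondegenerateQuadraticForm Q) (t : Fin k → F) (ht : ∀ i, t i ≠ 0) :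
    ∃ (y h : GL (Fin (2 * k + 1)) F) (e : Fin k ⊕ (Fin k ⊕ Unit) ≃ Fin (2 * k + 1)),
      (∀ v, Q ((y : Matrix (Fin (2 * k + 1)) (Fin (2 * k + 1)) F) *ᵥ v) = Q v) ∧
      (y : Matrix (Fin (2 * k + 1)) (Fin (2 * k + 1)) F) =
        (h : Matrix (Fin (2 * k + 1)) (Fin (2 * k + 1)) F) *
          Matrix.diagonal (fun j => Sum.elim t (Sum.elim (fun i => (t i)⁻¹) (fun _ => 1)) (e.symm j)) *
          ((h⁻¹ : GL (Fin (2 * k + 1)) F) : Matrix (Fin (2 * k + 1)) (Fin (2 * k + 1)) F) := by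
  classical
  obtain ⟨P, c, e₀, hc, hP⟩ := Cfsg.Agent.Helper97.THCLASSO.class_odd h2 k Q hQ
  obtain ⟨d₀, hd₀⟩ : ∃ d₀ : Unit ⊕ (Fin k ⊕ Fin k) → F,
      d₀ = Sum.elim (fun _ => 1) (Sum.elim t (fun i => (t i)⁻¹)) := ⟨_, rfl⟩
  obtain ⟨e, he⟩ : ∃ e : Fin k ⊕ (Fin k ⊕ Unit) ≃ Fin (2 * k + 1),
      e = (rearr k).trans e₀.symm := ⟨_, rfl⟩
  have hde : ∀ j, Sum.elim t (Sum.elim (fun i => (t i)⁻¹) (fun _ => (1 : F))) (e.symm j) =
      d₀ (e₀ j) := by
    intro j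
    have h1 : e.symm j = (rearr k).symm (e₀ j) := by rw [he]; rfl
    rw [h1, hd₀]
    rcases e₀ j with u | i | i <;> rfl
  have hd0 : ∀ s, d₀ s ≠ 0 := by
    intro s
    rw [hd₀]
    rcases s with u | i | i
    · exact one_ne_zero
    · exact ht i
    · exact inv_ne_zero (ht i)
  obtain ⟨Du, hDu⟩ : ∃ Du : GL (Fin (2 * k + 1)) F,
      (Du : Matrix (Fin (2 * k + 1)) (Fin (2 * k + 1)) F) =
        Matrix.diagonal (fun j => d₀ (e₀ j)) := by
    refine ⟨⟨Matrix.diagonal (fun j => d₀ (e₀ j)), Matrix.diagonal (fun j => (d₀ (e₀ j))⁻¹),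
      ?_, ?_⟩, rfl⟩
    · rw [Matrix.diagonal_mul_diagonal, ← Matrix.diagonal_one]
      congr 1
      funext j
      exact mul_inv_cancel₀ (hd0 _)
    · rw [Matrix.diagonal_mul_diagonal, ← Matrix.diagonal_one]
      congr 1
      funext j
      exact inv_mul_cancel₀ (hd0 _)
  refine ⟨P * Du * P⁻¹, P, e, ?_, ?_⟩
  · intro v
    obtain ⟨u, hu⟩ : ∃ u : Unit ⊕ (Fin k ⊕ Fin k) → F,
        u = (((P⁻¹ : GL (Fin (2 * k + 1)) F) : Matrix (Fin (2 * k + 1)) (Fin (2 * k + 1)) F) *ᵥ v) ∘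
          e₀.symm := ⟨_, rfl⟩
    have hu' : u ∘ e₀ =
        ((P⁻¹ : GL (Fin (2 * k + 1)) F) : Matrix (Fin (2 * k + 1)) (Fin (2 * k + 1)) F) *ᵥ v := by
      rw [hu]
      funext j
      simp
    have hv : v = (P : Matrix (Fin (2 * k + 1)) (Fin (2 * k + 1)) F) *ᵥ (u ∘ e₀) := by
      rw [hu', Matrix.mulVec_mulVec, Units.mul_inv, Matrix.one_mulVec]
    have hyv : ((P * Du * P⁻¹ : GL (Fin (2 * k + 1)) F) :
        Matrix (Fin (2 * k + 1)) (Fin (2 * k + 1)) F) *ᵥ v =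
        (P : Matrix (Fin (2 * k + 1)) (Fin (2 * k + 1)) F) *ᵥ ((d₀ * u) ∘ e₀) := by
      simp only [Units.val_mul]
      rw [← Matrix.mulVec_mulVec, ← Matrix.mulVec_mulVec, ← hu', hDu]
      congr 1
      funext j
      rw [Matrix.mulVec_diagonal]
      rfl
    rw [hyv, hP]
    conv_rhs => rw [hv, hP]
    congr 1
    simp only [Cfsg.quadFormOdd, hd₀, Pi.mul_apply, Sum.elim_inl, Sum.elim_inr]
    congr 1
    · ring
    · apply Finset.sum_congr rfl
      intro i _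
      have := ht i
      field_simp
  · simp only [Units.val_mul]
    rw [hDu]
    have hfun : (fun j => d₀ (e₀ j)) =
        fun j => Sum.elim t (Sum.elim (fun i => (t i)⁻¹) (fun _ => (1 : F))) (e.symm j) := by
      funext j
      exact (hde j).symm
    rw [hfun]

end Cfsg.Agent.Helper66.THEXISO
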