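import Cfsg.Agent.Helper66.THGEXC3Core
import Cfsg.Agent.Helper66.THEXISO

/-! CALL S5981, piece GEXC3. -/

set_option autoImplicit false
open Matrix Polynomial

namespace Cfsg.Agent.Helper66.THGEXC3

variable {F : Type*} [Field F] [Fintype F]

/-- GEXC3 (level 2: uses EXZ EXD COMB3 EXISO OMEGA) -/
theorem good_exc_three (h2 : (2 : F) ≠ 0) (hv : padicValNat 3 (Fintype.card F - 1) = 1)
    (Q : (Fin 3 → F) → F) (hQ : Cfsg.Geo.IsNondegenerateQuadraticForm Q)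
    (x : GL (Fin 3) F) (hdet : x ∈ Cfsg.Geo.specialLinear (Fin 3) F) (z : F)
    (hx : ((x ^ 3 : GL (Fin 3) F) : Matrix (Fin 3) (Fin 3) F) = z • (1 : Matrix (Fin 3) (Fin 3) F)) :
    ∃ h : GL (Fin 3) F, h⁻¹ * x * h ∈ Cfsg.Geo.quadSimilarityGroup Q :=
  good_exc_three_of hv Q hQ
    (fun t ht => Cfsg.Agent.Helper66.THEXISO.exc_iso h2 1 Q hQ (fun _ => t) (fun _ => ht))
    x hdet z hx

end Cfsg.Agent.Helper66.THGEXC3
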