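import Mathlib
import Cfsg.Prelude.Def_GeometricClasses
import Cfsg.Prelude.Def_Classical
import Cfsg.Agent.Helper60.THEXZ
import Cfsg.Agent.Helper80.THOMEGA
import Cfsg.Agent.Helper99.THEXD

/-! CALL S5981, piece GEXC3 (core): the exceptional case `n = r = 3`, with the EXISO conclusion
for `k = 1` as a hypothesis. -/

set_option autoImplicit false
open Matrix Polynomial

namespace Cfsg.Agent.Helper66.THGEXC3

variable {F : Type*} [Field F] [Fintype F]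

theorem comb3 : ∀ a : Fin 3 → ZMod 3, ∑ i, a i = 0 →
    ∃ σ : Equiv.Perm (Fin 3), a (σ 1) + a (σ 2) = 2 * a (σ 0) := by
  decide

theorem conj_calc {n : Type*} [Fintype n] [DecidableEq n] {R : Type*} [CommRing R]
    (A Ai B Bi P P' D E : Matrix n n R) (hA : Ai * A = 1) (hP : P' * P = 1)
    (hD : D * P = P * E) :
    (B * P' * Ai) * (A * D * Ai) * (A * P * Bi) = B * E * Bi := by
  have h1 : ∀ X : Matrix n n R, Ai * (A * X) = X := fun X => by
    rw [← Matrix.mul_assoc, hA, Matrix.one_mul]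
  have h2 : ∀ X : Matrix n n R, P' * (P * X) = X := fun X => by
    rw [← Matrix.mul_assoc, hP, Matrix.one_mul]
  have h3 : ∀ X : Matrix n n R, D * (P * X) = P * (E * X) := fun X => by
    rw [← Matrix.mul_assoc, hD, Matrix.mul_assoc]
  simp only [Matrix.mul_assoc, h1, h3, h2]

/-- the explicit labelling of `Fin 3` used for the permutation -/
def lab : Fin 1 ⊕ (Fin 1 ⊕ Unit) ≃ Fin 3 where
  toFun s := Sum.elim (fun _ => 1) (Sum.elim (fun _ => 2) (fun _ => 0)) s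
  invFun j := ![Sum.inr (Sum.inr ()), Sum.inl 0, Sum.inr (Sum.inl 0)] j
  left_inv := by
    rintro (i | i | u)
    · fin_cases i; rfl
    · fin_cases i; rfl
    · rfl
  right_inv := by
    intro j
    fin_cases j <;> rfl

theorem good_exc_three_of (hv : padicValNat 3 (Fintype.card F - 1) = 1)
    (Q : (Fin 3 → F) → F) (hQ : Cfsg.Geo.IsNondegenerateQuadraticForm Q)
    (hiso : ∀ t : F, t ≠ 0 → ∃ (y h : GL (Fin 3) F) (e : Fin 1 ⊕ (Fin 1 ⊕ Unit) ≃ Fin 3),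
      (∀ v, Q ((y : Matrix (Fin 3) (Fin 3) F) *ᵥ v) = Q v) ∧
      (y : Matrix (Fin 3) (Fin 3) F) = (h : Matrix (Fin 3) (Fin 3) F) *
          Matrix.diagonal (fun j => Sum.elim (fun _ : Fin 1 => t)
            (Sum.elim (fun _ : Fin 1 => t⁻¹) (fun _ : Unit => (1 : F))) (e.symm j)) *
          ((h⁻¹ : GL (Fin 3) F) : Matrix (Fin 3) (Fin 3) F))
    (x : GL (Fin 3) F) (hdet : x ∈ Cfsg.Geo.specialLinear (Fin 3) F) (z : F)
    (hx : ((x ^ 3 : GL (Fin 3) F) : Matrix (Fin 3) (Fin 3) F) = z • (1 : Matrix (Fin 3) (Fin 3) F)) :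
    ∃ h : GL (Fin 3) F, h⁻¹ * x * h ∈ Cfsg.Geo.quadSimilarityGroup Q := by
  classical
  -- det x = 1
  have hdet' : (x : Matrix (Fin 3) (Fin 3) F).det = 1 := by
    have h1 : Matrix.GeneralLinearGroup.det x = 1 := MonoidHom.mem_ker.1 hdet
    have h2 := congrArg Units.val h1
    simpa using h2
  have hx' : (x : Matrix (Fin 3) (Fin 3) F) ^ 3 = z • (1 : Matrix (Fin 3) (Fin 3) F) := by
    rw [← hx, Units.val_pow_eq_pow_val]
  have hz : z = 1 := Cfsg.Agent.Helper60.THEXZ.exc_pow_one 3 Nat.prime_three (by norm_num) hv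
    (x : Matrix (Fin 3) (Fin 3) F) hdet' z hx'
  have hx3 : (x : Matrix (Fin 3) (Fin 3) F) ^ 3 = 1 := by rw [hx', hz, one_smul]
  -- a primitive cube root of unity
  have hd : 3 ∣ Fintype.card F - 1 := dvd_of_one_le_padicValNat (by rw [hv])
  obtain ⟨ω, hω1, hω3⟩ := Cfsg.Agent.Helper80.THOMEGA.exists_omega (F := F) 3 Nat.prime_three hd
  have h3F : ((3 : ℕ) : F) ≠ 0 := by
    intro h3
    obtain ⟨k, hk⟩ := hd
    have hq : Fintype.card F = 3 * k + 1 := by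
      have := Fintype.card_pos (α := F)
      omega
    have h0 : ((Fintype.card F : ℕ) : F) = 0 := Nat.cast_card_eq_zero F
    rw [hq] at h0
    push_cast at h0
    have h3' : (3 : F) = 0 := by exact_mod_cast h3
    rw [h3'] at h0
    simp at h0
  have hord : orderOf ω = 3 := orderOf_eq_prime hω3 hω1
  have hω0 : ω ≠ 0 := by
    intro h0
    rw [h0] at hω3
    simp at hω3
  -- diagonalise
  obtain ⟨h₀, e, hxd⟩ := Cfsg.Agent.Helper99.THEXD.exc_diag 3 Nat.prime_three h3F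
    (x : Matrix (Fin 3) (Fin 3) F) hx3 ω hω3 hω1
  have hsum : ∑ i, ((e i : ℕ) : ZMod 3) = 0 := by
    have h1 : (Matrix.diagonal (fun i => ω ^ e i)).det = 1 := by
      rw [← hdet', hxd, Matrix.det_units_conj]
    rw [Matrix.det_diagonal, Finset.prod_pow_eq_pow_sum] at h1
    have h2 : orderOf ω ∣ ∑ i, e i := orderOf_dvd_of_pow_eq_one h1
    rw [hord] at h2
    rw [← Nat.cast_sum]
    exact (ZMod.natCast_eq_zero_iff _ 3).2 h2
  obtain ⟨σ, hσ⟩ := comb3 (fun i => ((e i : ℕ) : ZMod 3)) hsum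
  have hpow : ω ^ e (σ 1) * ω ^ e (σ 2) = (ω ^ e (σ 0)) ^ 2 := by
    rw [← pow_add, ← pow_mul, mul_comm (e (σ 0)) 2]
    have hmod : (e (σ 1) + e (σ 2)) % 3 = (2 * e (σ 0)) % 3 := by
      apply (ZMod.natCast_eq_natCast_iff' _ _ 3).1
      push_cast
      exact hσ
    rw [← pow_mod_orderOf ω (e (σ 1) + e (σ 2)), ← pow_mod_orderOf ω (2 * e (σ 0)), hord, hmod]
  obtain ⟨c, hc⟩ : ∃ c : F, c = ω ^ e (σ 0) := ⟨_, rfl⟩
  have hc0 : c ≠ 0 := by rw [hc]; exact pow_ne_zero _ hω0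
  obtain ⟨t, ht⟩ : ∃ t : F, t = ω ^ e (σ 1) * c⁻¹ := ⟨_, rfl⟩
  have ht0 : t ≠ 0 := by
    rw [ht]
    exact mul_ne_zero (pow_ne_zero _ hω0) (inv_ne_zero hc0)
  have h1 : ω ^ e (σ 1) = c * t := by
    rw [ht]
    field_simp
  have h2 : ω ^ e (σ 2) = c * t⁻¹ := by
    have h3 : c * t * ω ^ e (σ 2) = c ^ 2 := by rw [← h1, hpow, hc]
    field_simp
    apply mul_left_cancel₀ hc0
    linear_combination h3
  obtain ⟨y, h₁, e', hyQ, hyd⟩ := hiso t ht0
  -- the permutation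
  obtain ⟨π, hπ⟩ : ∃ π : Equiv.Perm (Fin 3), π = (e'.symm.trans lab).trans σ := ⟨_, rfl⟩
  have hkey : ∀ j : Fin 3, ω ^ e (π j) = c * Sum.elim (fun _ : Fin 1 => t)
      (Sum.elim (fun _ : Fin 1 => t⁻¹) (fun _ : Unit => (1 : F))) (e'.symm j) := by
    intro j
    have hπj : π j = σ (lab (e'.symm j)) := by rw [hπ]; rfl
    rw [hπj]
    rcases e'.symm j with i | i | u
    · exact h1
    · exact h2
    · show ω ^ e (σ 0) = c * 1
      rw [mul_one, hc]
  -- the permutation matrix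
  obtain ⟨P, hP⟩ : ∃ P : Matrix (Fin 3) (Fin 3) F, P = (1 : Matrix (Fin 3) (Fin 3) F).submatrix id π :=
    ⟨_, rfl⟩
  obtain ⟨P', hP'⟩ : ∃ P' : Matrix (Fin 3) (Fin 3) F,
      P' = (1 : Matrix (Fin 3) (Fin 3) F).submatrix π id := ⟨_, rfl⟩
  have hPP' : P * P' = 1 := by
    rw [hP, hP', Matrix.submatrix_mul_equiv, Matrix.one_mul, Matrix.submatrix_id_id]
  have hP'P : P' * P = 1 := by
    rw [hP, hP']
    have := Matrix.submatrix_mul_equiv (1 : Matrix (Fin 3) (Fin 3) F) (1 : Matrix (Fin 3) (Fin 3) F)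
      π (Equiv.refl (Fin 3)) π
    rw [Matrix.one_mul, Matrix.submatrix_one_equiv] at this
    exact this
  have hDP : Matrix.diagonal (fun i => ω ^ e i) * P =
      P * Matrix.diagonal (fun j => c * Sum.elim (fun _ : Fin 1 => t)
        (Sum.elim (fun _ : Fin 1 => t⁻¹) (fun _ : Unit => (1 : F))) (e'.symm j)) := by
    ext i j
    rw [Matrix.diagonal_mul, Matrix.mul_diagonal, hP]
    simp only [Matrix.submatrix_apply, id, Matrix.one_apply]
    split_ifs with hij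
    · rw [hij, hkey j]
      ring
    · simp
  obtain ⟨Pu, hPu, hPu'⟩ : ∃ Pu : GL (Fin 3) F, (Pu : Matrix (Fin 3) (Fin 3) F) = P ∧
      ((Pu⁻¹ : GL (Fin 3) F) : Matrix (Fin 3) (Fin 3) F) = P' := ⟨⟨P, P', hPP', hP'P⟩, rfl, rfl⟩
  refine ⟨h₀ * Pu * h₁⁻¹, ?_⟩
  have hmat : ((((h₀ * Pu * h₁⁻¹)⁻¹ * x * (h₀ * Pu * h₁⁻¹) : GL (Fin 3) F)) :
      Matrix (Fin 3) (Fin 3) F) = c • (y : Matrix (Fin 3) (Fin 3) F) := by
    have hinv : (h₀ * Pu * h₁⁻¹)⁻¹ = h₁ * Pu⁻¹ * h₀⁻¹ := by group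
    rw [hinv]
    simp only [Units.val_mul]
    rw [hPu, hPu', hxd]
    rw [conj_calc (h₀ : Matrix (Fin 3) (Fin 3) F) ((h₀⁻¹ : GL (Fin 3) F) : Matrix (Fin 3) (Fin 3) F)
      (h₁ : Matrix (Fin 3) (Fin 3) F) ((h₁⁻¹ : GL (Fin 3) F) : Matrix (Fin 3) (Fin 3) F) P P' _ _
      (Units.inv_mul h₀) hP'P hDP]
    rw [hyd]
    have hsm : Matrix.diagonal (fun j => c * Sum.elim (fun _ : Fin 1 => t)
        (Sum.elim (fun _ : Fin 1 => t⁻¹) (fun _ : Unit => (1 : F))) (e'.symm j)) =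
        c • Matrix.diagonal (fun j => Sum.elim (fun _ : Fin 1 => t)
        (Sum.elim (fun _ : Fin 1 => t⁻¹) (fun _ : Unit => (1 : F))) (e'.symm j)) := by
      ext i j
      simp [Matrix.diagonal_apply]
    rw [hsm, Matrix.mul_smul, Matrix.smul_mul]
  refine ⟨Units.mk0 (c ^ 2) (pow_ne_zero 2 hc0), fun v => ?_⟩
  rw [hmat, Matrix.smul_mulVec, hQ.smul, hyQ]
  rfl

end Cfsg.Agent.Helper66.THGEXC3
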