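import Mathlib
import Cfsg.Prelude.Def_GeometricClasses
import Cfsg.Prelude.Def_Classical
import Cfsg.Agent.Helper60.THEXZ
import Cfsg.Agent.Helper80.THOMEGA
import Cfsg.Agent.Helper99.THEXD
import Cfsg.Agent.Helper78.THCOMB5
import Cfsg.Agent.Helper66.THGEXC3Core
import Cfsg.Agent.Helper66.THEXISO

/-! CALL S5981, piece GEXC5: the exceptional case `n = r = 5`. -/

set_option autoImplicit false
open Matrix Polynomial

namespace Cfsg.Agent.Helper66.THGEXC5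

variable {F : Type*} [Field F] [Fintype F]

/-- the explicit labelling of `Fin 5` used for the permutation -/
def lab5 : Fin 2 ⊕ (Fin 2 ⊕ Unit) ≃ Fin 5 where
  toFun s := Sum.elim (fun i => ![1, 3] i) (Sum.elim (fun i => ![2, 4] i) (fun _ => 0)) s
  invFun j := ![Sum.inr (Sum.inr ()), Sum.inl 0, Sum.inr (Sum.inl 0), Sum.inl 1,
    Sum.inr (Sum.inl 1)] j
  left_inv := by
    rintro (i | i | u)
    · fin_cases i <;> rfl
    · fin_cases i <;> rfl
    · rfl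
  right_inv := by
    intro j
    fin_cases j <;> rfl

/-- GEXC5 (level 2: uses EXZ EXD COMB5 EXISO OMEGA) -/
theorem good_exc_five (h2 : (2 : F) ≠ 0) (hv : padicValNat 5 (Fintype.card F - 1) = 1)
    (Q : (Fin 5 → F) → F) (hQ : Cfsg.Geo.IsNondegenerateQuadraticForm Q)
    (x : GL (Fin 5) F) (hdet : x ∈ Cfsg.Geo.specialLinear (Fin 5) F) (z : F)
    (hx : ((x ^ 5 : GL (Fin 5) F) : Matrix (Fin 5) (Fin 5) F) = z • (1 : Matrix (Fin 5) (Fin 5) F)) :
    ∃ h : GL (Fin 5) F, h⁻¹ * x * h ∈ Cfsg.Geo.quadSimilarityGroup Q := by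
  classical
  -- det x = 1
  have hdet' : (x : Matrix (Fin 5) (Fin 5) F).det = 1 := by
    have h1 : Matrix.GeneralLinearGroup.det x = 1 := MonoidHom.mem_ker.1 hdet
    have h2 := congrArg Units.val h1
    simpa using h2
  have hx' : (x : Matrix (Fin 5) (Fin 5) F) ^ 5 = z • (1 : Matrix (Fin 5) (Fin 5) F) := by
    rw [← hx, Units.val_pow_eq_pow_val]
  have hz : z = 1 := Cfsg.Agent.Helper60.THEXZ.exc_pow_one 5 Nat.prime_five (by norm_num) hv
    (x : Matrix (Fin 5) (Fin 5) F) hdet' z hx'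
  have hx5 : (x : Matrix (Fin 5) (Fin 5) F) ^ 5 = 1 := by rw [hx', hz, one_smul]
  -- a primitive fifth root of unity
  have hd : 5 ∣ Fintype.card F - 1 := dvd_of_one_le_padicValNat (by rw [hv])
  obtain ⟨ω, hω1, hω5⟩ := Cfsg.Agent.Helper80.THOMEGA.exists_omega (F := F) 5 Nat.prime_five hd
  have h5F : ((5 : ℕ) : F) ≠ 0 := by
    intro h5
    obtain ⟨k, hk⟩ := hd
    have hq : Fintype.card F = 5 * k + 1 := by
      have := Fintype.card_pos (α := F)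
      omega
    have h0 : ((Fintype.card F : ℕ) : F) = 0 := Nat.cast_card_eq_zero F
    rw [hq] at h0
    push_cast at h0
    have h5' : (5 : F) = 0 := by exact_mod_cast h5
    rw [h5'] at h0
    simp at h0
  haveI : Fact (Nat.Prime 5) := ⟨Nat.prime_five⟩
  have hord : orderOf ω = 5 := orderOf_eq_prime hω5 hω1
  have hω0 : ω ≠ 0 := by
    intro h0
    rw [h0] at hω5
    simp at hω5
  -- diagonalise
  obtain ⟨h₀, e, hxd⟩ := Cfsg.Agent.Helper99.THEXD.exc_diag 5 Nat.prime_five h5F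
    (x : Matrix (Fin 5) (Fin 5) F) hx5 ω hω5 hω1
  have hsum : ∑ i, ((e i : ℕ) : ZMod 5) = 0 := by
    have h1 : (Matrix.diagonal (fun i => ω ^ e i)).det = 1 := by
      rw [← hdet', hxd, Matrix.det_units_conj]
    rw [Matrix.det_diagonal, Finset.prod_pow_eq_pow_sum] at h1
    have h2 : orderOf ω ∣ ∑ i, e i := orderOf_dvd_of_pow_eq_one h1
    rw [hord] at h2
    rw [← Nat.cast_sum]
    exact (ZMod.natCast_eq_zero_iff _ 5).2 h2
  obtain ⟨σ, hσ1, hσ2⟩ := Cfsg.Agent.Helper78.THCOMB5.comb_five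
    (fun i => ((e i : ℕ) : ZMod 5)) hsum
  have hpow : ∀ a b : Fin 5, ((e a : ℕ) : ZMod 5) + ((e b : ℕ) : ZMod 5) = 2 * ((e (σ 0) : ℕ) : ZMod 5) →
      ω ^ e a * ω ^ e b = (ω ^ e (σ 0)) ^ 2 := by
    intro a b hab
    rw [← pow_add, ← pow_mul, mul_comm (e (σ 0)) 2]
    have hmod : (e a + e b) % 5 = (2 * e (σ 0)) % 5 := by
      apply (ZMod.natCast_eq_natCast_iff' _ _ 5).1
      push_cast
      exact hab
    rw [← pow_mod_orderOf ω (e a + e b), ← pow_mod_orderOf ω (2 * e (σ 0)), hord, hmod]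
  obtain ⟨c, hc⟩ : ∃ c : F, c = ω ^ e (σ 0) := ⟨_, rfl⟩
  have hc0 : c ≠ 0 := by rw [hc]; exact pow_ne_zero _ hω0
  have hsplit : ∀ a b : Fin 5, ω ^ e a * ω ^ e b = (ω ^ e (σ 0)) ^ 2 →
      ∃ t : F, t ≠ 0 ∧ ω ^ e a = c * t ∧ ω ^ e b = c * t⁻¹ := by
    intro a b hab
    obtain ⟨t, ht⟩ : ∃ t : F, t = ω ^ e a * c⁻¹ := ⟨_, rfl⟩
    have ht0 : t ≠ 0 := by
      rw [ht]
      exact mul_ne_zero (pow_ne_zero _ hω0) (inv_ne_zero hc0)
    have h1 : ω ^ e a = c * t := by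
      rw [ht]
      field_simp
    refine ⟨t, ht0, h1, ?_⟩
    have h3 : c * t * ω ^ e b = c ^ 2 := by rw [← h1, hab, hc]
    field_simp
    apply mul_left_cancel₀ hc0
    linear_combination h3
  obtain ⟨t1, ht1, h11, h12⟩ := hsplit (σ 1) (σ 2) (hpow _ _ hσ1)
  obtain ⟨t2, ht2, h21, h22⟩ := hsplit (σ 3) (σ 4) (hpow _ _ hσ2)
  have hiso : ∃ (y h : GL (Fin 5) F) (e : Fin 2 ⊕ (Fin 2 ⊕ Unit) ≃ Fin 5),
      (∀ v, Q ((y : Matrix (Fin 5) (Fin 5) F) *ᵥ v) = Q v) ∧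
      (y : Matrix (Fin 5) (Fin 5) F) = (h : Matrix (Fin 5) (Fin 5) F) *
          Matrix.diagonal (fun j => Sum.elim ![t1, t2]
            (Sum.elim (fun i : Fin 2 => (![t1, t2] i)⁻¹) (fun _ : Unit => (1 : F))) (e.symm j)) *
          ((h⁻¹ : GL (Fin 5) F) : Matrix (Fin 5) (Fin 5) F) :=
    Cfsg.Agent.Helper66.THEXISO.exc_iso h2 2 Q hQ ![t1, t2] (by
      intro i
      fin_cases i
      · exact ht1
      · exact ht2)
  obtain ⟨y, h₁, e', hyQ, hyd⟩ := hiso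
  -- the permutation
  obtain ⟨π, hπ⟩ : ∃ π : Equiv.Perm (Fin 5), π = (e'.symm.trans lab5).trans σ := ⟨_, rfl⟩
  have hkey : ∀ j : Fin 5, ω ^ e (π j) = c * Sum.elim ![t1, t2]
      (Sum.elim (fun i : Fin 2 => (![t1, t2] i)⁻¹) (fun _ : Unit => (1 : F))) (e'.symm j) := by
    intro j
    have hπj : π j = σ (lab5 (e'.symm j)) := by rw [hπ]; rfl
    rw [hπj]
    rcases e'.symm j with i | i | u
    · fin_cases i
      · exact h11
      · exact h21
    · fin_cases i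
      · exact h12
      · exact h22
    · show ω ^ e (σ 0) = c * 1
      rw [mul_one, hc]
  -- the permutation matrix
  obtain ⟨P, hP⟩ : ∃ P : Matrix (Fin 5) (Fin 5) F, P = (1 : Matrix (Fin 5) (Fin 5) F).submatrix id π :=
    ⟨_, rfl⟩
  obtain ⟨P', hP'⟩ : ∃ P' : Matrix (Fin 5) (Fin 5) F,
      P' = (1 : Matrix (Fin 5) (Fin 5) F).submatrix π id := ⟨_, rfl⟩
  have hPP' : P * P' = 1 := by
    rw [hP, hP', Matrix.submatrix_mul_equiv, Matrix.one_mul, Matrix.submatrix_id_id]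
  have hP'P : P' * P = 1 := by
    rw [hP, hP']
    have := Matrix.submatrix_mul_equiv (1 : Matrix (Fin 5) (Fin 5) F) (1 : Matrix (Fin 5) (Fin 5) F)
      π (Equiv.refl (Fin 5)) π
    rw [Matrix.one_mul, Matrix.submatrix_one_equiv] at this
    exact this
  have hDP : Matrix.diagonal (fun i => ω ^ e i) * P =
      P * Matrix.diagonal (fun j => c * Sum.elim ![t1, t2]
        (Sum.elim (fun i : Fin 2 => (![t1, t2] i)⁻¹) (fun _ : Unit => (1 : F))) (e'.symm j)) := by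
    ext i j
    rw [Matrix.diagonal_mul, Matrix.mul_diagonal, hP]
    simp only [Matrix.submatrix_apply, id, Matrix.one_apply]
    split_ifs with hij
    · rw [hij, hkey j]
      ring
    · simp
  obtain ⟨Pu, hPu, hPu'⟩ : ∃ Pu : GL (Fin 5) F, (Pu : Matrix (Fin 5) (Fin 5) F) = P ∧
      ((Pu⁻¹ : GL (Fin 5) F) : Matrix (Fin 5) (Fin 5) F) = P' := ⟨⟨P, P', hPP', hP'P⟩, rfl, rfl⟩
  refine ⟨h₀ * Pu * h₁⁻¹, ?_⟩
  have hmat : ((((h₀ * Pu * h₁⁻¹)⁻¹ * x * (h₀ * Pu * h₁⁻¹) : GL (Fin 5) F)) :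
      Matrix (Fin 5) (Fin 5) F) = c • (y : Matrix (Fin 5) (Fin 5) F) := by
    have hinv : (h₀ * Pu * h₁⁻¹)⁻¹ = h₁ * Pu⁻¹ * h₀⁻¹ := by group
    rw [hinv]
    simp only [Units.val_mul]
    rw [hPu, hPu', hxd]
    rw [Cfsg.Agent.Helper66.THGEXC3.conj_calc (h₀ : Matrix (Fin 5) (Fin 5) F)
      ((h₀⁻¹ : GL (Fin 5) F) : Matrix (Fin 5) (Fin 5) F)
      (h₁ : Matrix (Fin 5) (Fin 5) F) ((h₁⁻¹ : GL (Fin 5) F) : Matrix (Fin 5) (Fin 5) F) P P' _ _
      (Units.inv_mul h₀) hP'P hDP]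
    rw [hyd]
    have hsm : Matrix.diagonal (fun j => c * Sum.elim ![t1, t2]
        (Sum.elim (fun i : Fin 2 => (![t1, t2] i)⁻¹) (fun _ : Unit => (1 : F))) (e'.symm j)) =
        c • Matrix.diagonal (fun j => Sum.elim ![t1, t2]
        (Sum.elim (fun i : Fin 2 => (![t1, t2] i)⁻¹) (fun _ : Unit => (1 : F))) (e'.symm j)) := by
      ext i j
      simp [Matrix.diagonal_apply]
    rw [hsm, Matrix.mul_smul, Matrix.smul_mul]
  refine ⟨Units.mk0 (c ^ 2) (pow_ne_zero 2 hc0), fun v => ?_⟩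
  rw [hmat, Matrix.smul_mulVec, hQ.smul, hyQ]
  rfl

end Cfsg.Agent.Helper66.THGEXC5
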