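import Mathlib
import Cfsg.Agent.Helper13.TLDefs

set_option autoImplicit false

/-!
# S5954, piece UDUAL
-/

namespace Cfsg.Agent.Helper66.TI5954

open Module Polynomial
open Cfsg.Agent.Helper13.TIu Cfsg.Agent.Helper13.TIsp

section geom

variable {F : Type*} [Field F] {σ : F →+* F} {V : Type*} [AddCommGroup V] [Module F V]
  [FiniteDimensional F V] (B : V →ₛₗ[σ] V →ₗ[F] F)

/-- `a ^ (q ^ k) = a ^ q` for odd `k` when `|F| = q ^ 2` -/
theorem udual_pow [Fintype F] (q : ℕ) (hq : Fintype.card F = q ^ 2) (k : ℕ) (hk : Odd k)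
    (a : F) : a ^ (q ^ k) = a ^ q := by
  obtain ⟨j, rfl⟩ := hk
  rw [pow_succ, pow_mul, pow_mul, ← hq, FiniteField.pow_card_pow]

/-- over a field of order `q ^ 2` with `σ a = a ^ q`: `expand (q ^ k) (g.map σ) = g ^ (q ^ k)` for
odd `k` -/
theorem udual_expand [Fintype F] (q : ℕ) (hq : Fintype.card F = q ^ 2) (hσ : ∀ a, σ a = a ^ q)
    (k : ℕ) (hk : Odd k) (g : F[X]) : expand F (q ^ k) (g.map σ) = g ^ (q ^ k) := by
  obtain ⟨p, hp⟩ := CharP.exists F
  haveI := hp
  obtain ⟨n, hpp, hcard⟩ := FiniteField.card F p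
  haveI : Fact p.Prime := ⟨hpp⟩
  have hqdvd : q ∣ p ^ (n : ℕ) := by
    rw [← hcard, hq]
    exact dvd_pow_self q two_ne_zero
  obtain ⟨e, -, he⟩ := (Nat.dvd_prime_pow hpp).1 hqdvd
  haveI : ExpChar F p := ExpChar.prime hpp
  have hσF : σ = iterateFrobenius F p (e * k) := by
    ext a
    rw [hσ, iterateFrobenius_def, pow_mul, ← he, udual_pow q hq k hk]
  have h1 := map_iterateFrobenius_expand p g (e * k)
  rw [Polynomial.map_expand, ← hσF] at h1
  have hqk : q ^ k = p ^ (e * k) := by rw [he, pow_mul]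
  rw [hqk]
  exact h1

/-- UDUAL (case D): mirror `dual_ann` with the `σ`-twist. -/
theorem u_dual_ann [Fintype F] (q : ℕ) (hq : Fintype.card F = q ^ 2) (hσ : ∀ a, σ a = a ^ q)
    (T : Module.End F V) (hT : UPres B T) (k : ℕ) (hk : Odd k) (hQ : T ^ (q ^ k) * T = 1)
    (U₁ U₂ : Submodule F V) (hU₂ : U₂.map T ≤ U₂)
    (hpair : ∀ w ∈ U₂, (∀ u ∈ U₁, B w u = 0) → w = 0) (g : F[X])
    (hg : ∀ u ∈ U₁, aeval T g u = 0) : ∀ w ∈ U₂, aeval T g w = 0 := by
  classical
  have hσσ : ∀ a, σ (σ a) = a := by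
    intro a
    rw [hσ, hσ, ← pow_mul, ← sq, ← hq, FiniteField.pow_card]
  obtain ⟨Q, hQdef⟩ : ∃ Q, Q = q ^ k := ⟨_, rfl⟩
  rw [← hQdef] at hQ
  obtain ⟨S, hS⟩ : ∃ S : Module.End F V, S = T ^ Q := ⟨_, rfl⟩
  have hTr : T ^ (Q + 1) = 1 := by
    rw [pow_succ]
    exact hQ
  rw [← hS] at hQ
  have hTS : T * S = 1 := by
    rw [hS, ← pow_succ']
    exact hTr
  -- the adjoint of `S` is `T`
  have hadj1 : ∀ w u, B (S w) u = B w (T u) := by
    intro w u
    have h1 := hT (S w) u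
    rw [← Module.End.mul_apply, hTS, Module.End.one_apply] at h1
    exact h1.symm
  have hadjpow : ∀ n : ℕ, ∀ w u, B ((S ^ n) w) u = B w ((T ^ n) u) := by
    intro n
    induction n with
    | zero =>
      intro w u
      simp
    | succ n ih =>
      intro w u
      rw [pow_succ', Module.End.mul_apply, hadj1, ih, ← Module.End.mul_apply, ← pow_succ]
  have hadj : ∀ (p : F[X]) (w u : V), B (aeval S (p.map σ) w) u = B w (aeval T p u) := by
    intro p w u
    rw [aeval_eq_sum_range' (lt_of_le_of_lt natDegree_map_le (Nat.lt_succ_self p.natDegree)),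
      aeval_eq_sum_range]
    simp only [LinearMap.sum_apply, LinearMap.smul_apply, map_sum, map_smul,
      LinearMap.map_smulₛₗ, coeff_map, hadjpow, smul_eq_mul, hσσ]
  -- semisimplicity
  have hqF : (q : F) = 0 := by
    have h0 : ((Fintype.card F : ℕ) : F) = 0 := Nat.cast_card_eq_zero F
    rw [hq] at h0
    push_cast at h0
    exact pow_eq_zero_iff (two_ne_zero) |>.1 h0
  have hk1 : k ≠ 0 := by
    rcases hk with ⟨j, rfl⟩
    omega
  have hrF : ((Q + 1 : ℕ) : F) ≠ 0 := by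
    rw [hQdef]
    push_cast
    rw [hqF, zero_pow hk1, zero_add]
    exact one_ne_zero
  have hsq : Squarefree (X ^ (Q + 1) - 1 : F[X]) :=
    (X_pow_sub_one_separable_iff.2 hrF).squarefree
  have hTss : T.IsSemisimple := by
    apply Module.End.isSemisimple_of_squarefree_aeval_eq_zero hsq
    rw [map_sub, map_pow, aeval_X, map_one, hTr, sub_self]
  have hAss : (aeval T g).IsSemisimple := hTss.aeval g
  have hSg : aeval S (g.map σ) = (aeval T g) ^ Q := by
    rw [hS, ← expand_aeval, hQdef, udual_expand q hq hσ k hk g, map_pow]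
  intro w hw
  apply Cfsg.Agent.Helper60.TI5961.dualann_ker_pow (aeval T g) hAss Q w
  rw [← hSg]
  apply hpair
  · rw [hSg, ← map_pow]
    exact Cfsg.Agent.Helper90.BG.aeval_mem T U₂ hU₂ _ hw
  · intro u hu
    rw [hadj, hg u hu, map_zero]

end geom

end Cfsg.Agent.Helper66.TI5954
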