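import Cfsg.Agent.Helper97.UNot

/-!
# Piece C2N of CALL S5832 (helper97)

`notSU_c2_normalizer`: for `n ≥ 5` the special unitary group is not contained in the normaliser of
an absolutely irreducible subgroup `N` of `GL_n(q²)` whose commutators are scalar.
-/

set_option autoImplicit false
open Cfsg Cfsg.Geo Matrix

namespace Cfsg.Agent.Helper66

theorem c2n_fix_dim {F : Type*} [Field F] {n : ℕ} (φ : (Fin n → F) →ₗ[F] F)
    (A : (Fin n → F) →ₗ[F] (Fin n → F)) (K : Submodule F (Fin n → F))
    (hK : ∀ v, φ v = 0 → φ (A v) = 0 → v ∈ K) : n ≤ Module.finrank F K + 2 := by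
  obtain ⟨ψ, hψ⟩ : ∃ ψ : (Fin n → F) →ₗ[F] F × F, ψ = φ.prod (φ.comp A) := ⟨_, rfl⟩
  have h1 : LinearMap.ker ψ ≤ K := by
    intro v hv
    rw [LinearMap.mem_ker, hψ] at hv
    have h2 : φ v = 0 := congrArg Prod.fst hv
    have h3 : φ (A v) = 0 := congrArg Prod.snd hv
    exact hK v h2 h3
  have h2 := LinearMap.finrank_range_add_finrank_ker ψ
  have h3 : Module.finrank F (LinearMap.range ψ) ≤ 2 := by
    have := Submodule.finrank_le (LinearMap.range ψ)
    rwa [Module.finrank_prod, Module.finrank_self] at this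
  have h4 : Module.finrank F (LinearMap.ker ψ) ≤ Module.finrank F K := Submodule.finrank_mono h1
  rw [Module.finrank_fin_fun] at h2
  omega

theorem c2n_disjoint_dim {F : Type*} [Field F] {n : ℕ} (K E : Submodule F (Fin n → F))
    (R : (Fin n → F) →ₗ[F] (Fin n → F)) (hR : Function.Injective R) (hKE : Disjoint K E)
    (hmap : ∀ v ∈ K, R v ∈ E) : 2 * Module.finrank F K ≤ n := by
  have h1 : K.map R ≤ E := by
    rintro _ ⟨v, hv, rfl⟩
    exact hmap v hv
  have h2 : Module.finrank F (K.map R) = Module.finrank F K :=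
    (Submodule.equivMapOfInjective R hR K).finrank_eq.symm
  have h3 : Disjoint K (K.map R) := hKE.mono_right h1
  have h4 := Submodule.finrank_add_finrank_le_of_disjoint h3
  rw [Module.finrank_fin_fun] at h4
  omega

/-- **Piece C2N of CALL S5832.** -/
theorem notSU_c2_normalizer {F : Type*} [Field F] [Fintype F] {n q : ℕ} {σ : F ≃+* F}
    (h : Helper97.IsSigma q σ) (hF : Fintype.card F = q ^ 2) (hn : 5 ≤ n)
    (N : Subgroup (GL (Fin n) F)) (habs : ActsAbsolutelyIrreducibly (matrixSet N))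
    (hab : ∀ a ∈ N, ∀ b ∈ N, a * b * a⁻¹ * b⁻¹ ∈ scalars (Fin n) F) :
    ¬ GU n F q ⊓ specialLinear (Fin n) F ≤ subgroupNormalizer N := by
  classical
  intro hle
  obtain ⟨c, hc0, hc⟩ := h.exists_trace_zero
  obtain ⟨u, hu0, hu⟩ := h.exists_isotropic hF (by omega : 2 ≤ n)
  obtain ⟨t, htG, ht, htinv⟩ := h.exists_utv u hu c hc
  have htN : t ∈ subgroupNormalizer N := hle htG
  have hS := h.isSesq (n := n)
  -- the linear functional `v ↦ f(v, u)`
  obtain ⟨φ, hφ⟩ : ∃ φ : (Fin n → F) →ₗ[F] F, ∀ v, φ v = hermForm n F q v u :=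
    ⟨{ toFun := fun v => hermForm n F q v u
       map_add' := fun x y => hS.add_left x y u
       map_smul' := fun a x => hS.smul_left a x u }, fun v => rfl⟩
  have hcomm : ∀ x ∈ N, t * x = x * t := by
    intro x hx
    have hw : t * x * t⁻¹ * x⁻¹ ∈ N := by
      have h1 : t * x * t⁻¹ ∈ N := (Subgroup.mem_normalizer_iff.mp htN x).mp hx
      exact N.mul_mem h1 (N.inv_mem hx)
    obtain ⟨w, hwdef⟩ : ∃ w, w = t * x * t⁻¹ * x⁻¹ := ⟨_, rfl⟩
    rw [← hwdef] at hw
    have hwv : ∀ v, (w : Matrix (Fin n) (Fin n) F) *ᵥ v = (t : Matrix (Fin n) (Fin n) F) *ᵥ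
        ((x : Matrix (Fin n) (Fin n) F) *ᵥ (((t⁻¹ : GL (Fin n) F) : Matrix (Fin n) (Fin n) F) *ᵥ
          (((x⁻¹ : GL (Fin n) F) : Matrix (Fin n) (Fin n) F) *ᵥ v))) := by
      intro v
      rw [hwdef]
      simp only [Units.val_mul, Matrix.mulVec_mulVec, Matrix.mul_assoc]
    -- the fixed space of `w`
    obtain ⟨K, hKdef⟩ : ∃ K : Submodule F (Fin n → F),
        K = LinearMap.ker (Matrix.toLin' ((w : Matrix (Fin n) (Fin n) F) - 1)) := ⟨_, rfl⟩
    have hK : ∀ v, v ∈ K ↔ (w : Matrix (Fin n) (Fin n) F) *ᵥ v = v := by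
      intro v
      rw [hKdef, LinearMap.mem_ker, Matrix.toLin'_apply, Matrix.sub_mulVec, Matrix.one_mulVec,
        sub_eq_zero]
    have hdim : n ≤ Module.finrank F K + 2 := by
      apply c2n_fix_dim φ (Matrix.toLin' ((x⁻¹ : GL (Fin n) F) : Matrix (Fin n) (Fin n) F)) K
      intro v hv1 hv2
      rw [hK, hwv]
      rw [hφ] at hv1
      rw [Matrix.toLin'_apply, hφ] at hv2
      rw [htinv, hv2, mul_zero, zero_smul, sub_zero, Helper97.mulVec_cancel_inv, ht, hv1,
        mul_zero, zero_smul, add_zero]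
    -- `w` commutes with `N`
    have hwcomm : ∀ r ∈ N, (w : Matrix (Fin n) (Fin n) F) * (r : Matrix (Fin n) (Fin n) F) =
        (r : Matrix (Fin n) (Fin n) F) * (w : Matrix (Fin n) (Fin n) F) := by
      intro r hr
      obtain ⟨μ, hμ⟩ := (mem_scalars_iff _).mp (hab w hw r hr)
      have h1 : (w : Matrix (Fin n) (Fin n) F) * (r : Matrix (Fin n) (Fin n) F) =
          (μ : F) • ((r : Matrix (Fin n) (Fin n) F) * (w : Matrix (Fin n) (Fin n) F)) := by
        have h2 : w * r = (w * r * w⁻¹ * r⁻¹) * (r * w) := by group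
        have h3 := congrArg Units.val h2
        rw [Units.val_mul, Units.val_mul (w * r * w⁻¹ * r⁻¹), hμ, Units.val_mul, Matrix.smul_mul,
          Matrix.one_mul] at h3
        exact h3
      by_cases hμ1 : (μ : F) = 1
      · rw [h1, hμ1, one_smul]
      · exfalso
        obtain ⟨E, hEdef⟩ : ∃ E : Submodule F (Fin n → F), E = LinearMap.ker
            (Matrix.toLin' ((w : Matrix (Fin n) (Fin n) F) - (μ : F) • 1)) := ⟨_, rfl⟩
        have hE : ∀ v, v ∈ E ↔ (w : Matrix (Fin n) (Fin n) F) *ᵥ v = (μ : F) • v := by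
          intro v
          rw [hEdef, LinearMap.mem_ker, Matrix.toLin'_apply, Matrix.sub_mulVec, Matrix.smul_mulVec,
            Matrix.one_mulVec, sub_eq_zero]
        have hdisj : Disjoint K E := by
          rw [Submodule.disjoint_def]
          intro v hvK hvE
          rw [hK] at hvK
          rw [hE, hvK] at hvE
          have h4 : ((μ : F) - 1) • v = 0 := by rw [sub_smul, one_smul, ← hvE, sub_self]
          rcases smul_eq_zero.mp h4 with h5 | h5
          · exact absurd (sub_eq_zero.mp h5) hμ1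
          · exact h5
        have h6 := c2n_disjoint_dim K E (Matrix.toLin' (r : Matrix (Fin n) (Fin n) F)) (by
            intro v v' hvv
            rw [Matrix.toLin'_apply, Matrix.toLin'_apply] at hvv
            exact Helper97.mulVec_injective r hvv) hdisj (by
            intro v hv
            rw [hK] at hv
            rw [hE, Matrix.toLin'_apply, Matrix.mulVec_mulVec, h1, Matrix.smul_mulVec,
              ← Matrix.mulVec_mulVec, hv])
        omega
    obtain ⟨d, hd⟩ := habs.2 (w : Matrix (Fin n) (Fin n) F) (by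
      rintro s ⟨r, hr, rfl⟩
      exact hwcomm r hr)
    have hKpos : 0 < Module.finrank F K := by omega
    obtain ⟨v, hvK, hv0⟩ : ∃ v ∈ K, v ≠ 0 := by
      by_contra hcon
      push Not at hcon
      have hbot : K = ⊥ := by
        rw [Submodule.eq_bot_iff]
        exact hcon
      rw [hbot, finrank_bot] at hKpos
      exact lt_irrefl _ hKpos
    rw [hK, hd, Matrix.smul_mulVec, Matrix.one_mulVec] at hvK
    have hd1 : d = 1 := by
      have h4 : (d - 1) • v = 0 := by rw [sub_smul, one_smul, hvK, sub_self]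
      rcases smul_eq_zero.mp h4 with h5 | h5
      · exact sub_eq_zero.mp h5
      · exact absurd h5 hv0
    have hw1 : w = 1 := by
      apply Units.ext
      rw [hd, hd1, one_smul, Units.val_one]
    rw [hwdef] at hw1
    have h7 : t * x = (t * x * t⁻¹ * x⁻¹) * (x * t) := by group
    rw [h7, hw1, one_mul]
  -- so `t` is scalar
  obtain ⟨c', hc'⟩ := habs.2 (t : Matrix (Fin n) (Fin n) F) (by
    rintro s ⟨x, hx, rfl⟩
    have h1 := congrArg Units.val (hcomm x hx)
    rw [Units.val_mul, Units.val_mul] at h1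
    exact h1)
  have h1 : (t : Matrix (Fin n) (Fin n) F) *ᵥ u = u := by
    rw [ht, hu, mul_zero, zero_smul, add_zero]
  rw [hc', Matrix.smul_mulVec, Matrix.one_mulVec] at h1
  have hc'1 : c' = 1 := by
    have h4 : (c' - 1) • u = 0 := by rw [sub_smul, one_smul, h1, sub_self]
    rcases smul_eq_zero.mp h4 with h5 | h5
    · exact sub_eq_zero.mp h5
    · exact absurd h5 hu0
  obtain ⟨v, hv⟩ := (h.isUnitaryForm.nondegenerate u hu0).1
  have h2 := ht v
  rw [hc', hc'1, one_smul, Matrix.one_mulVec] at h2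
  have h3 : (c * hermForm n F q v u) • u = 0 := by
    have h4 : v + (c * hermForm n F q v u) • u = v + 0 := by rw [← h2, add_zero]
    exact add_left_cancel h4
  rcases smul_eq_zero.mp h3 with h5 | h5
  · rcases mul_eq_zero.mp h5 with h6 | h6
    · exact hc0 h6
    · exact hv h6
  · exact hu0 h5

end Cfsg.Agent.Helper66
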