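import Mathlib
import Cfsg.Agent.Helper66.Sharp3Simple
import Cfsg.Agent.Helper12.Sharp3Iso
import Cfsg.Agent.Helper71.ZassOdd
import Cfsg.Agent.Helper13.Zass

set_option autoImplicit false

/-!
# Zassenhaus groups with two point stabiliser of odd order `e ≥ (|Ω| - 2) / 2` (helper66)

* `zass_sharp3_perm_iso`: a Zassenhaus group with `|G_{a,b}| = |Ω| - 2` is isomorphic to a sharply
  3-transitive subgroup of `Equiv.Perm Ω`.
* `zass_card_stab_dvd`: `|G_{a,b}|` divides `|Ω| - 2`.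
* `zass_odd_small`: if `|G_{a,b}|` is odd and `|Ω| - 2 ≤ 2 |G_{a,b}|` then `G ≅ PSL(2, F)`.
-/

namespace Cfsg.Agent.Helper66

open MulAction

section ZassFinal

variable {G Ω : Type*} [Group G] [MulAction G Ω]

theorem zass_sharp3_perm_iso [Finite G] [Fintype Ω] (hZ : Cfsg.IsZassenhausGroup G Ω)
    {a b : Ω} (hab : a ≠ b)
    (hd : Nat.card ↥(stabilizer G a ⊓ stabilizer G b) + 2 = Fintype.card Ω) :
    ∃ G' : Subgroup (Equiv.Perm Ω), Nonempty (G ≃* G') ∧ IsMultiplyPretransitive G' Ω 3 ∧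
      (∀ x : Fin 3 ↪ Ω, stabilizer G' x = ⊥) := by
  classical
  have hfaith := hZ.1
  have hinj : Function.Injective (MulAction.toPermHom G Ω) := MulAction.toPerm_injective
  have hne : ∀ (x : Fin 3 ↪ Ω) (i j : Fin 3), i ≠ j → x i ≠ x j :=
    fun x i j hij h => hij (x.injective h)
  refine ⟨(MulAction.toPermHom G Ω).range, ⟨MonoidHom.ofInjective hinj⟩, ?_, ?_⟩
  · refine ⟨fun x y => ?_⟩
    have hx01 := hne x 0 1 (by decide)
    have hx02 := hne x 0 2 (by decide)
    have hx12 := hne x 1 2 (by decide)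
    have hy01 := hne y 0 1 (by decide)
    have hy02 := hne y 0 2 (by decide)
    have hy12 := hne y 1 2 (by decide)
    obtain ⟨g₁, hg₁0, hg₁1⟩ := Cfsg.Agent.Helper15.zass_two_trans hZ hx01 hy01
    have hw0 : g₁ • x 2 ≠ y 0 := by
      rw [← hg₁0]
      exact fun h => hx02 (MulAction.injective g₁ h).symm
    have hw1 : g₁ • x 2 ≠ y 1 := by
      rw [← hg₁1]
      exact fun h => hx12 (MulAction.injective g₁ h).symm
    have hd' : Nat.card ↥(stabilizer G (y 0) ⊓ stabilizer G (y 1)) + 2 = Fintype.card Ω := by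
      rw [Cfsg.Agent.Helper15.zass_card_stab_inf hZ hab hy01]
      exact hd
    obtain ⟨k, hk0, hk1, hk2⟩ := zass_sharp3_trans hZ hy01 hd' hw0 hw1 (y 2) (Ne.symm hy02)
      (Ne.symm hy12)
    refine ⟨⟨MulAction.toPermHom G Ω (k * g₁), ⟨_, rfl⟩⟩, ?_⟩
    ext i
    rw [Function.Embedding.smul_apply]
    show (k * g₁) • x i = y i
    have h0 : (k * g₁) • x 0 = y 0 := by rw [mul_smul, hg₁0, hk0]
    have h1 : (k * g₁) • x 1 = y 1 := by rw [mul_smul, hg₁1, hk1]
    have h2 : (k * g₁) • x 2 = y 2 := by rw [mul_smul, hk2]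
    fin_cases i
    · exact h0
    · exact h1
    · exact h2
  · intro x
    rw [Subgroup.eq_bot_iff_forall]
    rintro ⟨σ, g, rfl⟩ hσ
    rw [mem_stabilizer_iff] at hσ
    have hfix : ∀ i, g • x i = x i := by
      intro i
      have := congrArg (fun e : Fin 3 ↪ Ω => e i) hσ
      exact this
    have hg1 : g = 1 := Cfsg.Agent.Helper15.zass_eq_one_of_fix_three hZ (hne x 0 1 (by decide))
      (hne x 1 2 (by decide)) (hne x 0 2 (by decide)) (hfix 0) (hfix 1) (hfix 2)
    apply Subtype.ext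
    show MulAction.toPermHom G Ω g = 1
    rw [hg1, map_one]

/-- The order of the two point stabiliser divides `|Ω| - 2`. -/
theorem zass_card_stab_dvd [Finite G] [Fintype Ω] (hZ : Cfsg.IsZassenhausGroup G Ω)
    {a b : Ω} (hab : a ≠ b) :
    Nat.card ↥(stabilizer G a ⊓ stabilizer G b) ∣ Fintype.card Ω - 2 := by
  classical
  obtain ⟨H, hH⟩ : ∃ H : Subgroup G,
      H = MulAction.stabilizer G a ⊓ MulAction.stabilizer G b := ⟨_, rfl⟩
  rw [← hH]
  have hHmem : ∀ x : G, x ∈ H ↔ x • a = a ∧ x • b = b := by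
    intro x
    rw [hH, Subgroup.mem_inf, MulAction.mem_stabilizer_iff, MulAction.mem_stabilizer_iff]
  have hXmem : ∀ x : Ω, x ∈ ((Finset.univ \ {a, b} : Finset Ω) : Set Ω) ↔ x ≠ a ∧ x ≠ b := by
    intro x
    simp [not_or]
  let X : SubMulAction H Ω :=
    { carrier := ((Finset.univ \ {a, b} : Finset Ω) : Set Ω)
      smul_mem' := by
        rintro ⟨h, hh⟩ x hx
        rw [hXmem] at hx ⊢
        obtain ⟨hha, hhb⟩ := (hHmem h).mp hh
        refine ⟨?_, ?_⟩
        · intro h'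
          have h'' : h • x = h • a := by rw [hha]; exact h'
          exact hx.1 (MulAction.injective h h'')
        · intro h'
          have h'' : h • x = h • b := by rw [hhb]; exact h'
          exact hx.2 (MulAction.injective h h'') }
  have hfree : ∀ (h : H) (y : X), h • y = y → h = 1 := by
    intro h y hy
    have hy' : (h : G) • (y : Ω) = y := congrArg Subtype.val hy
    have hy2 : (y : Ω) ∈ ((Finset.univ \ {a, b} : Finset Ω) : Set Ω) := y.2
    obtain ⟨hya, hyb⟩ := (hXmem _).mp hy2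
    obtain ⟨hha, hhb⟩ := (hHmem _).mp h.2
    apply Subtype.ext
    exact Cfsg.Agent.Helper15.zass_eq_one_of_fix_three hZ hab (Ne.symm hyb) (Ne.symm hya)
      hha hhb hy'
  have hdvd := Cfsg.Agent.Helper13.card_dvd_of_free hfree
  have hXcard : Nat.card X = Fintype.card Ω - 2 := by
    change Nat.card ((Finset.univ \ {a, b} : Finset Ω) : Set Ω) = _
    rw [Nat.card_coe_set_eq, Set.ncard_coe_finset, Finset.card_univ_sdiff, Finset.card_pair hab]
  rw [hXcard] at hdvd
  exact hdvd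

/-- A Zassenhaus group whose two point stabiliser has odd order `e` with `|Ω| - 2 ≤ 2 e` is
`PSL(2, F)`. -/
theorem zass_odd_small [Finite G] [Fintype Ω] (hZ : Cfsg.IsZassenhausGroup G Ω)
    {a b : Ω} (hab : a ≠ b)
    (hodd : Odd (Nat.card ↥(stabilizer G a ⊓ stabilizer G b)))
    (hle : Fintype.card Ω - 2 ≤ 2 * Nat.card ↥(stabilizer G a ⊓ stabilizer G b)) :
    ∃ (F : Type) (_ : Field F) (_ : Fintype F),
      Nonempty (G ≃* Matrix.ProjectiveSpecialLinearGroup (Fin 2) F) := by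
  classical
  have h3le : 3 ≤ Fintype.card Ω := by
    have := Cfsg.Agent.Helper15.zass_three_le_card hZ
    rwa [Nat.card_eq_fintype_card] at this
  obtain ⟨m, hm⟩ := zass_card_stab_dvd hZ hab
  have hdpos : 0 < Nat.card ↥(stabilizer G a ⊓ stabilizer G b) := Nat.card_pos
  have hm12 : m = 1 ∨ m = 2 := by
    have hm0 : m ≠ 0 := by
      rintro rfl
      rw [mul_zero] at hm
      omega
    have hm2 : m ≤ 2 := by
      by_contra hcon
      push Not at hcon
      have : Nat.card ↥(stabilizer G a ⊓ stabilizer G b) * 3 ≤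
          Nat.card ↥(stabilizer G a ⊓ stabilizer G b) * m := Nat.mul_le_mul_left _ hcon
      omega
    omega
  rcases hm12 with rfl | rfl
  · have hd1 : Nat.card ↥(stabilizer G a ⊓ stabilizer G b) + 2 = Fintype.card Ω := by omega
    have hoddΩ : Odd (Fintype.card Ω) := by
      rw [← hd1]
      obtain ⟨r, hr⟩ := hodd
      exact ⟨r + 1, by omega⟩
    obtain ⟨G', ⟨e⟩, h3', hsharp'⟩ := zass_sharp3_perm_iso hZ hab hd1
    obtain ⟨f, hf, -, F, i1, i2, hF, ⟨e'⟩⟩ :=
      Cfsg.Agent.Helper12.sharp3_iso_SL G' h3' hsharp' hoddΩ h3le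
    obtain ⟨e''⟩ := Cfsg.Agent.Helper12.nonempty_psl_equiv_sl
      (Cfsg.Agent.Helper12.two_eq_zero_of_card hf hF)
    exact ⟨F, i1, i2, ⟨(e.trans e').trans e''.symm⟩⟩
  · have hd2 : 2 * Nat.card ↥(stabilizer G a ⊓ stabilizer G b) + 2 = Fintype.card Ω := by omega
    obtain ⟨p, f, K, i1, i2, -, -, -, -, hres⟩ :=
      Cfsg.Agent.Helper71.ZassOdd.zass_psl_odd hZ hab hodd hd2
    exact ⟨K, i1, i2, hres⟩

end ZassFinal

end Cfsg.Agent.Helper66
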